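import Mathlib

set_option autoImplicit false

namespace Cfsg.Agent.Lib.Helper21.BGroup

open Classical

/-- Invariance of a set of residues under the stabilizer of `0`. -/
def Inv (Γ : Type*) [Group Γ] {n : ℕ} [MulAction Γ (ZMod n)] (U : Finset (ZMod n)) : Prop :=
  ∀ γ : Γ, γ • (0 : ZMod n) = 0 → ∀ x ∈ U, γ • x ∈ U

/-- The orbit of `a` under the stabilizer of `0`. -/
noncomputable def orb (Γ : Type*) [Group Γ] {n : ℕ} [NeZero n] [MulAction Γ (ZMod n)]
    (a : ZMod n) : Finset (ZMod n) :=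
  Finset.univ.filter (fun y => ∃ γ : Γ, γ • (0 : ZMod n) = 0 ∧ γ • a = y)

/-- The sum of the elements of `T` in the group algebra over `ZMod p`. -/
noncomputable def tau {n : ℕ} (p : ℕ) (T : Finset (ZMod n)) : AddMonoidAlgebra (ZMod p) (ZMod n) :=
  ∑ t ∈ T, AddMonoidAlgebra.single t 1

section core

variable {n : ℕ} [NeZero n] {Γ : Type*} [Group Γ] [MulAction Γ (ZMod n)]

theorem zero_fix_inv {γ : Γ} (hγ : γ • (0 : ZMod n) = 0) : γ⁻¹ • (0 : ZMod n) = 0 := by
  rw [inv_smul_eq_iff, hγ]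

theorem zero_fix_mul {γ γ' : Γ} (hγ : γ • (0 : ZMod n) = 0) (hγ' : γ' • (0 : ZMod n) = 0) :
    (γ * γ') • (0 : ZMod n) = 0 := by
  rw [mul_smul, hγ', hγ]

theorem orb_inv (a : ZMod n) : Inv Γ (orb Γ a) := by
  intro γ hγ x hx
  simp only [orb, Finset.mem_filter, Finset.mem_univ, true_and] at hx ⊢
  obtain ⟨γ₁, h1, h2⟩ := hx
  exact ⟨γ * γ₁, zero_fix_mul hγ h1, by rw [mul_smul, h2]⟩

theorem mem_orb_self (a : ZMod n) : a ∈ orb Γ a := by
  simp only [orb, Finset.mem_filter, Finset.mem_univ, true_and]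
  exact ⟨1, one_smul _ _, one_smul _ _⟩

theorem orb_trans {a x y : ZMod n} (hx : x ∈ orb Γ a) (hy : y ∈ orb Γ a) :
    ∃ γ : Γ, γ • (0 : ZMod n) = 0 ∧ γ • x = y := by
  simp only [orb, Finset.mem_filter, Finset.mem_univ, true_and] at hx hy
  obtain ⟨γ₁, h1, h2⟩ := hx
  obtain ⟨γ₂, h3, h4⟩ := hy
  refine ⟨γ₂ * γ₁⁻¹, zero_fix_mul h3 (zero_fix_inv h1), ?_⟩
  rw [mul_smul, ← h2, inv_smul_smul, h4]

theorem zero_notMem_orb {a : ZMod n} (ha : a ≠ 0) : (0 : ZMod n) ∉ orb Γ a := by
  intro h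
  simp only [orb, Finset.mem_filter, Finset.mem_univ, true_and] at h
  obtain ⟨γ, h1, h2⟩ := h
  exact ha (MulAction.injective γ (h2.trans h1.symm))

theorem exists_translate (σ : Γ) (hσ : ∀ x : ZMod n, σ • x = x + 1) (c : ZMod n) :
    ∃ τ : Γ, ∀ x : ZMod n, τ • x = x + c := by
  have h : ∀ k : ℕ, ∀ x : ZMod n, (σ ^ k) • x = x + (k : ZMod n) := by
    intro k
    induction k with
    | zero =>
      intro x
      simp
    | succ k ih =>
      intro x
      rw [pow_succ, mul_smul, hσ, ih]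
      push_cast
      ring
  exact ⟨σ ^ c.val, fun x => by rw [h, ZMod.natCast_zmod_val]⟩

theorem shift (σ : Γ) (hσ : ∀ x : ZMod n, σ • x = x + 1) (γ : Γ) (a : ZMod n) :
    ∃ γ' : Γ, γ' • (0 : ZMod n) = 0 ∧ ∀ δ : ZMod n, γ • (a + δ) = γ • a + γ' • δ := by
  obtain ⟨τa, hτa⟩ := exists_translate σ hσ a
  obtain ⟨τb, hτb⟩ := exists_translate σ hσ (γ • a)
  refine ⟨τb⁻¹ * γ * τa, ?_, ?_⟩
  · rw [mul_smul, mul_smul, hτa, zero_add, inv_smul_eq_iff, hτb, zero_add]
  · intro δ
    have h1 : (τb⁻¹ * γ * τa) • δ = τb⁻¹ • (γ • (a + δ)) := by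
      rw [mul_smul, mul_smul, hτa, add_comm]
    have h2 : τb • (τb⁻¹ • (γ • (a + δ))) = γ • (a + δ) := smul_inv_smul _ _
    rw [hτb] at h2
    calc γ • (a + δ) = τb⁻¹ • (γ • (a + δ)) + γ • a := h2.symm
      _ = γ • a + (τb⁻¹ * γ * τa) • δ := by rw [h1, add_comm]

theorem lam_le (σ : Γ) (hσ : ∀ x : ZMod n, σ • x = x + 1) {T : Finset (ZMod n)} (hT : Inv Γ T)
    (γ : Γ) (hγ : γ • (0 : ZMod n) = 0) (x : ZMod n) :
    (T.filter (fun s => s - x ∈ T)).card ≤ (T.filter (fun s => s - γ • x ∈ T)).card := by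
  apply Finset.card_le_card_of_injOn (fun s => γ • s)
  · intro s hs
    have hs' : s ∈ T ∧ s - x ∈ T := by simpa using hs
    obtain ⟨γ', hγ', h⟩ := shift σ hσ γ x
    have h1 := h (s - x)
    rw [add_sub_cancel] at h1
    have h2 : γ • s - γ • x = γ' • (s - x) := by
      rw [h1, add_sub_cancel_left]
    have h3 : γ • s ∈ T ∧ γ • s - γ • x ∈ T := ⟨hT γ hγ s hs'.1, by rw [h2]; exact hT γ' hγ' _ hs'.2⟩
    simpa using h3
  · intro s _ s' _ h
    exact MulAction.injective γ h

theorem lam_eq (σ : Γ) (hσ : ∀ x : ZMod n, σ • x = x + 1) {T : Finset (ZMod n)} (hT : Inv Γ T)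
    (γ : Γ) (hγ : γ • (0 : ZMod n) = 0) (x : ZMod n) :
    (T.filter (fun s => s - x ∈ T)).card = (T.filter (fun s => s - γ • x ∈ T)).card := by
  apply Nat.le_antisymm (lam_le σ hσ hT γ hγ x)
  have h := lam_le σ hσ hT γ⁻¹ (zero_fix_inv hγ) (γ • x)
  rwa [inv_smul_smul] at h

theorem coeff_tau_succ (p : ℕ) (T : Finset (ZMod n)) (k : ℕ) (y : ZMod n) :
    ((tau p T) ^ (k + 1)).coeff y = ∑ t ∈ T, ((tau p T) ^ k).coeff (y - t) := by
  rw [pow_succ]
  conv_lhs => rw [tau, Finset.mul_sum]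
  simp only [AddMonoidAlgebra.coeff_sum, Finsupp.coe_finsetSum, Finset.sum_apply,
    AddMonoidAlgebra.coeff_mul_single_apply, mul_one, sub_eq_add_neg]
  rfl

theorem coeff_tau_pow (p : ℕ) [Fact p.Prime] (T : Finset (ZMod n)) (x : ZMod n) :
    ((tau p T) ^ p).coeff x = ((T.filter (fun t => p • t = x)).card : ZMod p) := by
  have hinj : Function.Injective
      (AddMonoidAlgebra.singleZeroRingHom : ZMod p →+* AddMonoidAlgebra (ZMod p) (ZMod n)) := by
    intro a b h
    have h1 := congrArg (fun f : AddMonoidAlgebra (ZMod p) (ZMod n) => f.coeff 0) h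
    simpa using h1
  haveI : CharP (AddMonoidAlgebra (ZMod p) (ZMod n)) p := charP_of_injective_ringHom hinj p
  rw [tau, sum_pow_char]
  simp only [AddMonoidAlgebra.single_pow, one_pow, AddMonoidAlgebra.coeff_sum,
    AddMonoidAlgebra.coeff_single, Finsupp.coe_finsetSum, Finset.sum_apply, Finsupp.single_apply]
  rw [Finset.sum_ite, Finset.sum_const_zero, add_zero, Finset.sum_const, nsmul_eq_mul, mul_one]

theorem tau_pow_inv (σ : Γ) (hσ : ∀ x : ZMod n, σ • x = x + 1) (p : ℕ) {T : Finset (ZMod n)}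
    (hT : Inv Γ T) : ∀ (k : ℕ) (γ : Γ), γ • (0 : ZMod n) = 0 → ∀ x : ZMod n,
      ((tau p T) ^ k).coeff (γ • x) = ((tau p T) ^ k).coeff x := by
  intro k
  induction k with
  | zero =>
    intro γ hγ x
    have h1 : γ • x = 0 ↔ x = 0 :=
      ⟨fun h => MulAction.injective γ (h.trans hγ.symm), fun h => by rw [h, hγ]⟩
    rw [pow_zero, AddMonoidAlgebra.one_def, AddMonoidAlgebra.coeff_single, Finsupp.single_apply,
      Finsupp.single_apply]
    simp only [eq_comm (a := (0 : ZMod n)), h1]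
  | succ k ih =>
    intro γ hγ x
    rw [coeff_tau_succ, coeff_tau_succ]
    apply Finset.sum_nbij' (fun t => γ⁻¹ • t) (fun t => γ • t)
    · intro t ht
      exact hT γ⁻¹ (zero_fix_inv hγ) t ht
    · intro t ht
      exact hT γ hγ t ht
    · intro t _
      exact smul_inv_smul _ _
    · intro t _
      exact inv_smul_smul _ _
    · intro t _
      obtain ⟨γ', hγ', h⟩ := shift σ hσ γ (γ⁻¹ • t)
      have h1 := h (x - γ⁻¹ • t)
      rw [add_sub_cancel, smul_inv_smul] at h1
      have h2 : γ • x - t = γ' • (x - γ⁻¹ • t) := by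
        rw [h1, add_sub_cancel_left]
      rw [h2, ih γ' hγ']

theorem cnt_inv (σ : Γ) (hσ : ∀ x : ZMod n, σ • x = x + 1) (p : ℕ) [Fact p.Prime]
    {T : Finset (ZMod n)} (hT : Inv Γ T) (γ : Γ) (hγ : γ • (0 : ZMod n) = 0) (x : ZMod n) :
    ((T.filter (fun t => p • t = γ • x)).card : ZMod p) =
      ((T.filter (fun t => p • t = x)).card : ZMod p) := by
  rw [← coeff_tau_pow, ← coeff_tau_pow, tau_pow_inv σ hσ p hT p γ hγ x]

theorem closure_inv (σ : Γ) (hσ : ∀ x : ZMod n, σ • x = x + 1) {U : Finset (ZMod n)}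
    (hU : Inv Γ U) : ∀ x ∈ AddSubgroup.closure (U : Set (ZMod n)), ∀ γ : Γ,
      γ • (0 : ZMod n) = 0 → γ • x ∈ AddSubgroup.closure (U : Set (ZMod n)) := by
  intro x hx
  induction hx using AddSubgroup.closure_induction with
  | mem x hx =>
    intro γ hγ
    exact AddSubgroup.subset_closure (hU γ hγ x hx)
  | zero =>
    intro γ hγ
    rw [hγ]
    exact zero_mem _
  | add x y hx hy ihx ihy =>
    intro γ hγ
    obtain ⟨γ', hγ', h⟩ := shift σ hσ γ x
    rw [h y]
    exact add_mem (ihx γ hγ) (ihy γ' hγ')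
  | neg x hx ihx =>
    intro γ hγ
    obtain ⟨γ', hγ', h⟩ := shift σ hσ γ (-x)
    have h1 := h x
    rw [neg_add_cancel, hγ] at h1
    have h2 : γ • (-x) = -(γ' • x) := eq_neg_of_add_eq_zero_left h1.symm
    rw [h2]
    exact neg_mem (ihx γ' hγ')

end core

section prim

variable {n : ℕ} [NeZero n] {Γ : Type*} [Group Γ] [MulAction Γ (ZMod n)]

/-- No `p`-multiple equals `1` in `ZMod (p ^ m)`, `m ≥ 1`. -/
theorem nsmul_ne_one (p m : ℕ) [Fact p.Prime] (hm : 1 ≤ m) (hn : n = p ^ m) (y : ZMod n) :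
    p • y ≠ 1 := by
  have hp := (Fact.out : p.Prime)
  intro h
  have h1 : (p ^ (m - 1)) • (p • y) = (p ^ (m - 1)) • (1 : ZMod n) := by rw [h]
  rw [← mul_nsmul, ← pow_succ'] at h1
  have h2 : m - 1 + 1 = m := by omega
  rw [h2, ← hn, nsmul_eq_mul, nsmul_eq_mul, ZMod.natCast_self, zero_mul, mul_one] at h1
  have h3 := (ZMod.natCast_eq_zero_iff (p ^ (m - 1)) n).1 h1.symm
  rw [hn] at h3
  have h4 := Nat.le_of_dvd (pow_pos hp.pos _) h3
  have h5 : p ^ (m - 1) < p ^ m := Nat.pow_lt_pow_right hp.one_lt (by omega)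
  omega

/-- `p • 1 ≠ 0` in `ZMod (p ^ m)`, `m ≥ 2`. -/
theorem nsmul_one_ne_zero (p m : ℕ) [Fact p.Prime] (hm : 2 ≤ m) (hn : n = p ^ m) :
    p • (1 : ZMod n) ≠ 0 := by
  have hp := (Fact.out : p.Prime)
  intro h
  rw [nsmul_eq_mul, mul_one] at h
  have h3 := (ZMod.natCast_eq_zero_iff p n).1 h
  rw [hn] at h3
  have h4 := Nat.le_of_dvd hp.pos h3
  have h5 : p ^ 1 < p ^ m := Nat.pow_lt_pow_right hp.one_lt (by omega)
  rw [pow_one] at h5
  omega

/-- The `p`-torsion of `ZMod (p ^ m)` has exactly `p` elements. -/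
theorem card_tors (p m : ℕ) [Fact p.Prime] (hm : 1 ≤ m) (hn : n = p ^ m) :
    (Finset.univ.filter (fun e : ZMod n => p • e = 0)).card = p := by
  have hp := (Fact.out : p.Prime)
  apply Nat.le_antisymm
  · have h := IsAddCyclic.card_nsmul_eq_zero_le (α := ZMod n) (n := p) hp.pos
    convert h using 2
  · obtain ⟨K, hK⟩ : ∃ K : AddSubgroup (ZMod n), ∀ x, x ∈ K ↔ p • x = 0 :=
      ⟨(nsmulAddMonoidHom (α := ZMod n) p).ker, fun x => by rw [AddMonoidHom.mem_ker]; rfl⟩
    have hcard : Nat.card K =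
        (Finset.univ.filter (fun e : ZMod n => p • e = 0)).card := by
      rw [Nat.card_eq_fintype_card, ← Fintype.card_subtype]
      apply Fintype.card_congr
      exact Equiv.subtypeEquivRight (fun x => hK x)
    have hdvd := AddSubgroup.card_addSubgroup_dvd_card K
    rw [Nat.card_eq_fintype_card (α := ZMod n), ZMod.card] at hdvd
    obtain ⟨j, hj, hj'⟩ := (Nat.dvd_prime_pow hp).1 (dvd_trans hdvd (dvd_of_eq hn))
    have hj0 : j ≠ 0 := by
      rintro rfl
      rw [pow_zero] at hj'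
      haveI := (Nat.card_eq_one_iff_unique.1 hj').1
      have hmem : ((p ^ (m - 1) : ℕ) : ZMod n) ∈ K := by
        rw [hK, nsmul_eq_mul, ← Nat.cast_mul, ← pow_succ']
        have h2 : m - 1 + 1 = m := by omega
        rw [h2, ← hn, ZMod.natCast_self]
      have h1 : (⟨_, hmem⟩ : K) = 0 := Subsingleton.elim _ _
      have h2 : ((p ^ (m - 1) : ℕ) : ZMod n) = 0 := congrArg Subtype.val h1
      have h3 := (ZMod.natCast_eq_zero_iff (p ^ (m - 1)) n).1 h2
      rw [hn] at h3
      have h4 := Nat.le_of_dvd (pow_pos hp.pos _) h3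
      have h5 : p ^ (m - 1) < p ^ m := Nat.pow_lt_pow_right hp.one_lt (by omega)
      omega
    calc p = p ^ 1 := (pow_one p).symm
      _ ≤ p ^ j := Nat.pow_le_pow_right hp.pos (by omega)
      _ = Nat.card K := hj'.symm
      _ = _ := hcard

/-- There is a nonzero `p`-torsion element. -/
theorem exists_tors (p m : ℕ) [Fact p.Prime] (hm : 1 ≤ m) (hn : n = p ^ m) :
    ∃ e : ZMod n, e ≠ 0 ∧ p • e = 0 := by
  have hp := (Fact.out : p.Prime)
  have h := card_tors (n := n) p m hm hn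
  have h1 : 1 < (Finset.univ.filter (fun e : ZMod n => p • e = 0)).card := by
    rw [h]
    exact hp.one_lt
  obtain ⟨a, ha, b, hb, hab⟩ := Finset.one_lt_card.1 h1
  simp only [Finset.mem_filter, Finset.mem_univ, true_and] at ha hb
  by_cases ha0 : a = 0
  · exact ⟨b, fun hb0 => hab (ha0.trans hb0.symm), hb⟩
  · exact ⟨a, ha0, ha⟩

variable (σ : Γ) (hσ : ∀ x : ZMod n, σ • x = x + 1) (p m : ℕ) [Fact p.Prime] (hm : 2 ≤ m)
  (hn : n = p ^ m)
  (hprim : ∀ L : AddSubgroup (ZMod n),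
    (∀ γ : Γ, γ • (0 : ZMod n) = 0 → ∀ x ∈ L, γ • x ∈ L) → L = ⊥ ∨ L = ⊤)

include hσ hm hn hprim

theorem step1 {T : Finset (ZMod n)} (hT : Inv Γ T) (x : ZMod n) (hx : x ≠ 0) :
    ((T.filter (fun t => p • t = x)).card : ZMod p) = 0 := by
  by_contra hne
  obtain ⟨U, hUdef⟩ : ∃ U : Finset (ZMod n), U = Finset.univ.filter
      (fun y => ((T.filter (fun t => p • t = y)).card : ZMod p) ≠ 0) := ⟨_, rfl⟩
  have hUmem : ∀ y, y ∈ U ↔ ((T.filter (fun t => p • t = y)).card : ZMod p) ≠ 0 := by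
    intro y
    rw [hUdef]
    simp
  have hU : Inv Γ U := by
    intro γ hγ y hy
    rw [hUmem] at hy ⊢
    rw [cnt_inv σ hσ p hT γ hγ y]
    exact hy
  have hxU : x ∈ U := (hUmem x).2 hne
  rcases hprim (AddSubgroup.closure (U : Set (ZMod n)))
    (fun γ hγ y hy => closure_inv σ hσ hU y hy γ hγ) with h | h
  · have h1 : x ∈ AddSubgroup.closure (U : Set (ZMod n)) := AddSubgroup.subset_closure hxU
    rw [h, AddSubgroup.mem_bot] at h1
    exact hx h1
  · have hle : AddSubgroup.closure (U : Set (ZMod n)) ≤ (nsmulAddMonoidHom (α := ZMod n) p).range := by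
      rw [AddSubgroup.closure_le]
      intro y hy
      have hy' := (hUmem y).1 hy
      have h2 : (T.filter (fun t => p • t = y)).Nonempty := by
        rw [Finset.nonempty_iff_ne_empty]
        intro h3
        rw [h3] at hy'
        simp at hy'
      obtain ⟨t, ht⟩ := h2
      simp only [Finset.mem_filter] at ht
      exact ⟨t, ht.2⟩
    rw [h] at hle
    obtain ⟨y, hy⟩ := hle (AddSubgroup.mem_top (1 : ZMod n))
    exact nsmul_ne_one p m (by omega) hn y hy

theorem step2 {T : Finset (ZMod n)} (hT : Inv Γ T) (t : ZMod n) (ht : t ∈ T) (htp : p • t ≠ 0)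
    (e : ZMod n) (he : p • e = 0) : t + e ∈ T := by
  have hp := (Fact.out : p.Prime)
  have h1 := step1 σ hσ p m hm hn hprim hT (p • t) htp
  have h2 : p ∣ (T.filter (fun s => p • s = p • t)).card := (ZMod.natCast_eq_zero_iff _ _).1 h1
  have h3 : 0 < (T.filter (fun s => p • s = p • t)).card :=
    Finset.card_pos.2 ⟨t, by simp [ht]⟩
  have h4 : p ≤ (T.filter (fun s => p • s = p • t)).card := Nat.le_of_dvd h3 h2
  have hsub : T.filter (fun s => p • s = p • t) ⊆
      (Finset.univ.filter (fun e : ZMod n => p • e = 0)).image (fun e => t + e) := by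
    intro s hs
    simp only [Finset.mem_filter] at hs
    rw [Finset.mem_image]
    refine ⟨s - t, ?_, by ring⟩
    simp only [Finset.mem_filter, Finset.mem_univ, true_and]
    rw [smul_sub, hs.2, sub_self]
  have hcard : ((Finset.univ.filter (fun e : ZMod n => p • e = 0)).image (fun e => t + e)).card
      = p := by
    rw [Finset.card_image_of_injective _ (add_right_injective t)]
    exact card_tors p m (by omega) hn
  have heq := Finset.eq_of_subset_of_card_le hsub (by rw [hcard]; exact h4)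
  have h5 : t + e ∈ (Finset.univ.filter (fun e : ZMod n => p • e = 0)).image (fun e => t + e) := by
    rw [Finset.mem_image]
    exact ⟨e, Finset.mem_filter.2 ⟨Finset.mem_univ _, he⟩, rfl⟩
  rw [← heq] at h5
  exact (Finset.mem_filter.1 h5).1

theorem step4 {T : Finset (ZMod n)} (hT : Inv Γ T) (hne : T.Nonempty) (h0 : (0 : ZMod n) ∉ T) :
    ∃ t ∈ T, p • t ≠ 0 := by
  by_contra hcon
  have hcon' : ∀ t ∈ T, p • t = 0 := by
    intro t ht
    by_contra h
    exact hcon ⟨t, ht, h⟩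
  obtain ⟨t₀, ht₀⟩ := hne
  rcases hprim (AddSubgroup.closure (T : Set (ZMod n)))
    (fun γ hγ y hy => closure_inv σ hσ hT y hy γ hγ) with h | h
  · have h1 : t₀ ∈ AddSubgroup.closure (T : Set (ZMod n)) := AddSubgroup.subset_closure ht₀
    rw [h, AddSubgroup.mem_bot] at h1
    rw [h1] at ht₀
    exact h0 ht₀
  · have hle : AddSubgroup.closure (T : Set (ZMod n)) ≤ (nsmulAddMonoidHom (α := ZMod n) p).ker := by
      rw [AddSubgroup.closure_le]
      intro y hy
      exact hcon' y hy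
    rw [h] at hle
    have h1 := hle (AddSubgroup.mem_top (1 : ZMod n))
    exact nsmul_one_ne_zero p m hm hn h1

theorem step3 {T : Finset (ZMod n)} (hT : Inv Γ T) (hne : T.Nonempty) (h0 : (0 : ZMod n) ∉ T) :
    ∃ e ∈ T, p • e = 0 := by
  by_contra hcon
  have hcon' : ∀ t ∈ T, p • t ≠ 0 := fun t ht h => hcon ⟨t, ht, h⟩
  obtain ⟨S, hS⟩ : ∃ S : AddSubgroup (ZMod n), ∀ h, h ∈ S ↔ ∀ s, s ∈ T ↔ s + h ∈ T := by
    refine ⟨{ carrier := {h | ∀ s, s ∈ T ↔ s + h ∈ T}
              zero_mem' := by intro s; simp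
              add_mem' := by
                intro a b ha hb s
                rw [ha s, hb (s + a), add_assoc]
              neg_mem' := by
                intro a ha s
                rw [ha (s + -a), neg_add_cancel_right] }, fun h => Iff.rfl⟩
  -- invariance
  have hSinv : ∀ γ : Γ, γ • (0 : ZMod n) = 0 → ∀ x ∈ S, γ • x ∈ S := by
    intro γ hγ h hh
    have h1 : ∀ s ∈ T, s - h ∈ T := by
      intro s hs
      have h2 := (hS h).1 hh (s - h)
      rw [sub_add_cancel] at h2
      exact h2.2 hs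
    have h2 : T.filter (fun s => s - h ∈ T) = T := Finset.filter_true_of_mem h1
    have h3 := lam_eq σ hσ hT γ hγ h
    rw [h2] at h3
    have h4 : T.filter (fun s => s - γ • h ∈ T) = T :=
      Finset.eq_of_subset_of_card_le (Finset.filter_subset _ _) (by rw [← h3])
    have h5 : ∀ s ∈ T, s - γ • h ∈ T := by
      intro s hs
      rw [← h4] at hs
      exact (Finset.mem_filter.1 hs).2
    have h6 : T.image (fun s => s - γ • h) = T := by
      apply Finset.eq_of_subset_of_card_le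
      · intro y hy
        obtain ⟨s, hs, rfl⟩ := Finset.mem_image.1 hy
        exact h5 s hs
      · rw [Finset.card_image_of_injective _ (sub_left_injective)]
    rw [hS]
    intro s
    constructor
    · intro hs
      rw [← h6] at hs
      obtain ⟨s', hs', rfl⟩ := Finset.mem_image.1 hs
      rw [sub_add_cancel]
      exact hs'
    · intro hs
      have h7 := h5 _ hs
      rwa [add_sub_cancel_right] at h7
  have hE : ∀ e : ZMod n, p • e = 0 → e ∈ S := by
    intro e he
    rw [hS]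
    intro s
    constructor
    · intro hs
      exact step2 σ hσ p m hm hn hprim hT s hs (hcon' s hs) e he
    · intro hs
      have h1 := step2 σ hσ p m hm hn hprim hT (s + e) hs (hcon' _ hs) (-e) (by rw [smul_neg, he, neg_zero])
      rwa [add_neg_cancel_right] at h1
  rcases hprim S hSinv with h | h
  · obtain ⟨e, he0, he⟩ := exists_tors (n := n) p m (by omega) hn
    have h1 := hE e he
    rw [h, AddSubgroup.mem_bot] at h1
    exact he0 h1
  · obtain ⟨s₀, hs₀⟩ := hne
    have h1 : -s₀ ∈ S := h ▸ AddSubgroup.mem_top _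
    have h2 := ((hS _).1 h1 s₀).1 hs₀
    rw [add_neg_cancel] at h2
    exact h0 h2

theorem step5 (a : ZMod n) (ha : a ≠ 0) :
    p ≤ 2 * ((orb Γ a).filter (fun t => p • t = 0)).card := by
  have hT : Inv Γ (orb Γ a) := orb_inv a
  have hne : (orb Γ a).Nonempty := ⟨a, mem_orb_self a⟩
  have h0 : (0 : ZMod n) ∉ orb Γ a := zero_notMem_orb ha
  obtain ⟨e₀, he₀T, he₀⟩ := step3 σ hσ p m hm hn hprim hT hne h0
  obtain ⟨t, htT, ht⟩ := step4 σ hσ p m hm hn hprim hT hne h0
  obtain ⟨γ, hγ, hγe⟩ := orb_trans he₀T htT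
  have hlam := lam_eq σ hσ hT γ hγ e₀
  rw [hγe] at hlam
  obtain ⟨T, hTdef⟩ : ∃ T : Finset (ZMod n), T = orb Γ a := ⟨_, rfl⟩
  rw [← hTdef] at hT hne h0 he₀T htT hlam ⊢
  -- B ≤ λ(e₀)
  have h1 : (T.filter (fun s => p • s ≠ 0)).card ≤ (T.filter (fun s => s - e₀ ∈ T)).card := by
    apply Finset.card_le_card
    intro s hs
    simp only [Finset.mem_filter] at hs ⊢
    refine ⟨hs.1, ?_⟩
    have h2 := step2 σ hσ p m hm hn hprim hT s hs.1 hs.2 (-e₀) (by rw [smul_neg, he₀, neg_zero])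
    rwa [← sub_eq_add_neg] at h2
  -- λ(t) + p ≤ 2 A + B
  have hX1 : (T.filter (fun s => p • (s - t) = 0 ∧ s - t ∈ T)).card ≤
      (T.filter (fun s => p • s = 0)).card := by
    apply Finset.card_le_card_of_injOn (fun s => s - t)
    · intro s hs
      have hs' : s ∈ T ∧ p • (s - t) = 0 ∧ s - t ∈ T := by simpa using hs
      have : s - t ∈ T ∧ p • (s - t) = 0 := ⟨hs'.2.2, hs'.2.1⟩
      simpa using this
    · intro s _ s' _ h
      exact sub_left_injective h
  have hD : p ≤ ((T.filter (fun s => p • s ≠ 0)).filter (fun s => ¬ (p • (s - t) ≠ 0 ∧ s - t ∈ T))).card := by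
    have hcard : ((Finset.univ.filter (fun e : ZMod n => p • e = 0)).image (fun e => t + e)).card
        = p := by
      rw [Finset.card_image_of_injective _ (add_right_injective t)]
      exact card_tors p m (by omega) hn
    refine le_trans (le_of_eq hcard.symm) (Finset.card_le_card ?_)
    intro y hy
    obtain ⟨e, he, rfl⟩ := Finset.mem_image.1 hy
    simp only [Finset.mem_filter, Finset.mem_univ, true_and] at he
    simp only [Finset.mem_filter]
    refine ⟨⟨step2 σ hσ p m hm hn hprim hT t htT ht e he, ?_⟩, ?_⟩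
    · rw [smul_add, he, add_zero]
      exact ht
    · rw [add_sub_cancel_left]
      intro h
      exact h.1 he
  have hX3 := Finset.card_filter_add_card_filter_not (s := T.filter (fun s => p • s ≠ 0))
    (fun s => p • (s - t) ≠ 0 ∧ s - t ∈ T)
  have hsplit : (T.filter (fun s => s - t ∈ T)).card ≤
      (T.filter (fun s => p • (s - t) = 0 ∧ s - t ∈ T)).card +
      (T.filter (fun s => p • s = 0)).card +
      ((T.filter (fun s => p • s ≠ 0)).filter (fun s => p • (s - t) ≠ 0 ∧ s - t ∈ T)).card := by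
    refine le_trans (Finset.card_le_card ?_) (le_trans (Finset.card_union_le _ _)
      (Nat.add_le_add_right (Finset.card_union_le _ _) _))
    intro s hs
    simp only [Finset.mem_filter] at hs
    simp only [Finset.mem_union, Finset.mem_filter]
    by_cases h2 : p • (s - t) = 0
    · exact Or.inl (Or.inl ⟨hs.1, h2, hs.2⟩)
    · by_cases h3 : p • s = 0
      · exact Or.inl (Or.inr ⟨hs.1, h3⟩)
      · exact Or.inr ⟨⟨hs.1, h3⟩, h2, hs.2⟩
  have hpart := Finset.card_filter_add_card_filter_not (s := T) (fun s => p • s = 0)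
  omega

theorem core : ∀ a b : ZMod n, a ≠ 0 → b ≠ 0 → ∃ γ : Γ, γ • (0 : ZMod n) = 0 ∧ γ • a = b := by
  have hp := (Fact.out : p.Prime)
  intro a b ha hb
  by_contra hcon
  have h1 := step5 σ hσ p m hm hn hprim a ha
  have h2 := step5 σ hσ p m hm hn hprim b hb
  have hdisj : Disjoint ((orb Γ a).filter (fun t => p • t = 0))
      ((orb Γ b).filter (fun t => p • t = 0)) := by
    rw [Finset.disjoint_left]
    intro y hy hy'
    have hya := (Finset.mem_filter.1 hy).1
    have hyb := (Finset.mem_filter.1 hy').1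
    simp only [orb, Finset.mem_filter, Finset.mem_univ, true_and] at hya hyb
    obtain ⟨γ₁, h3, h4⟩ := hya
    obtain ⟨γ₂, h5, h6⟩ := hyb
    apply hcon
    refine ⟨γ₂⁻¹ * γ₁, zero_fix_mul (zero_fix_inv h5) h3, ?_⟩
    rw [mul_smul, h4, ← h6, inv_smul_smul]
  have hsub : ((orb Γ a).filter (fun t => p • t = 0)) ∪ ((orb Γ b).filter (fun t => p • t = 0)) ⊆
      (Finset.univ.filter (fun e : ZMod n => p • e = 0)).erase 0 := by
    intro y hy
    rw [Finset.mem_erase]
    rw [Finset.mem_union] at hy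
    rcases hy with hy | hy
    · have h3 := Finset.mem_filter.1 hy
      exact ⟨fun h => zero_notMem_orb ha (h ▸ h3.1),
        Finset.mem_filter.2 ⟨Finset.mem_univ _, h3.2⟩⟩
    · have h3 := Finset.mem_filter.1 hy
      exact ⟨fun h => zero_notMem_orb hb (h ▸ h3.1),
        Finset.mem_filter.2 ⟨Finset.mem_univ _, h3.2⟩⟩
  have hcard := Finset.card_le_card hsub
  have h0mem : (0 : ZMod n) ∈ Finset.univ.filter (fun e : ZMod n => p • e = 0) :=
    Finset.mem_filter.2 ⟨Finset.mem_univ _, smul_zero _⟩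
  rw [Finset.card_union_of_disjoint hdisj, Finset.card_erase_of_mem h0mem,
    card_tors p m (by omega) hn] at hcard
  have := hp.two_le
  omega

end prim

end Cfsg.Agent.Lib.Helper21.BGroup
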