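import Mathlib
import Cfsg.Agent.Lib.Helper18.UniqueInvolution

set_option autoImplicit false

namespace Cfsg.Agent.Lib.Helper21.Kulakoff

open Cfsg.Agent.Lib.Helper18.UniqueInvolution

/-- Elements of `zpowers z` are killed by any exponent killing `z`. -/
theorem pow_eq_one_of_mem {P : Type*} [Group P] {z x : P} {n : ℕ} (hz : z ^ n = 1)
    (hx : x ∈ Subgroup.zpowers z) : x ^ n = 1 := by
  obtain ⟨k, rfl⟩ := Subgroup.mem_zpowers_iff.1 hx
  rw [← zpow_natCast, ← zpow_mul, mul_comm, zpow_mul, zpow_natCast, hz, one_zpow]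

/-- A nontrivial element of a subgroup of prime order generates it. -/
theorem mem_zpowers_of_prime {P : Type*} [Group P] {p : ℕ} [Fact p.Prime] {x y : P}
    (hx : orderOf x = p) (hy : y ∈ Subgroup.zpowers x) (hy1 : y ≠ 1) :
    x ∈ Subgroup.zpowers y := by
  have hcard : Nat.card (Subgroup.zpowers x) = p := by rw [Nat.card_zpowers, hx]
  have h := mem_zpowers_of_prime_card (G := Subgroup.zpowers x) hcard (g := ⟨y, hy⟩)
    (g' := ⟨x, Subgroup.mem_zpowers x⟩) (fun h => hy1 (congrArg Subtype.val h))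
  obtain ⟨k, hk⟩ := Subgroup.mem_zpowers_iff.1 h
  refine Subgroup.mem_zpowers_iff.2 ⟨k, ?_⟩
  have := congrArg Subtype.val hk
  simpa using this

/-- If `x ∈ zpowers y` has `x ^ p = 1` and `y` has order `p ^ s`, then `x` is a power of
`y ^ (p ^ (s - 1))`. -/
theorem mem_zpowers_top {P : Type*} [Group P] {p : ℕ} [Fact p.Prime] {s : ℕ} (hs : 1 ≤ s)
    {x y : P} (hy : orderOf y = p ^ s) (hx : x ∈ Subgroup.zpowers y) (hxp : x ^ p = 1) :
    x ∈ Subgroup.zpowers (y ^ (p ^ (s - 1))) := by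
  have hp := (Fact.out : p.Prime)
  obtain ⟨j, rfl⟩ := Subgroup.mem_zpowers_iff.1 hx
  have h1 : y ^ (j * (p : ℤ)) = 1 := by rw [zpow_mul, zpow_natCast]; exact hxp
  have h2 := orderOf_dvd_iff_zpow_eq_one.2 h1
  rw [hy] at h2
  have h3 : ((p ^ (s - 1) : ℕ) : ℤ) ∣ j := by
    have h4 : ((p ^ s : ℕ) : ℤ) = ((p ^ (s - 1) : ℕ) : ℤ) * (p : ℤ) := by
      rw [← Nat.cast_mul, ← pow_succ]
      congr 2
      omega
    rw [h4] at h2
    exact Int.dvd_of_mul_dvd_mul_right (by exact_mod_cast hp.ne_zero) h2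
  obtain ⟨t, rfl⟩ := h3
  refine Subgroup.mem_zpowers_iff.2 ⟨t, ?_⟩
  rw [← zpow_natCast, ← zpow_mul]

/-- Same `p`-th power implies same top power. -/
theorem same_pow {P : Type*} [Group P] {p : ℕ} {s : ℕ} (hs : 2 ≤ s) {x y : P}
    (h : x ^ p = y ^ p) : x ^ (p ^ (s - 1)) = y ^ (p ^ (s - 1)) := by
  have : p ^ (s - 1) = p * p ^ (s - 2) := by
    rw [← pow_succ']
    congr 1
    omega
  rw [this, pow_mul, pow_mul, h]

/-- Same `p`-th power implies same order `p ^ s` when `s ≥ 2`. -/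
theorem same_pow_order {P : Type*} [Group P] {p : ℕ} [Fact p.Prime] {s : ℕ} (hs : 2 ≤ s)
    {x y : P} (h : x ^ p = y ^ p) (hy : orderOf y = p ^ s) : orderOf x = p ^ s := by
  have hp := (Fact.out : p.Prime)
  have h1 := same_pow (p := p) hs h
  have e : s = (s - 1) + 1 := by omega
  rw [e]
  apply orderOf_eq_prime_pow
  · rw [h1]
    intro h2
    have h3 := orderOf_dvd_of_pow_eq_one h2
    rw [hy] at h3
    have h4 := Nat.le_of_dvd (pow_pos hp.pos _) h3
    have h5 : p ^ (s - 1) < p ^ s := Nat.pow_lt_pow_right hp.one_lt (by omega)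
    omega
  · rw [← e]
    have h6 : p ^ s = p * p ^ (s - 1) := by
      rw [← pow_succ']
      congr 1
    rw [h6, pow_mul, h, ← pow_mul, ← h6, ← hy, pow_orderOf_eq_one]

/-- `x ^ k = x` for `k ≡ 1 [MOD p]` when `x ^ p = 1`. -/
theorem pow_of_modEq_one {P : Type*} [Monoid P] {p : ℕ} (hp1 : 1 < p) {x : P} (hx : x ^ p = 1)
    {k : ℕ} (hk : k ≡ 1 [MOD p]) : x ^ k = x := by
  have h : k % p = 1 % p := hk
  rw [pow_eq_pow_mod k hx, h, Nat.mod_eq_of_lt hp1, pow_one]

theorem dvd_choose_two_self {p : ℕ} (hp : p.Prime) (hp2 : p ≠ 2) : p ∣ p.choose 2 := by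
  apply Nat.Prime.dvd_choose_self hp (by norm_num)
  have := hp.two_le
  omega

theorem dvd_choose_two_of_modEq {p : ℕ} (hp : p.Prime) (hp2 : p ≠ 2) {k : ℕ}
    (hk : k ≡ 1 [MOD p]) : p ∣ k.choose 2 := by
  rcases Nat.eq_zero_or_pos k with h0 | h0
  · subst h0
    simp
  · have h1 : p ∣ k - 1 := (Nat.modEq_iff_dvd' h0).1 hk.symm
    have h2 : k.choose 2 * 2 = k * (k - 1) := by
      rw [Nat.choose_two_right]
      exact Nat.div_mul_cancel (Nat.even_mul_pred_self k).two_dvd
    have h3 : p ∣ k.choose 2 * 2 := by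
      rw [h2]
      exact Dvd.dvd.mul_left h1 k
    have hcop : Nat.Coprime p 2 := (Nat.coprime_primes hp Nat.prime_two).2 hp2
    exact hcop.dvd_of_dvd_mul_right h3

/-- Power formula when the commutator lies in a central subgroup of exponent `p`. -/
theorem pow_mul_of_comm {P : Type*} [Group P] {p : ℕ} {z : P}
    (hzc : z ∈ Subgroup.center P) (hzp : z ^ p = 1) (x y : P)
    (hy : x⁻¹ * y * x * y⁻¹ ∈ Subgroup.zpowers z) (k : ℕ) (hk : p ∣ k.choose 2) :
    (x * y) ^ k = x ^ k * y ^ k := by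
  obtain ⟨t, htdef⟩ : ∃ t, t = x⁻¹ * y * x * y⁻¹ := ⟨_, rfl⟩
  rw [← htdef] at hy
  have htc : ∀ g : P, g * t = t * g := by
    intro g
    have : t ∈ Subgroup.center P := (Subgroup.zpowers_le.2 hzc) hy
    exact Subgroup.mem_center_iff.1 this g
  have hc : y * x = x * y * t := by
    calc y * x = x * (x⁻¹ * y * x * y⁻¹) * y := by group
      _ = x * t * y := by rw [htdef]
      _ = x * y * t := by rw [mul_assoc, ← htc y, ← mul_assoc]
  obtain ⟨_, e2⟩ := pow_mul_comm_of_central x y t hc (htc x).symm (htc y).symm k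
  obtain ⟨r, hr⟩ := hk
  rw [e2, hr, pow_mul, pow_eq_one_of_mem hzp hy, one_pow, mul_one]

/-- The `(z, a)` configuration: a normal subgroup of type `(p, p)`. -/
def Good (p : ℕ) (P : Type*) [Group P] : Prop :=
  ∃ z a : P, z ∈ Subgroup.center P ∧ orderOf z = p ∧ a ^ p = 1 ∧ a ∉ Subgroup.zpowers z ∧
    ∀ g : P, g * a * g⁻¹ * a⁻¹ ∈ Subgroup.zpowers z

theorem exists_good.{u} (p : ℕ) [Fact p.Prime] (hp2 : p ≠ 2) :
    ∀ n : ℕ, ∀ (P : Type u) [Group P] [Finite P], Nat.card P = n → IsPGroup p P →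
      ¬ IsCyclic P → Good p P := by
  intro n
  induction n using Nat.strong_induction_on with
  | _ n ih =>
  intro P _ _ hn hP hnc
  have hp := (Fact.out : p.Prime)
  haveI : Nontrivial P := by
    by_contra h
    rw [not_nontrivial_iff_subsingleton] at h
    exact hnc isCyclic_of_subsingleton
  haveI := hP.center_nontrivial
  have hdvd : p ∣ Nat.card (Subgroup.center P) := by
    obtain ⟨k, hk⟩ := (hP.to_subgroup (Subgroup.center P)).exists_card_eq
    rw [hk]
    have hk0 : k ≠ 0 := by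
      rintro rfl
      rw [pow_zero] at hk
      have h1 := (Nat.card_eq_one_iff_unique.1 hk).1
      exact not_subsingleton _ h1
    exact dvd_pow_self p hk0
  obtain ⟨z', hz'⟩ := exists_prime_orderOf_dvd_card' p hdvd
  obtain ⟨z, hzc, hzo⟩ : ∃ z : P, z ∈ Subgroup.center P ∧ orderOf z = p :=
    ⟨z'.1, z'.2, by rw [Subgroup.orderOf_coe]; exact hz'⟩
  have hcz : ∀ x ∈ Subgroup.zpowers z, ∀ g : P, g * x = x * g := by
    intro x hx g
    have : x ∈ Subgroup.center P := (Subgroup.zpowers_le.2 hzc) hx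
    exact Subgroup.mem_center_iff.1 this g
  have hzp : z ^ p = 1 := by
    rw [← hzo]
    exact pow_orderOf_eq_one z
  have hZp : ∀ x ∈ Subgroup.zpowers z, x ^ p = 1 := fun x hx => pow_eq_one_of_mem hzp hx
  haveI hZn : (Subgroup.zpowers z).Normal := by
    constructor
    intro x hx g
    have : g * x * g⁻¹ = x := by
      rw [hcz x hx g]
      group
    rw [this]
    exact hx
  have hcardZ : Nat.card (Subgroup.zpowers z) = p := by rw [Nat.card_zpowers, hzo]
  have hcardQ : Nat.card (P ⧸ Subgroup.zpowers z) < n := by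
    have h1 := Subgroup.card_eq_card_quotient_mul_card_subgroup (Subgroup.zpowers z)
    rw [hcardZ, hn] at h1
    have h2 : 0 < Nat.card (P ⧸ Subgroup.zpowers z) := Nat.card_pos
    have := hp.one_lt
    nlinarith
  have hPQ : IsPGroup p (P ⧸ Subgroup.zpowers z) := hP.to_quotient _
  by_cases hQ : IsCyclic (P ⧸ Subgroup.zpowers z)
  · have hc : ∀ x y : P, x * y = y * x :=
      commutative_of_cyclic_center_quotient (QuotientGroup.mk' (Subgroup.zpowers z))
        (by rw [QuotientGroup.ker_mk']; exact Subgroup.zpowers_le.2 hzc)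
    have hex : ∃ a : P, a ^ p = 1 ∧ a ∉ Subgroup.zpowers z := by
      by_contra hcon
      apply hnc
      apply isCyclic_of_comm p hP hc
      have hsub : {g : P | g ^ p = 1} ⊆ (Subgroup.zpowers z : Set P) := by
        intro g hg
        by_contra hgz
        exact hcon ⟨g, hg, hgz⟩
      calc Set.ncard {g : P | g ^ p = 1} ≤ Set.ncard (Subgroup.zpowers z : Set P) :=
            Set.ncard_le_ncard hsub (Set.toFinite _)
        _ = Nat.card (Subgroup.zpowers z) := (Nat.card_coe_set_eq _).symm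
        _ = p := hcardZ
    obtain ⟨a, hap, haz⟩ := hex
    refine ⟨z, a, hzc, hzo, hap, haz, fun g => ?_⟩
    have : g * a * g⁻¹ * a⁻¹ = 1 := by
      rw [hc g a]
      group
    rw [this]
    exact Subgroup.one_mem _
  · obtain ⟨zb, ab, hzbc, hzbo, habp, habn, habc⟩ :=
      ih _ hcardQ (P ⧸ Subgroup.zpowers z) rfl hPQ hQ
    obtain ⟨z₁, rfl⟩ := QuotientGroup.mk_surjective zb
    obtain ⟨a₁, rfl⟩ := QuotientGroup.mk_surjective ab
    have hF : ∀ x : P, (x : P ⧸ Subgroup.zpowers z) ∈ Subgroup.center (P ⧸ Subgroup.zpowers z) →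
        ∀ g : P, g * x * g⁻¹ * x⁻¹ ∈ Subgroup.zpowers z := by
      intro x hx g
      rw [← QuotientGroup.eq_one_iff]
      have h1 := Subgroup.mem_center_iff.1 hx (g : P ⧸ Subgroup.zpowers z)
      simp only [QuotientGroup.mk_mul, QuotientGroup.mk_inv]
      rw [h1]
      group
    have hz1p : z₁ ^ p ∈ Subgroup.zpowers z := by
      rw [← QuotientGroup.eq_one_iff, QuotientGroup.mk_pow, ← hzbo]
      exact pow_orderOf_eq_one _
    have hz1n : z₁ ∉ Subgroup.zpowers z := by
      intro h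
      rw [← QuotientGroup.eq_one_iff] at h
      rw [h, orderOf_one] at hzbo
      exact hp.one_lt.ne hzbo
    by_cases hz1 : z₁ ^ p = 1
    · exact ⟨z, z₁, hzc, hzo, hz1, hz1n, hF z₁ hzbc⟩
    · have hz1o : orderOf (z₁ ^ p) = p := orderOf_eq_prime (hZp _ hz1p) hz1
      have hgen : ∀ x ∈ Subgroup.zpowers z, x ∈ Subgroup.zpowers (z₁ ^ p) := by
        intro x hx
        have h1 : z ∈ Subgroup.zpowers (z₁ ^ p) := mem_zpowers_of_prime hzo hz1p hz1
        exact (Subgroup.zpowers_le.2 h1) hx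
      have ha1p : a₁ ^ p ∈ Subgroup.zpowers z := by
        rw [← QuotientGroup.eq_one_iff, QuotientGroup.mk_pow]
        exact habp
      obtain ⟨j, hj⟩ := Subgroup.mem_zpowers_iff.1 (hgen _ ha1p)
      obtain ⟨w, hw⟩ : ∃ w : P, w = z₁ ^ (-j) := ⟨_, rfl⟩
      have hwc : (w : P ⧸ Subgroup.zpowers z) ∈ Subgroup.center (P ⧸ Subgroup.zpowers z) := by
        rw [hw, QuotientGroup.mk_zpow]
        exact Subgroup.zpow_mem _ hzbc _
      have hwp : w ^ p = (a₁ ^ p)⁻¹ := by
        rw [hw, ← hj, ← zpow_natCast, ← zpow_mul, mul_comm, zpow_mul, zpow_natCast, zpow_neg]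
      have hcommW : ∀ g : P, g * w * g⁻¹ * w⁻¹ ∈ Subgroup.zpowers z := hF w hwc
      obtain ⟨a, ha⟩ : ∃ a : P, a = a₁ * w := ⟨_, rfl⟩
      have hap : a ^ p = 1 := by
        rw [ha, pow_mul_of_comm hzc hzp a₁ w
          (by have := hcommW a₁⁻¹; rwa [inv_inv] at this) p (dvd_choose_two_self hp hp2),
          hwp, mul_inv_cancel]
      have haz : a ∉ Subgroup.zpowers z := by
        intro h
        rw [← QuotientGroup.eq_one_iff] at h
        apply habn
        have h1 : (a₁ : P ⧸ Subgroup.zpowers z) = (w : P ⧸ Subgroup.zpowers z)⁻¹ := by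
          rw [ha, QuotientGroup.mk_mul] at h
          exact eq_inv_of_mul_eq_one_left h
        rw [h1, hw, QuotientGroup.mk_zpow, ← zpow_neg, neg_neg]
        exact Subgroup.zpow_mem_zpowers _ _
      refine ⟨z, a, hzc, hzo, hap, haz, fun g => ?_⟩
      obtain ⟨u, hu⟩ : ∃ u, u = g * a * g⁻¹ * a⁻¹ := ⟨_, rfl⟩
      rw [← hu]
      have h1 : (u : P ⧸ Subgroup.zpowers z) ∈
          Subgroup.zpowers (z₁ : P ⧸ Subgroup.zpowers z) := by
        have h2 := habc (g : P ⧸ Subgroup.zpowers z)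
        have h3 : (u : P ⧸ Subgroup.zpowers z) = (g : P ⧸ Subgroup.zpowers z) *
            (a₁ : P ⧸ Subgroup.zpowers z) * (g : P ⧸ Subgroup.zpowers z)⁻¹ *
            (a₁ : P ⧸ Subgroup.zpowers z)⁻¹ := by
          rw [hu, ha]
          simp only [QuotientGroup.mk_mul, QuotientGroup.mk_inv]
          have h4 := Subgroup.mem_center_iff.1 hwc
          rw [mul_inv_rev]
          calc (g : P ⧸ Subgroup.zpowers z) * ((a₁ : P ⧸ Subgroup.zpowers z) *
                (w : P ⧸ Subgroup.zpowers z)) * (g : P ⧸ Subgroup.zpowers z)⁻¹ *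
                ((w : P ⧸ Subgroup.zpowers z)⁻¹ * (a₁ : P ⧸ Subgroup.zpowers z)⁻¹)
              = (g : P ⧸ Subgroup.zpowers z) * (a₁ : P ⧸ Subgroup.zpowers z) *
                ((w : P ⧸ Subgroup.zpowers z) * (g : P ⧸ Subgroup.zpowers z)⁻¹) *
                (w : P ⧸ Subgroup.zpowers z)⁻¹ * (a₁ : P ⧸ Subgroup.zpowers z)⁻¹ := by group
            _ = (g : P ⧸ Subgroup.zpowers z) * (a₁ : P ⧸ Subgroup.zpowers z) *
                ((g : P ⧸ Subgroup.zpowers z)⁻¹ * (w : P ⧸ Subgroup.zpowers z)) *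
                (w : P ⧸ Subgroup.zpowers z)⁻¹ * (a₁ : P ⧸ Subgroup.zpowers z)⁻¹ := by
                  rw [h4 (g : P ⧸ Subgroup.zpowers z)⁻¹]
            _ = _ := by group
        rw [h3]
        exact h2
      obtain ⟨t, ht⟩ := Subgroup.mem_zpowers_iff.1 h1
      have huc : (u : P ⧸ Subgroup.zpowers z) ∈ Subgroup.center (P ⧸ Subgroup.zpowers z) := by
        rw [← ht]
        exact Subgroup.zpow_mem _ hzbc _
      have h5 : z₁ ^ (-t) * u ∈ Subgroup.zpowers z := by
        rw [← QuotientGroup.eq_one_iff, QuotientGroup.mk_mul, QuotientGroup.mk_zpow, ← ht,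
          ← zpow_add]
        simp
      obtain ⟨e, he⟩ := Subgroup.mem_zpowers_iff.1 (hgen _ h5)
      have hu2 : u = z₁ ^ (t + (p : ℤ) * e) := by
        have h6 : u = z₁ ^ t * (z₁ ^ (-t) * u) := by group
        rw [h6, ← he, ← zpow_natCast, ← zpow_mul, ← zpow_add]
      have hup : u ^ p = 1 := by
        have h6 : (a * u) ^ p = a ^ p * u ^ p :=
          pow_mul_of_comm hzc hzp a u (by have := hF u huc a⁻¹; rwa [inv_inv] at this) p
            (dvd_choose_two_self hp hp2)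
        have h7 : a * u = (a * g) * a * (a * g)⁻¹ := by
          rw [hu]
          group
        rw [h7, conj_pow, hap, mul_one, mul_inv_cancel, one_mul] at h6
        exact h6.symm
      have h8 : (z₁ ^ p) ^ (t + (p : ℤ) * e) = 1 := by
        rw [← zpow_natCast, ← zpow_mul, mul_comm, zpow_mul, ← hu2, zpow_natCast, hup]
      have h9 := orderOf_dvd_iff_zpow_eq_one.2 h8
      rw [hz1o] at h9
      obtain ⟨r, hr⟩ := h9
      have h10 : u = (z₁ ^ p) ^ r := by
        rw [hu2, hr, zpow_mul, zpow_natCast]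
      rw [h10]
      exact Subgroup.zpow_mem _ hz1p _

/-- A free action of `ZMod p × (units of ZMod (p ^ s) congruent to 1 mod p)` by
`y ↦ y ^ k * b ^ i` gives divisibility by `p ^ s`. -/
theorem free_count {G : Type*} [Group G] [Finite G] (p : ℕ) [Fact p.Prime] (s : ℕ) (hs : 1 ≤ s)
    (S : G → Prop) (b : G) (hb : orderOf b = p)
    (h1 : ∀ y, S y → orderOf y = p ^ s)
    (h2 : ∀ y, S y → ∀ k : ℕ, k ≡ 1 [MOD p] → S (y ^ k))
    (h3 : ∀ y, S y → ∀ i : ℕ, S (y * b ^ i))
    (h4 : ∀ y, S y → ∀ i k : ℕ, k ≡ 1 [MOD p] → (y * b ^ i) ^ k = y ^ k * b ^ i)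
    (h5 : ∀ y, S y → ∀ (j : ℤ) (i : ℕ), y ^ j = b ^ i → b ^ i = 1) :
    p ^ s ∣ Nat.card {y : G // S y} := by
  have hp := (Fact.out : p.Prime)
  have hdvd : p ∣ p ^ s := dvd_pow_self p (by omega)
  haveI : NeZero (p ^ s) := ⟨(pow_pos hp.pos s).ne'⟩
  haveI : NeZero p := ⟨hp.ne_zero⟩
  have hps1 : 1 < p ^ s := Nat.one_lt_pow (by omega) hp.one_lt
  haveI : Fact (1 < p ^ s) := ⟨hps1⟩
  obtain ⟨U, hUmem, hUidx⟩ : ∃ U : Subgroup (ZMod (p ^ s))ˣ,
      (∀ x, x ∈ U ↔ ZMod.unitsMap hdvd x = 1) ∧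
      U.index = Nat.card (ZMod.unitsMap hdvd).range :=
    ⟨(ZMod.unitsMap hdvd).ker, fun x => MonoidHom.mem_ker, Subgroup.index_ker _⟩
  have hU : ∀ k : U, ((k : (ZMod (p ^ s))ˣ) : ZMod (p ^ s)).val ≡ 1 [MOD p] := by
    intro k
    have h := (hUmem _).1 k.2
    have h' := congrArg Units.val h
    rw [ZMod.unitsMap_val, Units.val_one, ← ZMod.natCast_val] at h'
    rw [← ZMod.natCast_eq_natCast_iff, h', Nat.cast_one]
  have hbp : b ^ p = 1 := by
    rw [← hb]
    exact pow_orderOf_eq_one b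
  have e3 : ∀ (y : G), S y → ∀ N : ℕ, y ^ (N % p ^ s) = y ^ N := by
    intro y hy N
    rw [← h1 y hy]
    exact pow_mod_orderOf _ _
  have e4 : ∀ N : ℕ, b ^ (N % p) = b ^ N := fun N => (pow_eq_pow_mod N hbp).symm
  letI act : MulAction (Multiplicative (ZMod p) × U) {y : G // S y} :=
    { smul := fun g y => ⟨y.1 ^ ((g.2 : (ZMod (p ^ s))ˣ) : ZMod (p ^ s)).val *
          b ^ (Multiplicative.toAdd g.1).val, h3 _ (h2 _ y.2 _ (hU g.2)) _⟩
      one_smul := by
        intro y
        apply Subtype.ext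
        show y.1 ^ (((1 : U) : (ZMod (p ^ s))ˣ) : ZMod (p ^ s)).val *
          b ^ (Multiplicative.toAdd (1 : Multiplicative (ZMod p))).val = y.1
        simp [ZMod.val_one]
      mul_smul := by
        intro g h y
        apply Subtype.ext
        show y.1 ^ (((g * h).2 : (ZMod (p ^ s))ˣ) : ZMod (p ^ s)).val *
            b ^ (Multiplicative.toAdd (g * h).1).val =
          (y.1 ^ ((h.2 : (ZMod (p ^ s))ˣ) : ZMod (p ^ s)).val *
            b ^ (Multiplicative.toAdd h.1).val) ^ ((g.2 : (ZMod (p ^ s))ˣ) : ZMod (p ^ s)).val *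
            b ^ (Multiplicative.toAdd g.1).val
        rw [h4 _ (h2 _ y.2 _ (hU h.2)) _ _ (hU g.2)]
        have e1 : (((g * h).2 : (ZMod (p ^ s))ˣ) : ZMod (p ^ s)).val =
            (((g.2 : (ZMod (p ^ s))ˣ) : ZMod (p ^ s)).val *
              ((h.2 : (ZMod (p ^ s))ˣ) : ZMod (p ^ s)).val) % (p ^ s) := by
          rw [← ZMod.val_mul]
          rfl
        have e2 : (Multiplicative.toAdd (g * h).1).val =
            ((Multiplicative.toAdd g.1).val + (Multiplicative.toAdd h.1).val) % p := by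
          rw [← ZMod.val_add]
          rfl
        rw [e1, e2, e3 _ y.2, e4, mul_comm (((g.2 : (ZMod (p ^ s))ˣ) : ZMod (p ^ s)).val),
          pow_mul, add_comm, pow_add, mul_assoc] }
  have hsmul : ∀ (g : Multiplicative (ZMod p) × U) (y : {y : G // S y}),
      ((g • y : {y : G // S y}) : G) = y.1 ^ ((g.2 : (ZMod (p ^ s))ˣ) : ZMod (p ^ s)).val *
          b ^ (Multiplicative.toAdd g.1).val := fun _ _ => rfl
  have hfree : ∀ y : {y : G // S y},
      MulAction.stabilizer (Multiplicative (ZMod p) × U) y = ⊥ := by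
    intro y
    rw [eq_bot_iff]
    intro g hg
    rw [MulAction.mem_stabilizer_iff] at hg
    have hg' := congrArg Subtype.val hg
    rw [hsmul] at hg'
    rw [Subgroup.mem_bot]
    obtain ⟨k, hk⟩ : ∃ k : ℕ, k = ((g.2 : (ZMod (p ^ s))ˣ) : ZMod (p ^ s)).val := ⟨_, rfl⟩
    obtain ⟨i, hi⟩ : ∃ i : ℕ, i = (Multiplicative.toAdd g.1).val := ⟨_, rfl⟩
    rw [← hk, ← hi] at hg'
    have hbi : b ^ i = 1 := by
      apply h5 y.1 y.2 (-(k : ℤ) + 1) i
      rw [zpow_add, zpow_neg, zpow_natCast, zpow_one, inv_mul_eq_iff_eq_mul]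
      exact hg'.symm
    have hi0 : i = 0 := by
      have h6 := orderOf_dvd_of_pow_eq_one hbi
      rw [hb] at h6
      have h7 : i < p := by
        rw [hi]
        exact ZMod.val_lt _
      exact Nat.eq_zero_of_dvd_of_lt h6 h7
    have hg1 : g.1 = 1 := by
      rw [hi0] at hi
      have h8 := (ZMod.val_eq_zero _).1 hi.symm
      exact h8
    have hg2 : g.2 = 1 := by
      rw [hbi, mul_one] at hg'
      have h9 : y.1 ^ k = y.1 ^ 1 := by rw [pow_one]; exact hg'
      have h10 := pow_eq_pow_iff_modEq.1 h9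
      rw [h1 y.1 y.2] at h10
      have h11 := (ZMod.natCast_eq_natCast_iff _ _ _).2 h10
      rw [hk, ZMod.natCast_zmod_val, Nat.cast_one] at h11
      apply Subtype.ext
      apply Units.ext
      rw [h11]
      rfl
    exact Prod.ext hg1 hg2
  have e := MulAction.selfEquivOrbitsQuotientProd hfree
  rw [Nat.card_congr e, Nat.card_prod, Nat.card_prod]
  have c1 : Nat.card (Multiplicative (ZMod p)) = p := by
    rw [Nat.card_congr Multiplicative.toAdd, Nat.card_eq_fintype_card, ZMod.card]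
  have c2 : p ^ (s - 1) ∣ Nat.card U := by
    have t1 := Subgroup.card_mul_index U
    have t2 : Nat.card (ZMod (p ^ s))ˣ = p ^ (s - 1) * (p - 1) := by
      rw [Nat.card_eq_fintype_card, ZMod.card_units_eq_totient,
        Nat.totient_prime_pow hp (by omega)]
    have t3 : U.index ∣ p - 1 := by
      rw [hUidx]
      have h12 := Subgroup.card_subgroup_dvd_card (ZMod.unitsMap hdvd).range
      rwa [Nat.card_eq_fintype_card (α := (ZMod p)ˣ), ZMod.card_units p] at h12
    have t4 : Nat.Coprime (p ^ (s - 1)) U.index := by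
      apply Nat.Coprime.pow_left
      apply Nat.Coprime.coprime_dvd_right t3
      rw [Nat.Prime.coprime_iff_not_dvd hp]
      intro h13
      have h14 := Nat.le_of_dvd (by have := hp.two_le; omega) h13
      have := hp.two_le
      omega
    have t5 : p ^ (s - 1) ∣ Nat.card U * U.index := by
      rw [t1, t2]
      exact dvd_mul_right _ _
    exact t4.dvd_of_dvd_mul_right t5
  apply Dvd.dvd.mul_left
  rw [c1]
  have h15 : p ^ s = p * p ^ (s - 1) := by
    rw [← pow_succ']
    congr 1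
    omega
  exact Dvd.dvd.trans (dvd_of_eq h15) (Nat.mul_dvd_mul_left p c2)

/-- Noncyclic `p`-group, `p` odd, `s ≥ 2`: the number of elements of order `p ^ s` is a
multiple of `p ^ s`. -/
theorem lemmaD {P : Type*} [Group P] [Finite P] (p : ℕ) [Fact p.Prime] (hp2 : p ≠ 2)
    (hP : IsPGroup p P) (hnc : ¬ IsCyclic P) (s : ℕ) (hs : 1 < s) :
    p ^ s ∣ Nat.card {y : P // orderOf y = p ^ s} := by
  classical
  have hp := (Fact.out : p.Prime)
  obtain ⟨z, a, hzc, hzo, hap, haz, hcomm⟩ := exists_good p hp2 _ P rfl hP hnc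
  have hzp : z ^ p = 1 := by
    rw [← hzo]
    exact pow_orderOf_eq_one z
  have hcz : ∀ x ∈ Subgroup.zpowers z, ∀ g : P, g * x = x * g := by
    intro x hx g
    have : x ∈ Subgroup.center P := (Subgroup.zpowers_le.2 hzc) hx
    exact Subgroup.mem_center_iff.1 this g
  have ha1 : a ≠ 1 := fun h => haz (h ▸ Subgroup.one_mem _)
  have hao : orderOf a = p := orderOf_eq_prime hap ha1
  have hT : ∀ y : P, orderOf y = p ^ s → ∀ k : ℕ, k ≡ 1 [MOD p] →
      orderOf (y ^ k) = p ^ s ∧ (y ^ k) ^ (p ^ (s - 1)) = y ^ (p ^ (s - 1)) := by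
    intro y hy k hk
    constructor
    · rw [← hy]
      apply Nat.Coprime.orderOf_pow
      rw [hy]
      apply Nat.Coprime.pow_left
      have h1 : Nat.gcd k p = Nat.gcd 1 p := Nat.ModEq.gcd_eq hk
      rw [Nat.coprime_comm]
      show Nat.gcd k p = 1
      rw [h1, Nat.gcd_one_left]
    · rw [← pow_mul, mul_comm, pow_mul]
      apply pow_of_modEq_one hp.one_lt _ hk
      rw [← pow_mul, ← pow_succ]
      have h2 : s - 1 + 1 = s := by omega
      rw [h2, ← hy]
      exact pow_orderOf_eq_one y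
  have hTop : ∀ y : P, orderOf y = p ^ s → orderOf (y ^ (p ^ (s - 1))) = p := by
    intro y hy
    rw [orderOf_pow_of_dvd (pow_pos hp.pos _).ne' (by rw [hy]; exact pow_dvd_pow p (by omega)),
      hy, Nat.pow_div (by omega) hp.pos]
    have h2 : s - (s - 1) = 1 := by omega
    rw [h2, pow_one]
  have hM : ∀ x y : P, x ^ p = y ^ p → orderOf y = p ^ s →
      orderOf x = p ^ s ∧ x ^ (p ^ (s - 1)) = y ^ (p ^ (s - 1)) :=
    fun x y h hy => ⟨same_pow_order hs h hy, same_pow hs h⟩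
  have hcommi : ∀ (g : P) (i : ℕ), g * a ^ i * g⁻¹ * (a ^ i)⁻¹ ∈ Subgroup.zpowers z := by
    intro g i
    have t := hcomm g
    have e1 : g * a ^ i * g⁻¹ = (g * a * g⁻¹) ^ i := conj_pow.symm
    have e2 : g * a * g⁻¹ = (g * a * g⁻¹ * a⁻¹) * a := by group
    have hcm : Commute (g * a * g⁻¹ * a⁻¹) a := (hcz _ t a).symm
    have e3 : g * a ^ i * g⁻¹ * (a ^ i)⁻¹ = (g * a * g⁻¹ * a⁻¹) ^ i := by
      calc g * a ^ i * g⁻¹ * (a ^ i)⁻¹ = (g * a * g⁻¹) ^ i * (a ^ i)⁻¹ := by rw [e1]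
        _ = ((g * a * g⁻¹ * a⁻¹) * a) ^ i * (a ^ i)⁻¹ := by rw [← e2]
        _ = (g * a * g⁻¹ * a⁻¹) ^ i * a ^ i * (a ^ i)⁻¹ := by rw [hcm.mul_pow]
        _ = (g * a * g⁻¹ * a⁻¹) ^ i := mul_inv_cancel_right _ _
    rw [e3]
    exact Subgroup.pow_mem _ t i
  have hA : p ^ s ∣ Nat.card {y : P // orderOf y = p ^ s ∧
      y ^ (p ^ (s - 1)) ∉ Subgroup.zpowers z} := by
    apply free_count p s (by omega) _ z hzo
    · exact fun y hy => hy.1
    · intro y hy k hk
      refine ⟨(hT y hy.1 k hk).1, ?_⟩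
      rw [(hT y hy.1 k hk).2]
      exact hy.2
    · intro y hy i
      have h1 : (y * z ^ i) ^ p = y ^ p := by
        rw [(show Commute y (z ^ i) from hcz _ (Subgroup.pow_mem _ (Subgroup.mem_zpowers z) i) y).mul_pow,
          ← pow_mul, mul_comm, pow_mul, hzp, one_pow, mul_one]
      refine ⟨(hM _ _ h1 hy.1).1, ?_⟩
      rw [(hM _ _ h1 hy.1).2]
      exact hy.2
    · intro y hy i k hk
      rw [(show Commute y (z ^ i) from hcz _ (Subgroup.pow_mem _ (Subgroup.mem_zpowers z) i) y).mul_pow]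
      congr 1
      apply pow_of_modEq_one hp.one_lt _ hk
      rw [← pow_mul, mul_comm, pow_mul, hzp, one_pow]
    · intro y hy j i hji
      by_contra hne
      have m1 : z ^ i ∈ Subgroup.zpowers (y ^ (p ^ (s - 1))) := by
        apply mem_zpowers_top (by omega) hy.1
        · rw [← hji]
          exact Subgroup.zpow_mem_zpowers _ _
        · rw [← pow_mul, mul_comm, pow_mul, hzp, one_pow]
      have m2 : y ^ (p ^ (s - 1)) ∈ Subgroup.zpowers (z ^ i) :=
        mem_zpowers_of_prime (hTop y hy.1) m1 hne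
      exact hy.2 ((Subgroup.zpowers_le.2 (Subgroup.pow_mem _ (Subgroup.mem_zpowers z) i)) m2)
  have hB : p ^ s ∣ Nat.card {y : P // orderOf y = p ^ s ∧
      y ^ (p ^ (s - 1)) ∈ Subgroup.zpowers z} := by
    apply free_count p s (by omega) _ a hao
    · exact fun y hy => hy.1
    · intro y hy k hk
      refine ⟨(hT y hy.1 k hk).1, ?_⟩
      rw [(hT y hy.1 k hk).2]
      exact hy.2
    · intro y hy i
      have h1 : (y * a ^ i) ^ p = y ^ p := by
        rw [pow_mul_of_comm hzc hzp y (a ^ i)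
          (by have := hcommi y⁻¹ i; rwa [inv_inv] at this) p (dvd_choose_two_self hp hp2),
          ← pow_mul, mul_comm, pow_mul, hap, one_pow, mul_one]
      refine ⟨(hM _ _ h1 hy.1).1, ?_⟩
      rw [(hM _ _ h1 hy.1).2]
      exact hy.2
    · intro y hy i k hk
      rw [pow_mul_of_comm hzc hzp y (a ^ i)
          (by have := hcommi y⁻¹ i; rwa [inv_inv] at this) k (dvd_choose_two_of_modEq hp hp2 hk)]
      congr 1
      apply pow_of_modEq_one hp.one_lt _ hk
      rw [← pow_mul, mul_comm, pow_mul, hap, one_pow]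
    · intro y hy j i hji
      by_contra hne
      have m1 : a ^ i ∈ Subgroup.zpowers (y ^ (p ^ (s - 1))) := by
        apply mem_zpowers_top (by omega) hy.1
        · rw [← hji]
          exact Subgroup.zpow_mem_zpowers _ _
        · rw [← pow_mul, mul_comm, pow_mul, hap, one_pow]
      have m2 : a ^ i ∈ Subgroup.zpowers z := (Subgroup.zpowers_le.2 hy.2) m1
      have m3 : a ∈ Subgroup.zpowers (a ^ i) :=
        mem_zpowers_of_prime hao (Subgroup.pow_mem _ (Subgroup.mem_zpowers a) i) hne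
      exact haz ((Subgroup.zpowers_le.2 m2) m3)
  have e : {y : P // orderOf y = p ^ s} ≃
      {y : P // orderOf y = p ^ s ∧ y ^ (p ^ (s - 1)) ∈ Subgroup.zpowers z} ⊕
      {y : P // orderOf y = p ^ s ∧ y ^ (p ^ (s - 1)) ∉ Subgroup.zpowers z} :=
    ((Equiv.sumCompl (fun y : {y : P // orderOf y = p ^ s} =>
      y.1 ^ (p ^ (s - 1)) ∈ Subgroup.zpowers z)).symm).trans
      (Equiv.sumCongr
        (Equiv.subtypeSubtypeEquivSubtypeInter (fun y : P => orderOf y = p ^ s)
          (fun y : P => y ^ (p ^ (s - 1)) ∈ Subgroup.zpowers z))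
        (Equiv.subtypeSubtypeEquivSubtypeInter (fun y : P => orderOf y = p ^ s)
          (fun y : P => y ^ (p ^ (s - 1)) ∉ Subgroup.zpowers z)))
  rw [Nat.card_congr e, Nat.card_sum]
  exact dvd_add hB hA

end Cfsg.Agent.Lib.Helper21.Kulakoff
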