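import Mathlib
import Cfsg.Agent.Lib.Helper21.BGroup
import Cfsg.Agent.Lib.Helper21.Kulakoff

set_option autoImplicit false

namespace Cfsg.Agent.Lib.Helper21.BGroup

open Pointwise

/-- In a cyclic `p`-group, every nontrivial subgroup contains the subgroup of order `p`. -/
theorem mem_zpowers_min {G : Type*} [Group G] (p m : ℕ) [Fact p.Prime] (hm : 1 ≤ m) (g : G)
    (hg : orderOf g = p ^ m) (y : G) (hy : y ∈ Subgroup.zpowers g) (hy1 : y ≠ 1) :
    g ^ (p ^ (m - 1)) ∈ Subgroup.zpowers y := by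
  have hp := (Fact.out : p.Prime)
  have hyo : orderOf y ∣ p ^ m := by
    rw [← hg]
    obtain ⟨k, rfl⟩ := Subgroup.mem_zpowers_iff.1 hy
    exact orderOf_dvd_of_pow_eq_one (by rw [← zpow_natCast, ← zpow_mul, mul_comm, zpow_mul,
      zpow_natCast, pow_orderOf_eq_one, one_zpow])
  obtain ⟨i, hi, hi'⟩ := (Nat.dvd_prime_pow hp).1 hyo
  have hi0 : i ≠ 0 := by
    rintro rfl
    rw [pow_zero, orderOf_eq_one_iff] at hi'
    exact hy1 hi'
  obtain ⟨z, hz⟩ : ∃ z, z = y ^ (p ^ (i - 1)) := ⟨_, rfl⟩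
  have hzp : z ^ p = 1 := by
    rw [hz, ← pow_mul, ← pow_succ, (by omega : i - 1 + 1 = i), ← hi']
    exact pow_orderOf_eq_one y
  have hz1 : z ≠ 1 := by
    rw [hz]
    apply pow_ne_one_of_lt_orderOf (pow_pos hp.pos _).ne'
    rw [hi']
    exact Nat.pow_lt_pow_right hp.one_lt (by omega)
  have hzg : z ∈ Subgroup.zpowers g := by
    rw [hz]
    exact Subgroup.pow_mem _ hy _
  have h1 := Kulakoff.mem_zpowers_top hm hg hzg hzp
  have hx0 : orderOf (g ^ (p ^ (m - 1))) = p := by
    rw [orderOf_pow_of_dvd (pow_pos hp.pos _).ne' (by rw [hg]; exact pow_dvd_pow p (by omega)),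
      hg, Nat.pow_div (by omega) hp.pos, (by omega : m - (m - 1) = 1), pow_one]
  have h2 := Kulakoff.mem_zpowers_of_prime hx0 h1 hz1
  exact (Subgroup.zpowers_le.2 (by rw [hz]; exact Subgroup.pow_mem _ (Subgroup.mem_zpowers y) _)) h2

/-- Burnside–Schur: a transitive, not doubly transitive group of degree `p ^ m`, `m ≥ 2`,
containing a `p ^ m`-cycle is imprimitive. -/
theorem main {Ω : Type*} [Fintype Ω] [DecidableEq Ω] (p m : ℕ) (hp : p.Prime) (hm : 2 ≤ m)
    (hΩ : Fintype.card Ω = p ^ m) (G : Subgroup (Equiv.Perm Ω))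
    (htr : MulAction.IsPretransitive G Ω) (h2 : ¬ MulAction.IsMultiplyPretransitive G Ω 2)
    (g : G) (hg : orderOf g = p ^ m) :
    ¬ MulAction.IsPreprimitive G Ω ∧
      ¬ MulAction.IsPretransitive (Subgroup.normalClosure ({g ^ (p ^ (m - 1))} : Set G)) Ω := by
  haveI : Fact p.Prime := ⟨hp⟩
  haveI : NeZero (p ^ m) := ⟨(pow_pos hp.pos m).ne'⟩
  have hx0 : g ^ (p ^ (m - 1)) ≠ 1 :=
    pow_ne_one_of_lt_orderOf (pow_pos hp.pos _).ne'
      (by rw [hg]; exact Nat.pow_lt_pow_right hp.one_lt (by omega))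
  obtain ⟨ω₀, hω₀⟩ : ∃ ω₀ : Ω, (g ^ (p ^ (m - 1))) • ω₀ ≠ ω₀ := by
    by_contra hcon
    apply hx0
    apply Subtype.ext
    apply Equiv.ext
    intro ω
    by_contra h
    exact hcon ⟨ω, h⟩
  have hgn : g ^ (p ^ m) = 1 := by
    rw [← hg]
    exact pow_orderOf_eq_one g
  have hmod : ∀ j : ℕ, g ^ (j % (p ^ m)) = g ^ j := by
    intro j
    conv_rhs => rw [← Nat.mod_add_div j (p ^ m), pow_add, pow_mul, hgn, one_pow, mul_one]
  have hfree : ∀ d : ℕ, d < p ^ m → (g ^ d) • ω₀ = ω₀ → d = 0 := by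
    intro d hd hfix
    by_contra hd0
    have h1 : g ^ d ∈ MulAction.stabilizer G ω₀ := hfix
    have h2 : g ^ (p ^ m) ∈ MulAction.stabilizer G ω₀ := by
      rw [hgn]
      exact one_mem _
    have h3 : g ^ (Nat.gcd d (p ^ m)) ∈ MulAction.stabilizer G ω₀ := by
      have hb := Nat.gcd_eq_gcd_ab d (p ^ m)
      have h4 : (g ^ (Nat.gcd d (p ^ m)) : G) =
          (g ^ d) ^ (Nat.gcdA d (p ^ m)) * (g ^ (p ^ m)) ^ (Nat.gcdB d (p ^ m)) := by
        rw [← zpow_natCast g (Nat.gcd d (p ^ m)), hb, zpow_add, zpow_mul, zpow_mul, zpow_natCast,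
          zpow_natCast]
      rw [h4]
      exact mul_mem (zpow_mem h1 _) (zpow_mem h2 _)
    obtain ⟨i, hi, hi'⟩ := (Nat.dvd_prime_pow hp).1 (Nat.gcd_dvd_right d (p ^ m))
    have him : i ≤ m - 1 := by
      by_contra h
      have him : i = m := by omega
      rw [him] at hi'
      have h5 : p ^ m ∣ d := hi' ▸ Nat.gcd_dvd_left d (p ^ m)
      have := Nat.le_of_dvd (Nat.pos_of_ne_zero hd0) h5
      omega
    apply hω₀
    have h6 : g ^ (p ^ (m - 1)) = (g ^ (Nat.gcd d (p ^ m))) ^ (p ^ (m - 1 - i)) := by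
      rw [hi', ← pow_mul, ← pow_add]
      congr 2
      omega
    have h7 : g ^ (p ^ (m - 1)) ∈ MulAction.stabilizer G ω₀ := by
      rw [h6]
      exact pow_mem h3 _
    exact h7
  have hinj : Function.Injective (fun k : ZMod (p ^ m) => (g ^ k.val) • ω₀) := by
    intro k l h
    have key : ∀ a b : ℕ, a ≤ b → b < p ^ m → (g ^ a) • ω₀ = (g ^ b) • ω₀ → a = b := by
      intro a b hab hb h
      have h1 : (g ^ (b - a)) • ω₀ = ω₀ := by
        have h2 : g ^ b = g ^ a * g ^ (b - a) := by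
          rw [← pow_add]
          congr 1
          omega
        rw [h2, mul_smul] at h
        exact (MulAction.injective (g ^ a) h).symm
      have := hfree (b - a) (by omega) h1
      omega
    have hk := ZMod.val_lt k
    have hl := ZMod.val_lt l
    have h' : (g ^ k.val) • ω₀ = (g ^ l.val) • ω₀ := h
    have hval : k.val = l.val := by
      rcases Nat.le_total k.val l.val with hkl | hkl
      · exact key _ _ hkl hl h'
      · exact (key _ _ hkl hk h'.symm).symm
    exact ZMod.val_injective _ hval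
  have hbij : Function.Bijective (fun k : ZMod (p ^ m) => (g ^ k.val) • ω₀) := by
    rw [Fintype.bijective_iff_injective_and_card]
    exact ⟨hinj, by rw [ZMod.card, hΩ]⟩
  obtain ⟨e, he⟩ : ∃ e : ZMod (p ^ m) ≃ Ω, ∀ k, e k = (g ^ k.val) • ω₀ :=
    ⟨Equiv.ofBijective _ hbij, fun k => rfl⟩
  have he1 : ∀ k : ZMod (p ^ m), e (k + 1) = g • e k := by
    intro k
    rw [he, he, ← mul_smul, ← pow_succ']
    congr 1
    rw [ZMod.val_add, ZMod.val_one_eq_one_mod, Nat.add_mod_mod, hmod]
  have hpow : ∀ (j : ℕ) (k : ZMod (p ^ m)), (g ^ j) • e k = e (k + j) := by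
    intro j
    induction j with
    | zero =>
      intro k
      simp
    | succ j ih =>
      intro k
      rw [pow_succ', mul_smul, ih, ← he1]
      congr 1
      push_cast
      ring
  letI act : MulAction ↥G (ZMod (p ^ m)) :=
    { smul := fun γ k => e.symm (γ • e k)
      one_smul := fun k => by
        show e.symm ((1 : G) • e k) = k
        rw [one_smul, Equiv.symm_apply_apply]
      mul_smul := fun a b k => by
        show e.symm ((a * b) • e k) = e.symm (a • e (e.symm (b • e k)))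
        rw [Equiv.apply_symm_apply, mul_smul] }
  have hact : ∀ (γ : G) (k : ZMod (p ^ m)), e (γ • k) = γ • e k :=
    fun γ k => Equiv.apply_symm_apply e _
  have hσ : ∀ x : ZMod (p ^ m), g • x = x + 1 := by
    intro x
    apply e.injective
    rw [hact, he1]
  have part1 : ¬ MulAction.IsPreprimitive G Ω := by
    intro hprimG
    apply h2
    have hprim : ∀ L : AddSubgroup (ZMod (p ^ m)),
        (∀ γ : G, γ • (0 : ZMod (p ^ m)) = 0 → ∀ x ∈ L, γ • x ∈ L) → L = ⊥ ∨ L = ⊤ := by
      intro L hL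
      have hL1 : ∀ γ : G, γ • (0 : ZMod (p ^ m)) ∈ L → ∀ x ∈ L, γ • x ∈ L := by
        intro γ hγ x hx
        obtain ⟨γ', hγ', h⟩ := shift g hσ γ 0
        have h1 := h x
        rw [zero_add] at h1
        rw [h1]
        exact add_mem hγ (hL γ' hγ' x hx)
      have hL2 : ∀ γ : G, γ • (0 : ZMod (p ^ m)) ∈ L → γ⁻¹ • (0 : ZMod (p ^ m)) ∈ L := by
        intro γ hγ
        obtain ⟨γ', hγ', h⟩ := shift g hσ γ 0
        have h1 := h (γ⁻¹ • (0 : ZMod (p ^ m)))
        rw [zero_add, smul_inv_smul] at h1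
        have h2 : γ' • (γ⁻¹ • (0 : ZMod (p ^ m))) ∈ L := by
          have h3 : γ' • (γ⁻¹ • (0 : ZMod (p ^ m))) = -(γ • (0 : ZMod (p ^ m))) :=
            eq_neg_of_add_eq_zero_right h1.symm
          rw [h3]
          exact neg_mem hγ
        have h3 := hL γ'⁻¹ (zero_fix_inv hγ') _ h2
        rwa [inv_smul_smul] at h3
      have hsub : ∀ γ : G, γ • (0 : ZMod (p ^ m)) ∈ L →
          γ • (e '' (L : Set (ZMod (p ^ m)))) ⊆ e '' (L : Set (ZMod (p ^ m))) := by
        intro γ hγ ω hω
        obtain ⟨b, ⟨x, hx, rfl⟩, rfl⟩ := Set.mem_smul_set.1 hω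
        exact ⟨γ • x, hL1 γ hγ x hx, hact γ x⟩
      have hB : MulAction.IsBlock G (e '' (L : Set (ZMod (p ^ m)))) := by
        rw [MulAction.isBlock_iff_smul_eq_or_disjoint]
        intro γ
        by_cases hc : γ • (0 : ZMod (p ^ m)) ∈ L
        · left
          apply Set.Subset.antisymm (hsub γ hc)
          intro ω hω
          have h1 := hsub γ⁻¹ (hL2 γ hc) (Set.smul_mem_smul_set hω)
          rw [Set.mem_smul_set]
          exact ⟨γ⁻¹ • ω, h1, smul_inv_smul _ _⟩
        · right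
          rw [Set.disjoint_left]
          intro ω hω hω'
          obtain ⟨b, ⟨x, hx, rfl⟩, rfl⟩ := Set.mem_smul_set.1 hω
          obtain ⟨y, hy, hy'⟩ := hω'
          apply hc
          obtain ⟨γ', hγ', h⟩ := shift g hσ γ 0
          have h1 := h x
          rw [zero_add] at h1
          have h2 : γ • x = y := by
            apply e.injective
            rw [hact, hy']
          rw [h2] at h1
          have h3 : γ • (0 : ZMod (p ^ m)) = y - γ' • x := eq_sub_of_add_eq h1.symm
          rw [h3]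
          exact sub_mem hy (hL γ' hγ' x hx)
      rcases hprimG.isTrivialBlock_of_isBlock hB with h | h
      · left
        rw [eq_bot_iff]
        intro x hx
        rw [AddSubgroup.mem_bot]
        exact e.injective (h ⟨x, hx, rfl⟩ ⟨0, zero_mem L, rfl⟩)
      · right
        rw [eq_top_iff]
        intro y _
        have h1 : e y ∈ e '' (L : Set (ZMod (p ^ m))) := h ▸ Set.mem_univ _
        obtain ⟨x, hx, hxy⟩ := h1
        rw [← e.injective hxy]
        exact hx
    have hcore := core g hσ p m hm rfl hprim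
    rw [MulAction.is_two_pretransitive_iff]
    intro a b c d hab hcd
    obtain ⟨γ₁, h1⟩ := MulAction.exists_smul_eq G a (e 0)
    obtain ⟨γ₂, h2⟩ := MulAction.exists_smul_eq G c (e 0)
    have hx : e.symm (γ₁ • b) ≠ 0 := by
      intro h
      apply hab
      apply MulAction.injective γ₁
      show γ₁ • a = γ₁ • b
      rw [h1, ← h, Equiv.apply_symm_apply]
    have hy : e.symm (γ₂ • d) ≠ 0 := by
      intro h
      apply hcd
      apply MulAction.injective γ₂
      show γ₂ • c = γ₂ • d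
      rw [h2, ← h, Equiv.apply_symm_apply]
    obtain ⟨γ₀, h3, h4⟩ := hcore _ _ hx hy
    refine ⟨γ₂⁻¹ * γ₀ * γ₁, ?_, ?_⟩
    · rw [mul_smul, mul_smul, h1, inv_smul_eq_iff, h2, ← hact, h3]
    · rw [mul_smul, mul_smul, inv_smul_eq_iff]
      have h5 := congrArg e h4
      rw [hact, Equiv.apply_symm_apply, Equiv.apply_symm_apply] at h5
      exact h5
  refine ⟨part1, ?_⟩
  intro htrN
  obtain ⟨B, hB, hBnt⟩ : ∃ B : Set Ω, MulAction.IsBlock G B ∧ ¬ MulAction.IsTrivialBlock B := by
    by_contra hcon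
    apply part1
    exact @MulAction.IsPreprimitive.mk _ _ _ htr (fun {B} hB => by
      by_contra h
      exact hcon ⟨B, hB, h⟩)
  have hB1 : ¬ B.Subsingleton := fun h => hBnt (Or.inl h)
  have hB2 : B ≠ Set.univ := fun h => hBnt (Or.inr h)
  obtain ⟨ω, hω, ω', hω', hne⟩ := Set.not_subsingleton_iff.1 hB1
  obtain ⟨ω'', hω''⟩ : ∃ ω'' : Ω, ω'' ∉ B := by
    by_contra h
    apply hB2
    rw [Set.eq_univ_iff_forall]
    intro x
    by_contra hx
    exact h ⟨x, hx⟩
  have hfix : ∀ γ : G, (g ^ (p ^ (m - 1))) • (γ • B) = γ • B := by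
    intro γ
    have hB' : MulAction.IsBlock G (γ • B) := hB.translate γ
    obtain ⟨k, hk⟩ := e.surjective (γ • ω)
    obtain ⟨l, hl⟩ := e.surjective (γ • ω')
    have h1 : (g ^ (l - k).val) • (γ • ω) = γ • ω' := by
      rw [← hk, hpow, ← hl, ZMod.natCast_zmod_val]
      congr 1
      ring
    obtain ⟨y, hy⟩ : ∃ y : G, y = g ^ (l - k).val := ⟨_, rfl⟩
    rw [← hy] at h1
    have hy1 : y ≠ 1 := by
      rintro rfl
      rw [one_smul] at h1
      exact hne (MulAction.injective γ h1)
    have hyB : y • (γ • B) = γ • B := by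
      rcases (MulAction.isBlock_iff_smul_eq_or_disjoint.1 hB') y with h | h
      · exact h
      · exfalso
        rw [Set.disjoint_left] at h
        exact h (Set.smul_mem_smul_set (Set.smul_mem_smul_set hω))
          (h1 ▸ Set.smul_mem_smul_set hω')
    have hmem := mem_zpowers_min p m (by omega) g hg y
      (hy ▸ Subgroup.pow_mem _ (Subgroup.mem_zpowers g) _) hy1
    have hst : Subgroup.zpowers y ≤ MulAction.stabilizer G (γ • B) := by
      rw [Subgroup.zpowers_le]
      exact hyB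
    exact hst hmem
  obtain ⟨F, hF, hFn⟩ : ∃ F : Subgroup G,
      (∀ x, x ∈ F ↔ ∀ γ : G, x • (γ • B) = γ • B) ∧ F.Normal := by
    refine ⟨{ carrier := {x | ∀ γ : G, x • (γ • B) = γ • B}
              one_mem' := fun γ => one_smul _ _
              mul_mem' := by
                intro a b ha hb γ
                rw [mul_smul, hb γ, ha γ]
              inv_mem' := by
                intro a ha γ
                rw [inv_smul_eq_iff, ha γ] }, fun x => Iff.rfl, ?_⟩
    constructor
    intro x hx y γ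
    have h1 := hx (y⁻¹ * γ)
    rw [mul_smul, mul_smul, ← mul_smul y⁻¹ γ B, h1, mul_smul, smul_inv_smul]
  haveI := hFn
  have hNF : Subgroup.normalClosure ({g ^ (p ^ (m - 1))} : Set G) ≤ F := by
    apply Subgroup.normalClosure_le_normal
    intro x hx
    rw [Set.mem_singleton_iff] at hx
    rw [hx]
    exact (hF _).2 hfix
  obtain ⟨x, hx⟩ := MulAction.exists_smul_eq
    (Subgroup.normalClosure ({g ^ (p ^ (m - 1))} : Set G)) ω ω''
  have h1 := (hF _).1 (hNF x.2) 1
  rw [one_smul] at h1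
  apply hω''
  rw [← hx, ← h1]
  exact Set.smul_mem_smul_set hω

end Cfsg.Agent.Lib.Helper21.BGroup
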