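import Mathlib
import Cfsg.Agent.Lib.Helper21.Higman
import Cfsg.Agent.Lib.Helper9.Cores

set_option autoImplicit false
open Cfsg
open scoped IsMulCommutative

namespace Cfsg.Agent.Lib.Helper21.CPGroups

open Cfsg.Agent.Lib.Helper21.Higman Cfsg.Agent.Lib.Helper9

universe u

/-- A quotient of a group with prime-power element orders has prime-power element orders. -/
theorem cp_quotient {G : Type*} [Group G] (hcp : ∀ g : G, g ≠ 1 → IsPrimePow (orderOf g))
    (N : Subgroup G) [N.Normal] : ∀ q : G ⧸ N, q ≠ 1 → IsPrimePow (orderOf q) := by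
  intro q hq
  obtain ⟨g, rfl⟩ := QuotientGroup.mk_surjective q
  have hg1 : g ≠ 1 := fun h => hq (by rw [h]; rfl)
  obtain ⟨s, m, hs, hm, hsm⟩ := cp_order hg1 (hcp g hg1)
  have hdvd : orderOf (QuotientGroup.mk' N g) ∣ orderOf g := orderOf_map_dvd _ g
  rw [hsm] at hdvd
  obtain ⟨i, hi, hio⟩ := (Nat.dvd_prime_pow hs).mp hdvd
  have hi0 : i ≠ 0 := by
    rintro rfl
    rw [pow_zero] at hio
    exact hq (orderOf_eq_one_iff.mp hio)
  rw [isPrimePow_nat_iff]
  exact ⟨s, i, hs, Nat.pos_of_ne_zero hi0, hio.symm⟩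

theorem cp_subgroup {G : Type*} [Group G] (hcp : ∀ g : G, g ≠ 1 → IsPrimePow (orderOf g))
    (H : Subgroup G) : ∀ h : H, h ≠ 1 → IsPrimePow (orderOf h) := by
  intro a ha
  rw [← Subgroup.orderOf_coe]
  exact hcp _ (fun h => ha (Subtype.ext h))

theorem cp_absurd_of_commute {Q : Type*} [Group Q]
    (hcp : ∀ g : Q, g ≠ 1 → IsPrimePow (orderOf g)) {x y : Q} (hc : Commute x y)
    {u s m k : ℕ} (hu : u.Prime) (hs : s.Prime) (hus : u ≠ s) (hm : 0 < m) (hk : 0 < k)
    (hx : orderOf x = u ^ m) (hy : orderOf y = s ^ k) : False := by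
  apply cp_commute_absurd hcp hc
  · rw [hx]; exact Nat.one_lt_pow hm.ne' hu.one_lt
  · rw [hy]; exact Nat.one_lt_pow hk.ne' hs.one_lt
  · rw [hx, hy]; exact Nat.Coprime.pow _ _ ((Nat.coprime_primes hu hs).mpr hus)

/-- In a CP group, anything commuting with a nontrivial `p`-element is a `p`-element. -/
theorem cp_commute_pow {G : Type*} [Group G]
    (hcp : ∀ g : G, g ≠ 1 → IsPrimePow (orderOf g)) {p : ℕ} (hp : p.Prime) {x g : G}
    (hx : x ≠ 1) (hxp : ∃ k : ℕ, x ^ p ^ k = 1) (hc : Commute g x) : ∃ k : ℕ, g ^ p ^ k = 1 := by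
  by_cases hg : g = 1
  · exact ⟨0, by rw [hg, one_pow]⟩
  obtain ⟨s, m, hs, hm, hsm⟩ := cp_order hg (hcp g hg)
  by_cases hsp : s = p
  · exact ⟨m, by rw [← hsp, ← hsm, pow_orderOf_eq_one]⟩
  exfalso
  obtain ⟨k, hk⟩ := hxp
  obtain ⟨i, -, hi⟩ := (Nat.dvd_prime_pow hp).mp (orderOf_dvd_of_pow_eq_one hk)
  have hi0 : 0 < i := by
    rcases Nat.eq_zero_or_pos i with h | h
    · rw [h, pow_zero] at hi
      exact absurd (orderOf_eq_one_iff.mp hi) hx
    · exact h
  exact cp_absurd_of_commute hcp hc hs hp hsp hm hi0 hsm hi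

theorem isPGroup_or_exists {Q : Type*} [Group Q]
    (hcp : ∀ g : Q, g ≠ 1 → IsPrimePow (orderOf g)) (T : Subgroup Q) (s : ℕ) :
    IsPGroup s T ∨ ∃ x ∈ T, ∃ u m : ℕ, u.Prime ∧ u ≠ s ∧ 0 < m ∧ orderOf x = u ^ m := by
  by_cases hex : ∃ x ∈ T, ∃ u m : ℕ, u.Prime ∧ u ≠ s ∧ 0 < m ∧ orderOf x = u ^ m
  · exact Or.inr hex
  left
  intro x
  by_cases hx : x = 1
  · exact ⟨0, by rw [hx, one_pow]⟩
  have hx1 : (x : Q) ≠ 1 := fun h => hx (Subtype.ext h)
  obtain ⟨u, m, hu, hm, hum⟩ := cp_order hx1 (hcp _ hx1)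
  by_cases hus : u = s
  · refine ⟨m, Subtype.ext ?_⟩
    rw [Subgroup.coe_pow, ← hus, ← hum, pow_orderOf_eq_one]
    rfl
  · exact absurd ⟨x, x.2, u, m, hu, hus, hm, hum⟩ hex

/-- A nontrivial solvable normal subgroup of a CP group contains a nontrivial abelian normal
`p`-subgroup of the whole group. -/
theorem exists_normal_abelian_pgroup {G : Type*} [Group G] [Finite G]
    (hcp : ∀ g : G, g ≠ 1 → IsPrimePow (orderOf g)) (R : Subgroup G) [R.Normal] (hR : R ≠ ⊥)
    [Group.IsSolvable R] :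
    ∃ (p : ℕ) (D : Subgroup G), p.Prime ∧ D.Normal ∧ D ≤ R ∧ IsPGroup p D ∧
      (∀ a ∈ D, ∀ b ∈ D, a * b = b * a) ∧ ∃ e ∈ D, orderOf e = p := by
  haveI : Nontrivial R := (Subgroup.nontrivial_iff_ne_bot R).mpr hR
  obtain ⟨D₀, hchar, hne, hcomm⟩ := exists_abelian_char (G := R)
  haveI := hchar
  haveI : Nontrivial D₀ := (Subgroup.nontrivial_iff_ne_bot D₀).mpr hne
  have hD₀cp := cp_subgroup (cp_subgroup hcp R) D₀
  obtain ⟨p, hp, hpg, a₀, ha₀⟩ := exists_prime_isPGroup_of_comm (A := D₀)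
      (fun a b => Subtype.ext (hcomm a a.2 b b.2)) hD₀cp
  refine ⟨p, D₀.map R.subtype, hp, ConjAct.normal_of_characteristic_of_normal, ?_, ?_, ?_, ?_⟩
  · rintro _ ⟨a, -, rfl⟩
    exact a.2
  · rintro ⟨_, a, ha, rfl⟩
    obtain ⟨k, hk⟩ := hpg ⟨a, ha⟩
    refine ⟨k, Subtype.ext ?_⟩
    have h1 := congrArg (fun z : D₀ => ((z : R) : G)) hk
    simpa using h1
  · rintro _ ⟨a, ha, rfl⟩ _ ⟨b, hb, rfl⟩
    have := hcomm a ha b hb
    have h1 := congrArg Subtype.val this
    simpa using h1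
  · refine ⟨((a₀ : R) : G), ⟨a₀, a₀.2, rfl⟩, ?_⟩
    rw [Subgroup.orderOf_coe, Subgroup.orderOf_coe]
    exact ha₀

/-- An elementary abelian `t`-group of rank at least two cannot act fixed-point-freely on a
nontrivial abelian group of exponent prime to `t`. -/
theorem elem_abelian_fpf {E : Type*} [Group E] [Finite E] (t : ℕ) [Fact t.Prime]
    (hcomm : ∀ a b : E, a * b = b * a) (hexp : ∀ a : E, a ^ t = 1) (hcard : t ^ 2 ∣ Nat.card E)
    {A : Type*} [Group A] [IsMulCommutative A] (φ : E →* MulAut A)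
    (hfpf : ∀ g : E, g ≠ 1 → ∀ x : A, φ g x = x → x = 1) (x : A) : x ^ t = 1 := by
  have ht := Fact.out (p := t.Prime)
  obtain ⟨L₀, hL₀⟩ := Sylow.exists_subgroup_card_pow_prime t hcard
  have hdvd' : t ^ 1 ∣ Nat.card L₀ := by rw [hL₀]; exact pow_dvd_pow t (by omega)
  obtain ⟨V₀, hV₀⟩ := Sylow.exists_subgroup_card_pow_prime t hdvd'
  rw [pow_one] at hV₀
  haveI : V₀.Normal := ⟨by
    intro n hn g
    have : g * n * g⁻¹ = n := by
      have hc' : g * n = n * g := Subtype.ext (hcomm _ _)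
      rw [hc', mul_inv_cancel_right]
    rw [this]; exact hn⟩
  have hV₀ne : V₀ ≠ ⊥ := by
    intro h
    rw [h, Subgroup.card_bot] at hV₀
    exact ht.one_lt.ne hV₀
  have hex : ∃ y : L₀, y ∉ V₀ := by
    by_contra hcon
    have : V₀ = ⊤ := by
      rw [Subgroup.eq_top_iff']
      intro y
      by_contra hy
      exact hcon ⟨y, hy⟩
    rw [this, Subgroup.card_top, hL₀] at hV₀
    have := ht.one_lt
    nlinarith
  obtain ⟨y, hy⟩ := hex
  have := fpf_trick (φ.comp L₀.subtype) V₀ hV₀ne y hy t ht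
    (fun g _ => Subtype.ext (hexp g))
    (by rw [hL₀, hV₀]; ring)
    (fun g hg z hz => hfpf _ (fun h => hg (Subtype.ext h)) z hz) x
  rwa [hV₀] at this

/-- In a nonsolvable CP group, any solvable normal subgroup is a `p`-group. -/
theorem radical_isPGroup {G : Type u} [Group G] [Finite G] (hns : ¬ Group.IsSolvable G)
    (hcp : ∀ g : G, g ≠ 1 → IsPrimePow (orderOf g)) (R : Subgroup G) [R.Normal]
    [Group.IsSolvable R] : ∃ p : ℕ, p.Prime ∧ IsPGroup p R := by
  by_cases hR : R = ⊥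
  · exact ⟨2, Nat.prime_two, by rw [hR]; exact IsPGroup.of_bot⟩
  obtain ⟨p, D, hp, hDn, hDR, hDp, hDc, e₀, he₀D, he₀⟩ := exists_normal_abelian_pgroup hcp R hR
  haveI : Fact p.Prime := ⟨hp⟩
  refine ⟨p, hp, ?_⟩
  have hPp : IsPGroup p (pCore p G) := pCore_isPGroup p G
  have hDP : D ≤ pCore p G := le_pCore hDn hDp
  haveI hPsol : Group.IsSolvable (pCore p G) := by
    haveI := hPp.isNilpotent
    infer_instance
  suffices hRP : R ≤ pCore p G from hPp.to_le hRP
  by_contra hRP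
  have hQcp := cp_quotient hcp (pCore p G)
  let π := QuotientGroup.mk' (pCore p G)
  let Rb : Subgroup (G ⧸ pCore p G) := R.map π
  haveI : Rb.Normal := Subgroup.Normal.map inferInstance π (QuotientGroup.mk'_surjective _)
  have hRb : Rb ≠ ⊥ := by
    intro h
    apply hRP
    intro x hx
    have h1 : π x ∈ Rb := Subgroup.mem_map_of_mem π hx
    rw [h, Subgroup.mem_bot] at h1
    exact (QuotientGroup.eq_one_iff x).mp h1
  haveI : Group.IsSolvable Rb :=
    Group.isSolvable_of_surjective (f := π.subgroupMap R) (π.subgroupMap_surjective R)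
  obtain ⟨t, Db, ht, hDbn, hDbR, hDbt, hDbc, e, heD, he⟩ :=
    exists_normal_abelian_pgroup hQcp Rb hRb
  haveI : Fact t.Prime := ⟨ht⟩
  have he1 : e ≠ 1 := by
    intro h
    rw [h, orderOf_one] at he
    exact ht.one_lt.ne he
  have het : e ^ t = 1 := by rw [← he, pow_orderOf_eq_one]
  have htp : t ≠ p := by
    intro htp
    have h1 : Db ≤ pCore p (G ⧸ pCore p G) := le_pCore hDbn (htp ▸ hDbt)
    rw [pCore_quotient_eq_bot] at h1
    exact he1 (Subgroup.mem_bot.mp (h1 heD))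
  -- the centre of `O_p(G)`
  let Z : Subgroup G := (Subgroup.center (pCore p G)).map (pCore p G).subtype
  haveI hZn : Z.Normal := ConjAct.normal_of_characteristic_of_normal
  have hZP : Z ≤ pCore p G := by
    rintro _ ⟨a, -, rfl⟩
    exact a.2
  have hZcent : ∀ z ∈ Z, ∀ g ∈ pCore p G, g * z = z * g := by
    rintro _ ⟨a, ha, rfl⟩ g hg
    have h1 := Subgroup.mem_center_iff.mp ha ⟨g, hg⟩
    have h2 := congrArg Subtype.val h1
    simpa using h2
  haveI : IsMulCommutative Z := ⟨⟨fun a b => Subtype.ext (hZcent a a.2 b (hZP b.2)).symm⟩⟩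
  let ψ : G →* MulAut Z := MulAut.conjNormal
  have hψP : pCore p G ≤ ψ.ker := by
    intro g hg
    rw [MonoidHom.mem_ker]
    refine MulEquiv.ext (fun z => Subtype.ext ?_)
    show ((ψ g z : Z) : G) = z
    rw [MulAut.conjNormal_apply, hZcent z z.2 g hg, mul_inv_cancel_right]
  let ψb : G ⧸ pCore p G →* MulAut Z := QuotientGroup.lift (pCore p G) ψ hψP
  have hfpf : ∀ q : G ⧸ pCore p G, q ≠ 1 → q ^ t = 1 → ∀ z : Z, ψb q z = z → z = 1 := by
    intro q hq hqt z hz
    by_contra hz1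
    obtain ⟨g, rfl⟩ := QuotientGroup.mk_surjective q
    have hgz : g * (z : G) * g⁻¹ = (z : G) := by
      have h1 := congrArg Subtype.val hz
      rw [← MulAut.conjNormal_apply]
      exact h1
    have hc : Commute g (z : G) := by
      show g * (z : G) = (z : G) * g
      have : g * (z : G) = g * (z : G) * g⁻¹ * g := by group
      rw [this, hgz]
    have hzG1 : (z : G) ≠ 1 := fun h => hz1 (Subtype.ext h)
    have hzp : ∃ k : ℕ, (z : G) ^ p ^ k = 1 := by
      obtain ⟨k, hk⟩ := hPp ⟨z, hZP z.2⟩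
      exact ⟨k, congrArg Subtype.val hk⟩
    obtain ⟨k, hk⟩ := cp_commute_pow hcp hp hzG1 hzp hc
    have h1 : (QuotientGroup.mk g : G ⧸ pCore p G) ^ p ^ k = 1 := by
      rw [← QuotientGroup.mk_pow, hk]; rfl
    have h2 : orderOf (QuotientGroup.mk g : G ⧸ pCore p G) ∣ Nat.gcd (p ^ k) t :=
      Nat.dvd_gcd (orderOf_dvd_of_pow_eq_one h1) (orderOf_dvd_of_pow_eq_one hqt)
    have h3 : Nat.gcd (p ^ k) t = 1 :=
      Nat.Coprime.pow_left k ((Nat.coprime_primes hp ht).mpr (Ne.symm htp))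
    rw [h3] at h2
    exact hq (orderOf_eq_one_iff.mp (Nat.dvd_one.mp h2))
  by_cases hcase : ∀ g : G ⧸ pCore p G, g * e * g⁻¹ ∈ Subgroup.zpowers e
  · -- the quotient is solvable
    haveI hZe : (Subgroup.zpowers e).Normal := ⟨by
      intro n hn g
      obtain ⟨k, rfl⟩ := Subgroup.mem_zpowers_iff.mp hn
      have : g * e ^ k * g⁻¹ = (g * e * g⁻¹) ^ k := by
        rw [conj_zpow]
      rw [this]
      exact Subgroup.zpow_mem _ (hcase g) k⟩
    let χ : G ⧸ pCore p G →* MulAut (Subgroup.zpowers e) := MulAut.conjNormal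
    haveI : Group.IsSolvable (MulAut (Subgroup.zpowers e)) :=
      Group.isSolvable_of_comm (fun a b =>
        (IsCyclic.mulAutMulEquiv (Subgroup.zpowers e)).injective (by rw [map_mul, map_mul, mul_comm]))
    have hker : IsPGroup t χ.ker := by
      intro c
      have hc1 : χ (c : G ⧸ pCore p G) = 1 := c.2
      have hc2 : (c : G ⧸ pCore p G) * e * (c : G ⧸ pCore p G)⁻¹ = e := by
        have h1 := congrArg (fun f : MulAut (Subgroup.zpowers e) =>
          ((f ⟨e, Subgroup.mem_zpowers e⟩ : Subgroup.zpowers e) : G ⧸ pCore p G)) hc1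
        have h2 : ((χ (c : G ⧸ pCore p G) ⟨e, Subgroup.mem_zpowers e⟩ : Subgroup.zpowers e) :
            G ⧸ pCore p G) = (c : G ⧸ pCore p G) * e * (c : G ⧸ pCore p G)⁻¹ :=
          MulAut.conjNormal_apply _ _
        exact h2.symm.trans h1
      have hc : Commute (c : G ⧸ pCore p G) e := by
        show (c : G ⧸ pCore p G) * e = e * c
        have : (c : G ⧸ pCore p G) * e = (c : G ⧸ pCore p G) * e * (c : G ⧸ pCore p G)⁻¹ * c := by
          group
        rw [this, hc2]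
      obtain ⟨k, hk⟩ := cp_commute_pow hQcp ht he1 ⟨1, by rw [pow_one]; exact het⟩ hc
      exact ⟨k, Subtype.ext hk⟩
    haveI : Group.IsSolvable χ.ker := by
      haveI := hker.isNilpotent
      infer_instance
    haveI : Group.IsSolvable (G ⧸ pCore p G) :=
      Group.isSolvable_of_ker_le_range χ.ker.subtype χ (by simp)
    exact hns ((Group.isSolvable_iff_subgroup_quotient (pCore p G)).mpr ⟨hPsol, inferInstance⟩)
  · -- an elementary abelian subgroup of rank two acting fixed-point-freely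
    obtain ⟨g, hg⟩ := not_forall.mp hcase
    let E : Subgroup (G ⧸ pCore p G) :=
      { carrier := {a | a ∈ Db ∧ a ^ t = 1}
        mul_mem' := by
          rintro a b ⟨ha, ha'⟩ ⟨hb, hb'⟩
          refine ⟨Db.mul_mem ha hb, ?_⟩
          have hc : Commute a b := hDbc a ha b hb
          rw [hc.mul_pow, ha', hb', one_mul]
        one_mem' := ⟨Db.one_mem, one_pow _⟩
        inv_mem' := by
          rintro a ⟨ha, ha'⟩
          exact ⟨Db.inv_mem ha, by rw [inv_pow, ha', inv_one]⟩ }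
    have hEmem : ∀ a : G ⧸ pCore p G, a ∈ E ↔ a ∈ Db ∧ a ^ t = 1 := fun a => Iff.rfl
    have heE : e ∈ E := (hEmem e).mpr ⟨heD, het⟩
    have he'E : g * e * g⁻¹ ∈ E := (hEmem _).mpr ⟨hDbn.conj_mem e heD g, by
      rw [conj_pow, het, mul_one, mul_inv_cancel]⟩
    have hEexp : ∀ a : E, a ^ t = 1 := fun a => Subtype.ext ((hEmem _).mp a.2).2
    have hEpg : IsPGroup t E := fun a => ⟨1, by rw [pow_one]; exact hEexp a⟩
    obtain ⟨k, hk⟩ := IsPGroup.iff_card.mp hEpg
    have hzle : Subgroup.zpowers e ≤ E := by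
      rw [Subgroup.zpowers_le]; exact heE
    have hzcard : Nat.card (Subgroup.zpowers e) = t := by rw [Nat.card_zpowers, he]
    have hk2 : 2 ≤ k := by
      by_contra hlt
      have hk1 : k ≤ 1 := by omega
      have h1 : Nat.card E ≤ Nat.card (Subgroup.zpowers e) := by
        rw [hk, hzcard]
        calc t ^ k ≤ t ^ 1 := Nat.pow_le_pow_right ht.pos hk1
          _ = t := pow_one t
      have h2 := Subgroup.eq_of_le_of_card_ge hzle h1
      exact hg (h2 ▸ he'E)
    have hcard : t ^ 2 ∣ Nat.card E := by rw [hk]; exact pow_dvd_pow t hk2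
    have key := fun z : Z => elem_abelian_fpf (E := E) t
      (fun a b => Subtype.ext (hDbc a ((hEmem _).mp a.2).1 b ((hEmem _).mp b.2).1)) hEexp hcard
      (ψb.comp E.subtype)
      (fun a ha z hz => hfpf (a : G ⧸ pCore p G) (fun h => ha (Subtype.ext h))
        ((hEmem _).mp a.2).2 z hz) z
    -- but the centre of `O_p(G)` is a nontrivial `p`-group
    haveI : Nontrivial (pCore p G) := by
      refine ⟨⟨⟨e₀, hDP he₀D⟩, 1, ?_⟩⟩
      intro h
      have h1 : e₀ = 1 := congrArg Subtype.val h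
      rw [h1, orderOf_one] at he₀
      exact hp.one_lt.ne he₀
    haveI := hPp.center_nontrivial
    obtain ⟨z0, hz0⟩ := exists_ne (1 : Subgroup.center (pCore p G))
    have hzZ : ((z0 : pCore p G) : G) ∈ Z := ⟨z0, z0.2, rfl⟩
    have h1 := key ⟨_, hzZ⟩
    have h1' : ((z0 : pCore p G) : G) ^ t = 1 := congrArg Subtype.val h1
    obtain ⟨j, hj⟩ := hPp (z0 : pCore p G)
    have hj' : ((z0 : pCore p G) : G) ^ p ^ j = 1 := congrArg Subtype.val hj
    have h2 : orderOf ((z0 : pCore p G) : G) ∣ Nat.gcd (p ^ j) t :=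
      Nat.dvd_gcd (orderOf_dvd_of_pow_eq_one hj') (orderOf_dvd_of_pow_eq_one h1')
    have h3 : Nat.gcd (p ^ j) t = 1 :=
      Nat.Coprime.pow_left j ((Nat.coprime_primes hp ht).mpr (Ne.symm htp))
    rw [h3] at h2
    have h4 : ((z0 : pCore p G) : G) = 1 := orderOf_eq_one_iff.mp (Nat.dvd_one.mp h2)
    exact hz0 (Subtype.ext (Subtype.ext h4))

/-- A CP group without nontrivial solvable normal subgroups has a unique minimal normal
subgroup, which is nonabelian simple. -/
theorem exists_min_normal_simple {Q : Type u} [Group Q] [Finite Q] [Nontrivial Q]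
    (hcp : ∀ g : Q, g ≠ 1 → IsPrimePow (orderOf g))
    (hns : ∀ N : Subgroup Q, N.Normal → Group.IsSolvable N → N = ⊥) :
    ∃ M : Subgroup Q, M.Normal ∧ IsSimpleGroup M ∧ ¬ IsMulCommutative M ∧
      ∀ N : Subgroup Q, N.Normal → N ≠ ⊥ → M ≤ N := by
  classical
  have hex : ∃ k : ℕ, ∃ N : Subgroup Q, N.Normal ∧ N ≠ ⊥ ∧ Nat.card N = k :=
    ⟨_, ⊤, inferInstance, top_ne_bot, rfl⟩
  obtain ⟨M, hMn, hMne, hMcard⟩ := Nat.find_spec hex
  have hMmin : ∀ N : Subgroup Q, N.Normal → N ≠ ⊥ → Nat.card M ≤ Nat.card N :=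
    fun N h1 h2 => hMcard ▸ Nat.find_min' hex ⟨N, h1, h2, rfl⟩
  haveI := hMn
  have hMns : ¬ Group.IsSolvable M := fun h => hMne (hns M hMn h)
  have hpsol : ∀ (s : ℕ) (T : Subgroup Q), s.Prime → IsPGroup s T → Group.IsSolvable T := by
    intro s T hs hT
    haveI : Fact s.Prime := ⟨hs⟩
    haveI := hT.isNilpotent
    infer_instance
  have hMle : ∀ N : Subgroup Q, N.Normal → N ≠ ⊥ → M ≤ N := by
    intro N hN hNne
    haveI := hN
    by_cases hMN : M ⊓ N = ⊥
    · exfalso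
      obtain ⟨y, hy1⟩ := (Subgroup.ne_bot_iff_exists_ne_one).mp hNne
      have hy1' : (y : Q) ≠ 1 := fun h => hy1 (Subtype.ext h)
      obtain ⟨s, k, hs, hk, hyo⟩ := cp_order hy1' (hcp _ hy1')
      rcases isPGroup_or_exists hcp M s with hMs | ⟨x, hxM, u, m, hu, hus, hm, hxo⟩
      · exact hMns (hpsol s M hs hMs)
      · have hc : Commute x (y : Q) :=
          Subgroup.commute_of_normal_of_disjoint M N hMn hN (disjoint_iff.mpr hMN) x y hxM y.2
        exact cp_absurd_of_commute hcp hc hu hs hus hm hk hxo hyo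
    · have h1 := hMmin (M ⊓ N) inferInstance hMN
      have h2 : M ⊓ N = M := Subgroup.eq_of_le_of_card_ge inf_le_left h1
      exact inf_eq_left.mp h2
  -- a minimal nontrivial subgroup of `M` normalised by `M`
  let Pr : Subgroup Q → Prop := fun T => T ≠ ⊥ ∧ T ≤ M ∧ ∀ m ∈ M, ∀ x ∈ T, m * x * m⁻¹ ∈ T
  have hex2 : ∃ k : ℕ, ∃ T : Subgroup Q, Pr T ∧ Nat.card T = k :=
    ⟨_, M, ⟨hMne, le_rfl, fun m _ x hx => hMn.conj_mem x hx m⟩, rfl⟩
  obtain ⟨T, hT, hTcard⟩ := Nat.find_spec hex2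
  have hTmin : ∀ T' : Subgroup Q, Pr T' → Nat.card T ≤ Nat.card T' :=
    fun T' h => hTcard ▸ Nat.find_min' hex2 ⟨T', h, rfl⟩
  obtain ⟨hTne, hTM, hTnorm⟩ := hT
  let cj : Q → Subgroup Q := fun g => T.map (MulAut.conj g).toMonoidHom
  have hcj_mem : ∀ g x, x ∈ cj g ↔ g⁻¹ * x * g ∈ T := by
    intro g x
    constructor
    · rintro ⟨y, hy, rfl⟩
      have : g⁻¹ * ((MulAut.conj g).toMonoidHom y) * g = y := by
        simp [MulAut.conj_apply, mul_assoc]
      rw [this]; exact hy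
    · intro h
      refine ⟨g⁻¹ * x * g, h, ?_⟩
      simp [MulAut.conj_apply, mul_assoc]
  have hcjPr : ∀ g, Pr (cj g) := by
    intro g
    refine ⟨?_, ?_, ?_⟩
    · intro h
      apply hTne
      rw [eq_bot_iff]
      intro x hx
      have h1 : g * x * g⁻¹ ∈ cj g := (hcj_mem g _).mpr (by
        have : g⁻¹ * (g * x * g⁻¹) * g = x := by group
        rw [this]; exact hx)
      rw [h, Subgroup.mem_bot] at h1
      rw [Subgroup.mem_bot]
      have h2 : x = g⁻¹ * (g * x * g⁻¹) * g := by group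
      rw [h2, h1]; group
    · intro x hx
      have h1 := hTM ((hcj_mem g x).mp hx)
      have h2 := hMn.conj_mem _ h1 g
      have h3 : g * (g⁻¹ * x * g) * g⁻¹ = x := by group
      rw [h3] at h2
      exact h2
    · intro m hm x hx
      rw [hcj_mem] at hx ⊢
      have hm' : g⁻¹ * m * g ∈ M := by
        have := hMn.conj_mem m hm g⁻¹
        rwa [inv_inv] at this
      have h1 := hTnorm _ hm' _ hx
      have h2 : g⁻¹ * m * g * (g⁻¹ * x * g) * (g⁻¹ * m * g)⁻¹ = g⁻¹ * (m * x * m⁻¹) * g := by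
        group
      rw [h2] at h1
      exact h1
  by_cases hall : ∀ g, T ≤ cj g
  · have hTn : T.Normal := ⟨by
      intro x hx g
      have h1 := hall g⁻¹ hx
      rw [hcj_mem, inv_inv] at h1
      exact h1⟩
    have hTeq : T = M := le_antisymm hTM (hMle T hTn hTne)
    refine ⟨M, hMn, ?_, ?_, hMle⟩
    · haveI : Nontrivial M := (Subgroup.nontrivial_iff_ne_bot M).mpr hMne
      refine ⟨fun S hS => ?_⟩
      by_cases hSb : S = ⊥
      · exact Or.inl hSb
      right
      have hPr : Pr (S.map M.subtype) := by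
        refine ⟨?_, ?_, ?_⟩
        · intro h
          exact hSb ((Subgroup.map_eq_bot_iff_of_injective S M.subtype_injective).mp h)
        · rintro _ ⟨a, -, rfl⟩
          exact a.2
        · rintro m hm _ ⟨x, hx, rfl⟩
          exact ⟨⟨m, hm⟩ * x * ⟨m, hm⟩⁻¹, hS.conj_mem x hx ⟨m, hm⟩, rfl⟩
      have h1 := hTmin _ hPr
      rw [hTeq] at h1
      have h2 : Nat.card (S.map M.subtype) = Nat.card S :=
        (Nat.card_congr (S.equivMapOfInjective M.subtype M.subtype_injective).toEquiv).symm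
      rw [h2] at h1
      exact Subgroup.eq_top_of_card_eq S (le_antisymm (Subgroup.card_le_card_group S) h1)
    · intro hcomm
      exact hMns (Group.isSolvable_of_comm (fun a b => hcomm.is_comm.comm a b))
  · exfalso
    obtain ⟨g, hg⟩ := not_forall.mp hall
    have hinf : T ⊓ cj g = ⊥ := by
      by_contra hne
      have hPr : Pr (T ⊓ cj g) := ⟨hne, inf_le_left.trans hTM, fun m hm x hx =>
        ⟨hTnorm m hm x hx.1, (hcjPr g).2.2 m hm x hx.2⟩⟩
      have h1 := hTmin _ hPr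
      have h2 : T ⊓ cj g = T := Subgroup.eq_of_le_of_card_ge inf_le_left h1
      exact hg (inf_eq_left.mp h2)
    have hcomm : ∀ x ∈ T, ∀ y ∈ cj g, Commute x y := by
      intro x hx y hy
      have h1 : x * y * x⁻¹ * y⁻¹ ∈ T ⊓ cj g := by
        constructor
        · have h2 : y * x⁻¹ * y⁻¹ ∈ T := hTnorm y ((hcjPr g).2.1 hy) x⁻¹ (T.inv_mem hx)
          have h3 := T.mul_mem hx h2
          have h4 : x * (y * x⁻¹ * y⁻¹) = x * y * x⁻¹ * y⁻¹ := by group
          rw [h4] at h3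
          exact h3
        · have h2 : x * y * x⁻¹ ∈ cj g := (hcjPr g).2.2 x (hTM hx) y hy
          exact (cj g).mul_mem h2 ((cj g).inv_mem hy)
      rw [hinf, Subgroup.mem_bot] at h1
      show x * y = y * x
      have h2 : x * y = (x * y * x⁻¹ * y⁻¹) * (y * x) := by group
      rw [h2, h1, one_mul]
    obtain ⟨y₀, hy₀⟩ := (Subgroup.ne_bot_iff_exists_ne_one).mp hTne
    have hy₀' : (y₀ : Q) ≠ 1 := fun h => hy₀ (Subtype.ext h)
    obtain ⟨s, k, hs, hk, hyo⟩ := cp_order hy₀' (hcp _ hy₀')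
    rcases isPGroup_or_exists hcp T s with hTs | ⟨x, hxT, u, m, hu, hus, hm, hxo⟩
    · have hTsubn : (T.subgroupOf M).Normal := ⟨fun n hn a => by
        rw [Subgroup.mem_subgroupOf] at hn ⊢
        exact hTnorm a a.2 n hn⟩
      have hsub : T.IsSubnormal := Subgroup.IsSubnormal.step T M hTM hMn.isSubnormal hTsubn
      have hle := le_pCore_of_isSubnormal hsub hTs
      have hcore : pCore s Q = ⊥ :=
        hns _ (pCore_normal s Q) (hpsol s _ hs (pCore_isPGroup s Q))
      rw [hcore] at hle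
      exact hTne (eq_bot_iff.mpr hle)
    · have h1 : g * x * g⁻¹ ∈ cj g := (hcj_mem g _).mpr (by
        have : g⁻¹ * (g * x * g⁻¹) * g = x := by group
        rw [this]; exact hxT)
      have h2 : orderOf (g * x * g⁻¹) = u ^ m := by
        rw [← hxo, ← MulAut.conj_apply]
        exact (MulAut.conj g).orderOf_eq x
      exact cp_absurd_of_commute hcp (hcomm (y₀ : Q) y₀.2 _ h1).symm hu hs hus hm hk h2 hyo

end Cfsg.Agent.Lib.Helper21.CPGroups
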