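import Mathlib
import Cfsg.Agent.Lib.Helper21.Kulakoff

set_option autoImplicit false

namespace Cfsg.Agent.Lib.Helper21.Kulakoff

/-- Commuting pairs `(w, u)` with prescribed orders, `u ∈ K`. -/
abbrev ZZ (G : Type*) [Group G] (m d : ℕ) (K : Subgroup G) : Type _ :=
  {x : G × G // orderOf x.1 = m ∧ orderOf x.2 = d ∧ x.2 * x.1 = x.1 * x.2 ∧ x.2 ∈ K}

/-- Pairs `(w, C)` with `C ≤ K` cyclic of order `d` centralizing `w` of order `m`. -/
abbrev YY (G : Type*) [Group G] (m d : ℕ) (K : Subgroup G) : Type _ :=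
  {x : G × Subgroup G // orderOf x.1 = m ∧ (∀ c ∈ x.2, c * x.1 = x.1 * c) ∧ x.2 ≤ K ∧
    IsCyclic x.2 ∧ Nat.card x.2 = d}

/-- Elements of order `m` centralized by `P`. -/
abbrev WW (G : Type*) [Group G] (P : Subgroup G) (m : ℕ) : Type _ :=
  {w : G // orderOf w = m ∧ ∀ g ∈ P, g * w * g⁻¹ = w}

/-- Cyclic subgroups of `P` of order `d` normalized by `P`. -/
abbrev NN (G : Type*) [Group G] (P : Subgroup G) (d : ℕ) : Type _ :=
  {C : Subgroup G // C ≤ P ∧ IsCyclic C ∧ Nat.card C = d ∧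
    ∀ g ∈ P, C.map (MulAut.conj g).toMonoidHom = C}

variable {G : Type*} [Group G]

/-- The projection `(w, u) ↦ (w, ⟨u⟩)`. -/
def piZY (m d : ℕ) (K : Subgroup G) (x : ZZ G m d K) : YY G m d K :=
  ⟨(x.1.1, Subgroup.zpowers x.1.2), x.2.1, fun c hc => by
      obtain ⟨k, rfl⟩ := Subgroup.mem_zpowers_iff.1 hc
      exact (Commute.zpow_left (show Commute x.1.2 x.1.1 from x.2.2.2.1) k).eq,
    Subgroup.zpowers_le.2 x.2.2.2.2, inferInstance, (Nat.card_zpowers _).trans x.2.2.1⟩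

theorem fiber_card [Finite G] (m d : ℕ) (K : Subgroup G) (y : YY G m d K) :
    Nat.card {x : ZZ G m d K // piZY m d K x = y} = d.totient := by
  classical
  have hgen : Nat.card {u : ↥y.1.2 // orderOf u = d} = d.totient := by
    haveI : IsCyclic ↥y.1.2 := y.2.2.2.2.1
    haveI := Fintype.ofFinite ↥y.1.2
    rw [Nat.card_eq_fintype_card, Fintype.card_subtype]
    exact IsCyclic.card_orderOf_eq_totient (by rw [← Nat.card_eq_fintype_card, y.2.2.2.2.2])
  rw [← hgen]
  have hmem : ∀ x : {x : ZZ G m d K // piZY m d K x = y}, x.1.1.2 ∈ y.1.2 := by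
    intro x
    have h : Subgroup.zpowers x.1.1.2 = y.1.2 := congrArg (fun t : YY G m d K => t.1.2) x.2
    rw [← h]
    exact Subgroup.mem_zpowers _
  apply Nat.card_eq_of_bijective
    (f := fun x => (⟨⟨x.1.1.2, hmem x⟩, (Subgroup.orderOf_coe _).symm.trans x.1.2.2.1⟩ :
      {u : ↥y.1.2 // orderOf u = d}))
  constructor
  · intro x x' h
    have h1 : x.1.1.2 = x'.1.1.2 := congrArg (fun u : {u : ↥y.1.2 // orderOf u = d} => (u.1 : G)) h
    have h2 : x.1.1.1 = y.1.1 := congrArg (fun t : YY G m d K => t.1.1) x.2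
    have h3 : x'.1.1.1 = y.1.1 := congrArg (fun t : YY G m d K => t.1.1) x'.2
    exact Subtype.ext (Subtype.ext (Prod.ext (h2.trans h3.symm) h1))
  · intro u
    have hz : Subgroup.zpowers (u.1 : G) = y.1.2 := by
      apply Subgroup.eq_of_le_of_card_ge (Subgroup.zpowers_le.2 u.1.2)
      rw [Nat.card_zpowers, y.2.2.2.2.2, Subgroup.orderOf_coe, u.2]
    refine ⟨⟨⟨(y.1.1, (u.1 : G)), y.2.1, (Subgroup.orderOf_coe _).trans u.2,
      y.2.2.1 _ u.1.2, y.2.2.2.1 u.1.2⟩, ?_⟩, ?_⟩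
    · exact Subtype.ext (Prod.ext rfl hz)
    · exact Subtype.ext (Subtype.ext rfl)

theorem card_ZZ [Finite G] (m d : ℕ) (K : Subgroup G) :
    Nat.card (ZZ G m d K) = Nat.card (YY G m d K) * d.totient := by
  classical
  haveI := Fintype.ofFinite (YY G m d K)
  rw [← Nat.card_congr (Equiv.sigmaFiberEquiv (piZY m d K)), Nat.card_sigma,
    Finset.sum_congr rfl (fun y _ => fiber_card m d K y), Finset.sum_const, Finset.card_univ,
    smul_eq_mul, Nat.card_eq_fintype_card]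

theorem card_order_mul [Finite G] (m d : ℕ) (hd : d ≠ 0) (hm : m ≠ 0) (hcop : Nat.Coprime d m) :
    Nat.card {g : G // orderOf g = d * m} = Nat.card (ZZ G m d ⊤) := by
  have hb := Nat.gcd_eq_gcd_ab d m
  rw [hcop.gcd_eq_one, Nat.cast_one] at hb
  apply Nat.card_eq_of_bijective (f := fun g => (⟨(g.1 ^ d, g.1 ^ m), by
      rw [orderOf_pow_of_dvd hd (by rw [g.2]; exact dvd_mul_right d m), g.2,
        Nat.mul_div_cancel_left _ (Nat.pos_of_ne_zero hd)], by
      rw [orderOf_pow_of_dvd hm (by rw [g.2]; exact dvd_mul_left m d), g.2,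
        Nat.mul_div_cancel _ (Nat.pos_of_ne_zero hm)],
      pow_mul_comm _ _ _, Subgroup.mem_top _⟩ : ZZ G m d ⊤))
  constructor
  · intro g g' h
    have h1 : g.1 ^ d = g'.1 ^ d := congrArg (fun x : ZZ G m d ⊤ => x.1.1) h
    have h2 : g.1 ^ m = g'.1 ^ m := congrArg (fun x : ZZ G m d ⊤ => x.1.2) h
    apply Subtype.ext
    have key : ∀ x : G, x = (x ^ d) ^ (Nat.gcdA d m) * (x ^ m) ^ (Nat.gcdB d m) := by
      intro x
      rw [← zpow_natCast x d, ← zpow_natCast x m, ← zpow_mul, ← zpow_mul, ← zpow_add, ← hb,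
        zpow_one]
    rw [key g.1, key g'.1, h1, h2]
  · rintro ⟨⟨w, u⟩, hw, hu, hc, hK⟩
    simp only at hw hu hc
    obtain ⟨A, hA⟩ : ∃ A : ℤ, A = Nat.gcdA d m := ⟨_, rfl⟩
    obtain ⟨B, hB⟩ : ∃ B : ℤ, B = Nat.gcdB d m := ⟨_, rfl⟩
    rw [← hA, ← hB] at hb
    have hcomm : Commute w u := hc.symm
    have hwm : w ^ (m : ℤ) = 1 := by
      rw [zpow_natCast, ← hw]
      exact pow_orderOf_eq_one w
    have hud : u ^ (d : ℤ) = 1 := by
      rw [zpow_natCast, ← hu]
      exact pow_orderOf_eq_one u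
    have hgd : (w ^ A * u ^ B) ^ d = w := by
      rw [(hcomm.zpow_zpow A B).mul_pow, ← zpow_natCast (w ^ A), ← zpow_natCast (u ^ B),
        ← zpow_mul, ← zpow_mul, mul_comm B (d : ℤ), zpow_mul u, hud, one_zpow, mul_one]
      have h3 : A * (d : ℤ) = 1 - m * B := by linarith
      rw [h3, zpow_sub, zpow_one, zpow_mul, hwm, one_zpow, inv_one, mul_one]
    have hgm : (w ^ A * u ^ B) ^ m = u := by
      rw [(hcomm.zpow_zpow A B).mul_pow, ← zpow_natCast (w ^ A), ← zpow_natCast (u ^ B),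
        ← zpow_mul, ← zpow_mul, mul_comm A (m : ℤ), zpow_mul w, hwm, one_zpow, one_mul]
      have h3 : B * (m : ℤ) = 1 - d * A := by linarith
      rw [h3, zpow_sub, zpow_one, zpow_mul, hud, one_zpow, inv_one, mul_one]
    have hord : orderOf (w ^ A * u ^ B) = d * m := by
      apply Nat.dvd_antisymm
      · apply orderOf_dvd_of_pow_eq_one
        rw [pow_mul, hgd, ← hw]
        exact pow_orderOf_eq_one w
      · apply hcop.mul_dvd_of_dvd_of_dvd
        · have h4 := orderOf_pow_dvd (x := w ^ A * u ^ B) m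
          rwa [hgm, hu] at h4
        · have h4 := orderOf_pow_dvd (x := w ^ A * u ^ B) d
          rwa [hgd, hw] at h4
    exact ⟨⟨w ^ A * u ^ B, hord⟩, Subtype.ext (Prod.ext hgd hgm)⟩

theorem card_sub [Finite G] (d : ℕ) (K : Subgroup G) :
    Nat.card {y : ↥K // orderOf y = d} = Nat.card (ZZ G 1 d K) := by
  apply Nat.card_eq_of_bijective (f := fun y => (⟨(1, (y.1 : G)), orderOf_one,
    (Subgroup.orderOf_coe _).trans y.2, by simp, y.1.2⟩ : ZZ G 1 d K))
  constructor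
  · intro y y' h
    have h1 : (y.1 : G) = y'.1 := congrArg (fun x : ZZ G 1 d K => x.1.2) h
    exact Subtype.ext (Subtype.ext h1)
  · rintro ⟨⟨w, u⟩, hw, hu, hc, hK⟩
    simp only at hw hu hK
    have hw1 : w = 1 := orderOf_eq_one_iff.1 hw
    subst hw1
    exact ⟨⟨⟨u, hK⟩, (Subgroup.orderOf_coe _).symm.trans hu⟩, rfl⟩

/-- Conjugation on pairs `(w, C)`. -/
def conjPair (g : G) (x : G × Subgroup G) : G × Subgroup G :=
  (g * x.1 * g⁻¹, x.2.map (MulAut.conj g).toMonoidHom)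

theorem mem_conj_iff (g : G) (C : Subgroup G) (x : G) :
    x ∈ C.map (MulAut.conj g).toMonoidHom ↔ g⁻¹ * x * g ∈ C := by
  rw [Subgroup.mem_map_equiv, MulAut.conj_symm_apply]

/-- The conjugation action of `P` on the pairs `(w, C)`. -/
@[reducible] def actYY (P : Subgroup G) (m d : ℕ) (K : Subgroup G)
    (hK : ∀ g ∈ P, ∀ x ∈ K, g * x * g⁻¹ ∈ K) : MulAction ↥P (YY G m d K) where
  smul g y := ⟨conjPair (g : G) y.1, by
    refine ⟨?_, ?_, ?_, ?_, ?_⟩
    · show orderOf ((g : G) * y.1.1 * (g : G)⁻¹) = m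
      exact ((MulAut.conj (g : G)).orderOf_eq y.1.1).trans y.2.1
    · intro c hc
      have hc' : (g : G)⁻¹ * c * (g : G) ∈ y.1.2 := (mem_conj_iff _ _ _).1 hc
      have h1 := y.2.2.1 _ hc'
      show c * ((g : G) * y.1.1 * (g : G)⁻¹) = (g : G) * y.1.1 * (g : G)⁻¹ * c
      calc c * ((g : G) * y.1.1 * (g : G)⁻¹)
          = (g : G) * (((g : G)⁻¹ * c * (g : G)) * y.1.1) * (g : G)⁻¹ := by group
        _ = (g : G) * (y.1.1 * ((g : G)⁻¹ * c * (g : G))) * (g : G)⁻¹ := by rw [h1]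
        _ = _ := by group
    · intro c hc
      have hc' : (g : G)⁻¹ * c * (g : G) ∈ y.1.2 := (mem_conj_iff _ _ _).1 hc
      have h1 := hK g g.2 _ (y.2.2.2.1 hc')
      have h2 : (g : G) * ((g : G)⁻¹ * c * (g : G)) * (g : G)⁻¹ = c := by group
      rwa [h2] at h1
    · haveI : IsCyclic ↥y.1.2 := y.2.2.2.2.1
      exact isCyclic_of_surjective
        (Subgroup.equivMapOfInjective y.1.2 _ (MulAut.conj (g : G)).injective)
        (MulEquiv.surjective _)
    · show Nat.card ↥(y.1.2.map (MulAut.conj (g : G)).toMonoidHom) = d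
      rw [Subgroup.card_map_of_injective (MulAut.conj (g : G)).injective]
      exact y.2.2.2.2.2⟩
  one_smul y := by
    apply Subtype.ext
    show conjPair ((1 : ↥P) : G) y.1 = y.1
    apply Prod.ext
    · simp [conjPair]
    · ext x
      show x ∈ y.1.2.map (MulAut.conj ((1 : ↥P) : G)).toMonoidHom ↔ x ∈ y.1.2
      rw [mem_conj_iff]
      simp
  mul_smul g h y := by
    apply Subtype.ext
    show conjPair ((g * h : ↥P) : G) y.1 = conjPair (g : G) (conjPair (h : G) y.1)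
    apply Prod.ext
    · simp [conjPair, mul_assoc]
    · ext x
      show x ∈ y.1.2.map (MulAut.conj ((g * h : ↥P) : G)).toMonoidHom ↔
        x ∈ (y.1.2.map (MulAut.conj (h : G)).toMonoidHom).map (MulAut.conj (g : G)).toMonoidHom
      rw [mem_conj_iff, mem_conj_iff, mem_conj_iff]
      simp [mul_assoc]

theorem le_sylow_of_normalized (p : ℕ) [Fact p.Prime] (P : Sylow p G) (C : Subgroup G) (s : ℕ)
    (hC : Nat.card C = p ^ s)
    (hn : ∀ g ∈ (P : Subgroup G), C.map (MulAut.conj g).toMonoidHom = C) :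
    C ≤ (P : Subgroup G) := by
  have hCp : IsPGroup p C := IsPGroup.of_card hC
  have hnorm : (P : Subgroup G) ≤ Subgroup.normalizer (C : Set G) := by
    intro g hg
    rw [Subgroup.mem_normalizer_iff]
    intro h
    have e := hn g hg
    have e2 : g⁻¹ * (g * h * g⁻¹) * g = h := by group
    constructor
    · intro hh
      rw [← e, mem_conj_iff, e2]
      exact hh
    · intro hh
      rw [← e, mem_conj_iff, e2] at hh
      exact hh
  have hsup := IsPGroup.to_sup_of_normal_right' P.isPGroup' hCp hnorm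
  have h1 := P.is_maximal' hsup le_sup_left
  rw [← h1]
  exact le_sup_right

theorem card_fixed (p : ℕ) [Fact p.Prime] (P : Sylow p G) (m s : ℕ) (K : Subgroup G)
    (hPK : (P : Subgroup G) ≤ K) (hK : ∀ g ∈ (P : Subgroup G), ∀ x ∈ K, g * x * g⁻¹ ∈ K) :
    Nat.card (@MulAction.fixedPoints ↥(P : Subgroup G) (YY G m (p ^ s) K) _
      (actYY (P : Subgroup G) m (p ^ s) K hK)) =
      Nat.card (WW G (P : Subgroup G) m) * Nat.card (NN G (P : Subgroup G) (p ^ s)) := by
  letI := actYY (P : Subgroup G) m (p ^ s) K hK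
  rw [← Nat.card_prod]
  have hfix : ∀ x : MulAction.fixedPoints ↥(P : Subgroup G) (YY G m (p ^ s) K),
      ∀ g ∈ (P : Subgroup G), conjPair g x.1.1 = x.1.1 := by
    intro x g hg
    exact congrArg Subtype.val (x.2 ⟨g, hg⟩)
  apply Nat.card_congr
  exact
    { toFun := fun x =>
        (⟨x.1.1.1, x.1.2.1, fun g hg => congrArg Prod.fst (hfix x g hg)⟩,
         ⟨x.1.1.2, le_sylow_of_normalized p P _ s x.1.2.2.2.2.2
            (fun g hg => congrArg Prod.snd (hfix x g hg)),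
          x.1.2.2.2.2.1, x.1.2.2.2.2.2, fun g hg => congrArg Prod.snd (hfix x g hg)⟩)
      invFun := fun wc =>
        ⟨⟨(wc.1.1, wc.2.1), wc.1.2.1, fun c hc => by
            have h1 := wc.1.2.2 c (wc.2.2.1 hc)
            show c * wc.1.1 = wc.1.1 * c
            calc c * wc.1.1 = (c * wc.1.1 * c⁻¹) * c := by group
              _ = wc.1.1 * c := by rw [h1],
          wc.2.2.1.trans hPK, wc.2.2.2.1, wc.2.2.2.2.1⟩,
          fun g => Subtype.ext (Prod.ext (wc.1.2.2 g g.2) (wc.2.2.2.2.2 g g.2))⟩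
      left_inv := fun x => Subtype.ext (Subtype.ext rfl)
      right_inv := fun wc => Prod.ext (Subtype.ext rfl) (Subtype.ext rfl) }

/-- The count of elements of order `p ^ s * m` when the Sylow `p`-subgroups are noncyclic. -/
theorem main [Finite G] (p : ℕ) [Fact p.Prime] (hodd : p ≠ 2)
    (P : Sylow p G) (hP : ¬ IsCyclic ↥(P : Subgroup G)) (s m : ℕ) (hs : 1 < s)
    (hm : Nat.Coprime p m) :
    p ^ s ∣ Nat.card {g : G // orderOf g = p ^ s * m} := by
  have hp := (Fact.out : p.Prime)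
  have hm0 : m ≠ 0 := by
    rintro rfl
    rw [Nat.coprime_zero_right] at hm
    exact hp.one_lt.ne' hm
  have hd0 : p ^ s ≠ 0 := (pow_pos hp.pos s).ne'
  have htot : (p ^ s).totient = p ^ (s - 1) * (p - 1) := Nat.totient_prime_pow hp (by omega)
  have hpe : p ^ s = p ^ (s - 1) * p := by
    rw [← pow_succ]
    congr 1
    omega
  have hc : Nat.Coprime p (p - 1) := by
    rw [Nat.Prime.coprime_iff_not_dvd hp]
    intro h13
    have h14 := Nat.le_of_dvd (by have := hp.two_le; omega) h13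
    have := hp.two_le
    omega
  have hK1 : ∀ g ∈ (P : Subgroup G), ∀ x ∈ (P : Subgroup G), g * x * g⁻¹ ∈ (P : Subgroup G) :=
    fun g hg x hx => mul_mem (mul_mem hg hx) (inv_mem hg)
  have hK2 : ∀ g ∈ (P : Subgroup G), ∀ x ∈ (⊤ : Subgroup G), g * x * g⁻¹ ∈ (⊤ : Subgroup G) :=
    fun _ _ _ _ => Subgroup.mem_top _
  have hD := lemmaD p hodd P.isPGroup' hP s hs
  rw [card_sub, card_ZZ, htot] at hD
  have h1 : p ∣ Nat.card (YY G 1 (p ^ s) (P : Subgroup G)) := by
    obtain ⟨N, hN⟩ : ∃ N, N = Nat.card (YY G 1 (p ^ s) (P : Subgroup G)) := ⟨_, rfl⟩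
    rw [← hN] at hD ⊢
    rw [hpe, mul_comm N, mul_assoc] at hD
    have h2 := Nat.dvd_of_mul_dvd_mul_left (pow_pos hp.pos _) hD
    exact hc.dvd_of_dvd_mul_left h2
  have c1 := @IsPGroup.card_modEq_card_fixedPoints p ↥(P : Subgroup G) _ P.isPGroup' _
    (YY G 1 (p ^ s) (P : Subgroup G)) (actYY (P : Subgroup G) 1 (p ^ s) (P : Subgroup G) hK1) _
  rw [card_fixed p P 1 s (P : Subgroup G) le_rfl hK1] at c1
  have hW1 : Nat.card (WW G (P : Subgroup G) 1) = 1 := by
    haveI : Unique (WW G (P : Subgroup G) 1) :=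
      { default := ⟨1, orderOf_one, fun g _ => by simp⟩
        uniq := fun w => Subtype.ext (orderOf_eq_one_iff.1 w.2.1) }
    exact Nat.card_unique
  rw [hW1, one_mul] at c1
  have h2 : p ∣ Nat.card (NN G (P : Subgroup G) (p ^ s)) :=
    (Nat.ModEq.dvd_iff c1 (dvd_refl p)).1 h1
  have c2 := @IsPGroup.card_modEq_card_fixedPoints p ↥(P : Subgroup G) _ P.isPGroup' _
    (YY G m (p ^ s) ⊤) (actYY (P : Subgroup G) m (p ^ s) ⊤ hK2) _
  rw [card_fixed p P m s ⊤ le_top hK2] at c2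
  have h3 : p ∣ Nat.card (YY G m (p ^ s) ⊤) :=
    (Nat.ModEq.dvd_iff c2 (dvd_refl p)).2 (Dvd.dvd.mul_left h2 _)
  rw [card_order_mul m (p ^ s) hd0 hm0 (Nat.Coprime.pow_left s hm), card_ZZ, htot]
  obtain ⟨t, ht⟩ := h3
  rw [ht]
  exact ⟨t * (p - 1), by rw [hpe]; ring⟩

end Cfsg.Agent.Lib.Helper21.Kulakoff
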