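import Mathlib
import Cfsg.Prelude.Def_SolvableStructure
import Cfsg.Agent.Lib.Helper4.SSTower

/-!
# Order type of a supersolvable group forces a Sylow tower (helper21)

`E X r` : elements whose order has only prime factors `≥ r`.
`Q X`   : for every `r`, `|E X r|` is the part of `|X|` made of the primes `≥ r`.
`Q` holds for supersolvable groups, depends only on the order type, and forces solvability.
-/

set_option autoImplicit false

namespace Cfsg.Agent.Lib.Helper21.OrderTypeSS

universe u

/-- elements whose order has only prime factors `≥ r` -/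
def E (X : Type u) [Group X] (r : ℕ) : Set X :=
  {x | ∀ q : ℕ, q.Prime → q ∣ orderOf x → r ≤ q}

/-- the tower property, phrased by counting -/
def Q (X : Type u) [Group X] : Prop :=
  ∀ r : ℕ, ∃ b : ℕ, Nat.card X = Nat.card (E X r) * b ∧
    (∀ q : ℕ, q.Prime → q ∣ Nat.card (E X r) → r ≤ q) ∧ (∀ q : ℕ, q.Prime → q ∣ b → q < r)

theorem one_mem_E (X : Type u) [Group X] (r : ℕ) : (1 : X) ∈ E X r := by
  intro q hq hd
  rw [orderOf_one] at hd
  exact absurd (Nat.dvd_one.mp hd) hq.ne_one

/-- if every prime divisor of `|X|` is `< r`, then `E X r = {1}` -/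
theorem E_eq_one {X : Type u} [Group X] [Finite X] (r : ℕ)
    (h : ∀ q : ℕ, q.Prime → q ∣ Nat.card X → q < r) : E X r = {1} := by
  ext x
  simp only [Set.mem_singleton_iff]
  constructor
  · intro hx
    by_contra hne
    have ho : orderOf x ≠ 1 := fun h1 => hne (orderOf_eq_one_iff.mp h1)
    obtain ⟨q, hq, hqd⟩ := Nat.exists_prime_and_dvd ho
    have h1 := hx q hq hqd
    have h2 := h q hq (hqd.trans (orderOf_dvd_natCard x))
    omega
  · rintro rfl
    exact one_mem_E X r

theorem card_E_eq_one {X : Type u} [Group X] [Finite X] (r : ℕ)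
    (h : ∀ q : ℕ, q.Prime → q ∣ Nat.card X → q < r) : Nat.card (E X r) = 1 := by
  rw [E_eq_one r h]
  simp

theorem Qr_small {X : Type u} [Group X] [Finite X] (r : ℕ)
    (h : ∀ q : ℕ, q.Prime → q ∣ Nat.card X → q < r) :
    ∃ b : ℕ, Nat.card X = Nat.card (E X r) * b ∧
      (∀ q : ℕ, q.Prime → q ∣ Nat.card (E X r) → r ≤ q) ∧
      (∀ q : ℕ, q.Prime → q ∣ b → q < r) := by
  refine ⟨Nat.card X, ?_, ?_, h⟩
  · rw [card_E_eq_one r h, one_mul]
  · intro q hq hqd
    rw [card_E_eq_one r h] at hqd
    exact absurd (Nat.dvd_one.mp hqd) hq.ne_one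

theorem card_preimage {X : Type u} [Group X] [Finite X] (P : Subgroup X) (S : Set (X ⧸ P)) :
    Nat.card {x : X // (x : X ⧸ P) ∈ S} = Nat.card S * Nat.card P := by
  rw [← Nat.card_prod]
  apply Nat.card_congr
  let e := Subgroup.groupEquivQuotientProdSubgroup (s := P)
  have h1 : ∀ x : X, (e x).1 = (x : X ⧸ P) := fun x => rfl
  exact (e.subtypeEquiv (p := fun x : X => (QuotientGroup.mk x : X ⧸ P) ∈ S)
    (q := fun y : (X ⧸ P) × P => y.1 ∈ S)
    (fun x => by rw [h1])).trans Equiv.prodSubtypeFstEquivSubtypeProd

theorem mem_E_iff_quot {X : Type u} [Group X] [Finite X] {p : ℕ} (hp : p.Prime)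
    (P : Subgroup X) [P.Normal] (hP : IsPGroup p P) {r : ℕ} (hr : r ≤ p) (x : X) :
    x ∈ E X r ↔ (x : X ⧸ P) ∈ E (X ⧸ P) r := by
  constructor
  · intro hx q hq hqd
    exact hx q hq (hqd.trans (orderOf_map_dvd (QuotientGroup.mk' P) x))
  · intro hx q hq hqd
    have hxk : x ^ orderOf (x : X ⧸ P) ∈ P := by
      rw [← QuotientGroup.eq_one_iff, QuotientGroup.mk_pow]
      exact pow_orderOf_eq_one _
    obtain ⟨j, hj⟩ := hP ⟨x ^ orderOf (x : X ⧸ P), hxk⟩
    have hj' : (x ^ orderOf (x : X ⧸ P)) ^ (p ^ j) = 1 := by
      have := congrArg Subtype.val hj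
      simpa using this
    have hdvd : orderOf x ∣ orderOf (x : X ⧸ P) * p ^ j := by
      apply orderOf_dvd_of_pow_eq_one
      rw [pow_mul]; exact hj'
    have hq2 : q ∣ orderOf (x : X ⧸ P) * p ^ j := hqd.trans hdvd
    rcases (Nat.Prime.dvd_mul hq).mp hq2 with h | h
    · exact hx q hq h
    · have : q = p := (Nat.prime_dvd_prime_iff_eq hq hp).mp (hq.dvd_of_dvd_pow h)
      omega

theorem card_E_quot {X : Type u} [Group X] [Finite X] {p : ℕ} (hp : p.Prime)
    (P : Subgroup X) [P.Normal] (hP : IsPGroup p P) {r : ℕ} (hr : r ≤ p) :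
    Nat.card (E X r) = Nat.card (E (X ⧸ P) r) * Nat.card P := by
  rw [← card_preimage P (E (X ⧸ P) r)]
  apply Nat.card_congr
  exact Equiv.subtypeEquivRight (fun x => mem_E_iff_quot hp P hP hr x)

/-- supersolvable groups have the tower property -/
theorem Q_of_ss : ∀ (n : ℕ) (X : Type u) [Group X] [Finite X], Nat.card X = n →
    Cfsg.IsSupersolvable X → Q X := by
  intro n
  induction n using Nat.strong_induction_on with
  | _ n ih =>
    intro X _ _ hn hss
    rcases subsingleton_or_nontrivial X with hsub | hnt
    · intro r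
      apply Qr_small r
      intro q hq hqd
      rw [Nat.card_unique] at hqd
      exact absurd (Nat.dvd_one.mp hqd) hq.ne_one
    · obtain ⟨p, hp, hpd, hmax⟩ := Cfsg.Agent.Lib.Helper4.SSTower.exists_max_prime (G := X)
      have : Fact p.Prime := ⟨hp⟩
      obtain ⟨P⟩ : Nonempty (Sylow p X) := inferInstance
      have hPn : (P : Subgroup X).Normal :=
        Cfsg.Agent.Lib.Helper4.SSTower.sylow_normal_of_max_prime hss p hmax P
      have hssq := Cfsg.Agent.Lib.Helper4.Supersolvable.isSupersolvable_quotient hss
        (P : Subgroup X)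
      have hcard : Nat.card X = Nat.card (X ⧸ (P : Subgroup X)) * Nat.card (P : Subgroup X) :=
        Subgroup.card_eq_card_quotient_mul_card_subgroup _
      have hX0 : Nat.card X ≠ 0 := Nat.card_pos.ne'
      have hPcard : Nat.card (P : Subgroup X) = p ^ (Nat.card X).factorization p :=
        P.card_eq_multiplicity
      have hP1 : 1 < Nat.card (P : Subgroup X) := by
        rw [hPcard]
        exact Nat.one_lt_pow (Nat.Prime.factorization_pos_of_dvd hp hX0 hpd).ne' hp.one_lt
      have hlt : Nat.card (X ⧸ (P : Subgroup X)) < n := by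
        rw [← hn, hcard]
        have hpos : 0 < Nat.card (X ⧸ (P : Subgroup X)) := Nat.card_pos
        nlinarith
      have hQq := ih _ hlt (X ⧸ (P : Subgroup X)) rfl hssq
      intro r
      rcases le_or_gt r p with hr | hr
      · obtain ⟨b, hb1, hb2, hb3⟩ := hQq r
        refine ⟨b, ?_, ?_, hb3⟩
        · rw [card_E_quot hp (P : Subgroup X) P.isPGroup' hr, hcard, hb1]; ring
        · intro q hq hqd
          rw [card_E_quot hp (P : Subgroup X) P.isPGroup' hr] at hqd
          rcases (Nat.Prime.dvd_mul hq).mp hqd with h | h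
          · exact hb2 q hq h
          · rw [hPcard] at h
            have : q = p := (Nat.prime_dvd_prime_iff_eq hq hp).mp (hq.dvd_of_dvd_pow h)
            omega
      · exact Qr_small r (fun q hq hqd => lt_of_le_of_lt (hmax q hq hqd) hr)

/-- the tower property forces solvability -/
theorem solvable_of_Q : ∀ (n : ℕ) (X : Type u) [Group X] [Finite X], Nat.card X = n →
    Q X → Group.IsSolvable X := by
  intro n
  induction n using Nat.strong_induction_on with
  | _ n ih =>
    intro X _ _ hn hQ
    rcases subsingleton_or_nontrivial X with hsub | hnt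
    · infer_instance
    · obtain ⟨p, hp, hpd, hmax⟩ := Cfsg.Agent.Lib.Helper4.SSTower.exists_max_prime (G := X)
      have : Fact p.Prime := ⟨hp⟩
      obtain ⟨P⟩ : Nonempty (Sylow p X) := inferInstance
      have hX0 : Nat.card X ≠ 0 := Nat.card_pos.ne'
      have hPcard : Nat.card (P : Subgroup X) = p ^ (Nat.card X).factorization p :=
        P.card_eq_multiplicity
      have hsubE : ((P : Subgroup X) : Set X) ⊆ E X p := by
        intro x hx q hq hqd
        obtain ⟨j, hj⟩ := P.isPGroup' ⟨x, hx⟩
        have hj' : x ^ (p ^ j) = 1 := by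
          have := congrArg Subtype.val hj
          simpa using this
        have h1 : q ∣ p ^ j := hqd.trans (orderOf_dvd_of_pow_eq_one hj')
        have : q = p := (Nat.prime_dvd_prime_iff_eq hq hp).mp (hq.dvd_of_dvd_pow h1)
        omega
      obtain ⟨b, hb1, hb2, hb3⟩ := hQ p
      have ha_dvd : Nat.card (E X p) ∣ Nat.card X := Dvd.intro _ hb1.symm
      have ha0 : Nat.card (E X p) ≠ 0 := fun h0 => hX0 (by rw [hb1, h0, zero_mul])
      have ha_pow : Nat.card (E X p) = p ^ (Nat.card (E X p)).primeFactorsList.length :=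
        Nat.eq_prime_pow_of_unique_prime_dvd ha0
          (fun {d} hd hdd => le_antisymm (hmax d hd (hdd.trans ha_dvd)) (hb2 d hd hdd))
      have ha_le : Nat.card (E X p) ≤ Nat.card (P : Subgroup X) := by
        rw [hPcard, ha_pow]
        apply Nat.pow_le_pow_right hp.pos
        apply (hp.pow_dvd_iff_le_factorization hX0).mp
        rw [← ha_pow]; exact ha_dvd
      have hEq : ((P : Subgroup X) : Set X) = E X p := by
        apply Set.eq_of_subset_of_ncard_le hsubE _ (Set.toFinite _)
        rw [← Nat.card_coe_set_eq, ← Nat.card_coe_set_eq]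
        exact ha_le
      have hPn : (P : Subgroup X).Normal := by
        refine ⟨fun x hx g => ?_⟩
        have hx' : x ∈ E X p := hsubE hx
        have hmem : g * x * g⁻¹ ∈ E X p := by
          intro q hq hqd
          have ho : orderOf (g * x * g⁻¹) = orderOf x := by
            have := (MulAut.conj g).orderOf_eq x
            simpa [MulAut.conj_apply] using this
          rw [ho] at hqd
          exact hx' q hq hqd
        rw [← hEq] at hmem
        exact hmem
      have hcard : Nat.card X = Nat.card (X ⧸ (P : Subgroup X)) * Nat.card (P : Subgroup X) :=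
        Subgroup.card_eq_card_quotient_mul_card_subgroup _
      have hPpos : 0 < Nat.card (P : Subgroup X) := Nat.card_pos
      have hQq : Q (X ⧸ (P : Subgroup X)) := by
        intro r
        rcases le_or_gt r p with hr | hr
        · obtain ⟨c, hc1, hc2, hc3⟩ := hQ r
          refine ⟨c, ?_, ?_, hc3⟩
          · have h2 := card_E_quot hp (P : Subgroup X) P.isPGroup' hr
            rw [h2, hcard] at hc1
            apply Nat.eq_of_mul_eq_mul_right hPpos
            rw [hc1]; ring
          · intro q hq hqd
            apply hc2 q hq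
            rw [card_E_quot hp (P : Subgroup X) P.isPGroup' hr]
            exact Dvd.dvd.mul_right hqd _
        · apply Qr_small r
          intro q hq hqd
          have : q ∣ Nat.card X := by rw [hcard]; exact Dvd.dvd.mul_right hqd _
          exact lt_of_le_of_lt (hmax q hq this) hr
      have hP1 : 1 < Nat.card (P : Subgroup X) := by
        rw [hPcard]
        exact Nat.one_lt_pow (Nat.Prime.factorization_pos_of_dvd hp hX0 hpd).ne' hp.one_lt
      have hlt : Nat.card (X ⧸ (P : Subgroup X)) < n := by
        rw [← hn, hcard]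
        have hpos : 0 < Nat.card (X ⧸ (P : Subgroup X)) := Nat.card_pos
        nlinarith
      have : Group.IsSolvable (X ⧸ (P : Subgroup X)) := ih _ hlt _ rfl hQq
      have : Group.IsNilpotent (P : Subgroup X) := P.isPGroup'.isNilpotent
      exact Group.isSolvable_of_ker_le_range (P : Subgroup X).subtype
        (QuotientGroup.mk' (P : Subgroup X)) (by simp)

end Cfsg.Agent.Lib.Helper21.OrderTypeSS
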