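import Mathlib
import Cfsg.Prelude.Def_KGroupFacts

set_option autoImplicit false

namespace Cfsg.Agent.Lib.Helper21.SchurBasic

universe u v

theorem ker_eq_bot_of_comm {Γ : Type u} {G : Type v} [Group Γ] [Group G] (σ : Γ →* G)
    (hσ : Cfsg.IsStemExtension σ) (hc : ∀ a b : Γ, a * b = b * a) : σ.ker = ⊥ := by
  have h1 : commutator Γ = ⊥ := by
    rw [eq_bot_iff, commutator_eq_closure, Subgroup.closure_le]
    rintro x ⟨a, b, rfl⟩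
    rw [SetLike.mem_coe, Subgroup.mem_bot, commutatorElement_def, hc a b]
    group
  have h2 := hσ.2.2
  rw [h1] at h2
  exact le_bot_iff.mp h2

theorem subsingleton_mult_zmod_one : Subsingleton (Multiplicative (ZMod 1)) :=
  inferInstanceAs (Subsingleton (ZMod 1))

theorem nonempty_mulEquiv_of_subsingleton (A : Type u) (B : Type v) [Group A] [Group B]
    [Subsingleton A] [Subsingleton B] : Nonempty (A ≃* B) := by
  refine ⟨MulEquiv.ofBijective (1 : A →* B) ⟨?_, ?_⟩⟩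
  · intro a b _
    exact Subsingleton.elim a b
  · intro b
    exact ⟨1, Subsingleton.elim _ _⟩

theorem trivial_of_forall_ker_eq_bot (G : Type u) [Group G] [Finite G]
    (h : ∀ (Γ : Type u) [Group Γ] [Finite Γ] (σ : Γ →* G), Cfsg.IsStemExtension σ → σ.ker = ⊥) :
    Cfsg.HasCyclicSchurMultiplier G 1 := by
  have hs := subsingleton_mult_zmod_one
  refine ⟨⟨G, inferInstance, inferInstance, MonoidHom.id G, ⟨Function.surjective_id, ?_, ?_⟩, ?_⟩, ?_⟩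
  · intro x hx
    rw [MonoidHom.mem_ker, MonoidHom.id_apply] at hx
    rw [hx]
    exact Subgroup.one_mem _
  · intro x hx
    rw [MonoidHom.mem_ker, MonoidHom.id_apply] at hx
    rw [hx]
    exact Subgroup.one_mem _
  · have : Subsingleton (MonoidHom.id G).ker := by
      refine ⟨fun a b => ?_⟩
      have ha := a.2
      have hb := b.2
      rw [MonoidHom.mem_ker, MonoidHom.id_apply] at ha hb
      exact Subtype.ext (ha.trans hb.symm)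
    exact nonempty_mulEquiv_of_subsingleton _ _
  · intro Γ _ _ σ hσ
    refine ⟨1, ?_⟩
    intro y
    refine ⟨1, ?_⟩
    have hy : (y : Γ) ∈ (⊥ : Subgroup Γ) := by
      rw [← h Γ σ hσ]
      exact y.2
    rw [Subgroup.mem_bot] at hy
    apply Subtype.ext
    rw [hy]
    rfl

theorem ker_eq_bot_of_trivial {G : Type u} [Group G] (hG : Cfsg.HasCyclicSchurMultiplier G 1)
    (Γ : Type u) [Group Γ] [Finite Γ] (σ : Γ →* G) (hσ : Cfsg.IsStemExtension σ) : σ.ker = ⊥ := by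
  obtain ⟨π, hπ⟩ := hG.2 Γ σ hσ
  rw [eq_bot_iff]
  intro x hx
  obtain ⟨a, ha⟩ := hπ ⟨x, hx⟩
  have hs := subsingleton_mult_zmod_one
  have h1 : a = 1 := Subsingleton.elim _ _
  rw [h1, map_one] at ha
  rw [Subgroup.mem_bot]
  have := congrArg Subtype.val ha
  exact this.symm

theorem finite_of_hasSchurMultiplier {G : Type u} [Group G] {A : Type v} [CommGroup A]
    (hG : Cfsg.HasSchurMultiplier G A) : Finite G := by
  obtain ⟨⟨Γ, _, _, σ, hσ, _⟩, _⟩ := hG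
  exact Finite.of_surjective σ hσ.1

theorem finite_mult_of_hasSchurMultiplier {G : Type u} [Group G] {A : Type v} [CommGroup A]
    (hG : Cfsg.HasSchurMultiplier G A) : Finite A := by
  obtain ⟨⟨Γ, _, _, σ, hσ, ⟨e⟩⟩, _⟩ := hG
  exact Finite.of_equiv _ e.toEquiv


def twistSubgroup {Γ : Type u} [Group Γ] (A : Subgroup Γ) [A.Normal]
    (hA : ∀ a ∈ A, ∀ b ∈ A, a * b = b * a) (ξ : Γ) : Subgroup Γ where
  carrier := {c | ∃ b ∈ A, c = b * ξ * b⁻¹ * ξ⁻¹}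
  one_mem' := ⟨1, A.one_mem, by simp⟩
  mul_mem' := by
    rintro _ _ ⟨b, hb, rfl⟩ ⟨b', hb', rfl⟩
    refine ⟨b * b', A.mul_mem hb hb', ?_⟩
    have hu : ξ * b⁻¹ * ξ⁻¹ ∈ A := Subgroup.Normal.conj_mem inferInstance _ (A.inv_mem hb) ξ
    have hu' : ξ * b'⁻¹ * ξ⁻¹ ∈ A := Subgroup.Normal.conj_mem inferInstance _ (A.inv_mem hb') ξ
    have e1 : b * ξ * b⁻¹ * ξ⁻¹ * (b' * ξ * b'⁻¹ * ξ⁻¹) = b * ((ξ * b⁻¹ * ξ⁻¹) * b') * (ξ * b'⁻¹ * ξ⁻¹) := by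
      group
    have e2 : b * b' * ξ * (b * b')⁻¹ * ξ⁻¹ = b * (b' * (ξ * b'⁻¹ * ξ⁻¹)) * (ξ * b⁻¹ * ξ⁻¹) := by
      group
    rw [e1, e2, hA _ hu _ hb', mul_assoc b, mul_assoc b, mul_assoc b', hA _ hu _ hu', mul_assoc b']
  inv_mem' := by
    rintro _ ⟨b, hb, rfl⟩
    refine ⟨b⁻¹, A.inv_mem hb, ?_⟩
    have hu : ξ * b * ξ⁻¹ ∈ A := Subgroup.Normal.conj_mem inferInstance _ hb ξ
    have e1 : (b * ξ * b⁻¹ * ξ⁻¹)⁻¹ = (ξ * b * ξ⁻¹) * b⁻¹ := by group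
    have e2 : b⁻¹ * ξ * b⁻¹⁻¹ * ξ⁻¹ = b⁻¹ * (ξ * b * ξ⁻¹) := by group
    rw [e1, e2, hA _ hu _ (A.inv_mem hb)]

theorem commutator_le_twist {Γ : Type u} [Group Γ] (A : Subgroup Γ) [A.Normal]
    (hA : ∀ a ∈ A, ∀ b ∈ A, a * b = b * a) (ξ : Γ) (h : ∀ g : Γ, g ∈ A ∨ g * ξ⁻¹ ∈ A) :
    commutator Γ ≤ twistSubgroup A hA ξ := by
  rw [commutator_eq_closure, Subgroup.closure_le]
  rintro x ⟨g, k, rfl⟩
  rw [SetLike.mem_coe, commutatorElement_def]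
  have key1 : ∀ a ∈ A, ∀ b ∈ A, a * (b * ξ) * a⁻¹ * (b * ξ)⁻¹ = a * ξ * a⁻¹ * ξ⁻¹ := by
    intro a ha b hb
    have hu : ξ * a⁻¹ * ξ⁻¹ ∈ A := Subgroup.Normal.conj_mem inferInstance _ (A.inv_mem ha) ξ
    have e1 : a * (b * ξ) * a⁻¹ * (b * ξ)⁻¹ = a * (b * (ξ * a⁻¹ * ξ⁻¹)) * b⁻¹ := by group
    rw [e1, hA _ hb _ hu]
    group
  rcases h g with hg | hg <;> rcases h k with hk | hk
  · refine ⟨1, A.one_mem, ?_⟩
    rw [hA g hg k hk]
    group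
  · refine ⟨g, hg, ?_⟩
    have := key1 g hg (k * ξ⁻¹) hk
    rw [inv_mul_cancel_right] at this
    exact this
  · have hmem : k * ξ * k⁻¹ * ξ⁻¹ ∈ twistSubgroup A hA ξ := ⟨k, hk, rfl⟩
    have := key1 k hk (g * ξ⁻¹) hg
    rw [inv_mul_cancel_right] at this
    rw [← this] at hmem
    have h2 := (twistSubgroup A hA ξ).inv_mem hmem
    have e : (k * g * k⁻¹ * g⁻¹)⁻¹ = g * k * g⁻¹ * k⁻¹ := by group
    rw [e] at h2
    exact h2
  · have h1 : g * ξ⁻¹ * ξ * (g * ξ⁻¹)⁻¹ * ξ⁻¹ ∈ twistSubgroup A hA ξ := ⟨g * ξ⁻¹, hg, rfl⟩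
    have h2 : k * ξ⁻¹ * ξ * (k * ξ⁻¹)⁻¹ * ξ⁻¹ ∈ twistSubgroup A hA ξ := ⟨k * ξ⁻¹, hk, rfl⟩
    have h3 := (twistSubgroup A hA ξ).mul_mem h1 ((twistSubgroup A hA ξ).inv_mem h2)
    have hu : ξ * (g * ξ⁻¹)⁻¹ * ξ⁻¹ ∈ A := Subgroup.Normal.conj_mem inferInstance _ (A.inv_mem hg) ξ
    have hv : ξ * (k * ξ⁻¹) * ξ⁻¹ ∈ A := Subgroup.Normal.conj_mem inferInstance _ hk ξ
    have e1 : g * ξ⁻¹ * ξ * (g * ξ⁻¹)⁻¹ * ξ⁻¹ * (k * ξ⁻¹ * ξ * (k * ξ⁻¹)⁻¹ * ξ⁻¹)⁻¹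
        = (g * ξ⁻¹) * ((ξ * (g * ξ⁻¹)⁻¹ * ξ⁻¹) * (ξ * (k * ξ⁻¹) * ξ⁻¹)) * (k * ξ⁻¹)⁻¹ := by group
    have e2 : g * k * g⁻¹ * k⁻¹
        = (g * ξ⁻¹) * ((ξ * (k * ξ⁻¹) * ξ⁻¹) * (ξ * (g * ξ⁻¹)⁻¹ * ξ⁻¹)) * (k * ξ⁻¹)⁻¹ := by group
    rw [e1, hA _ hu _ hv, ← e2] at h3
    exact h3

theorem mem_commutator_form {Γ : Type u} [Group Γ] (A : Subgroup Γ) [A.Normal]
    (hA : ∀ a ∈ A, ∀ b ∈ A, a * b = b * a) (ξ : Γ) (h : ∀ g : Γ, g ∈ A ∨ g * ξ⁻¹ ∈ A)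
    (c : Γ) (hc : c ∈ commutator Γ) : ∃ b ∈ A, c = b * ξ * b⁻¹ * ξ⁻¹ :=
  commutator_le_twist A hA ξ h hc


theorem comm_of_comap_cyclic {Γ : Type u} {G : Type v} [Group Γ] [Group G] (σ : Γ →* G)
    (hker : σ.ker ≤ Subgroup.center Γ) (C : Subgroup G) [IsCyclic C] :
    ∀ a ∈ C.comap σ, ∀ b ∈ C.comap σ, a * b = b * a := by
  intro a ha b hb
  have hf : (σ.subgroupComap C).ker ≤ Subgroup.center (C.comap σ) := by
    intro x hx
    rw [Subgroup.mem_center_iff]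
    intro y
    have hx' : (x : Γ) ∈ σ.ker := by
      rw [MonoidHom.mem_ker] at hx ⊢
      have := congrArg Subtype.val hx
      exact this
    have hc := hker hx'
    rw [Subgroup.mem_center_iff] at hc
    exact Subtype.ext (hc y)
  have hcm := MonoidHom.isMulCommutative_of_isCyclic_of_ker_le_center (σ.subgroupComap C) hf
  have := (isMulCommutative_iff.mp hcm) ⟨a, ha⟩ ⟨b, hb⟩
  exact congrArg Subtype.val this


theorem stem_ker_form {Γ : Type u} {G : Type v} [Group Γ] [Group G] (σ : Γ →* G)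
    (hσ : Cfsg.IsStemExtension σ) (C : Subgroup G) [C.Normal] [IsCyclic C] (ξ : Γ)
    (h : ∀ g : G, g ∈ C ∨ g * (σ ξ)⁻¹ ∈ C) (k : Γ) (hk : k ∈ σ.ker) :
    ∃ b : Γ, σ b ∈ C ∧ k = b * ξ * b⁻¹ * ξ⁻¹ := by
  have hA := comm_of_comap_cyclic σ hσ.2.1 C
  have hgen : ∀ g : Γ, g ∈ C.comap σ ∨ g * ξ⁻¹ ∈ C.comap σ := by
    intro g
    rcases h (σ g) with h1 | h1
    · exact Or.inl h1
    · right
      rw [Subgroup.mem_comap, map_mul, map_inv]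
      exact h1
  obtain ⟨b, hb, hkb⟩ := mem_commutator_form (C.comap σ) hA ξ hgen k (hσ.2.2 hk)
  exact ⟨b, hb, hkb⟩

theorem exists_surjective_of_card_le_two (K : Type u) [Group K] [Finite K] (hK : Nat.card K ≤ 2) :
    ∃ π : Multiplicative (ZMod 2) →* K, Function.Surjective π := by
  have hpos : 0 < Nat.card K := Nat.card_pos
  rcases Nat.lt_or_ge (Nat.card K) 2 with h1 | h2
  · have h1' : Nat.card K = 1 := by omega
    have hs : Subsingleton K := (Nat.card_eq_one_iff_unique.mp h1').1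
    exact ⟨1, fun y => ⟨1, Subsingleton.elim _ _⟩⟩
  · have h2' : Nat.card K = 2 := le_antisymm hK h2
    have hp : Fact (Nat.Prime 2) := ⟨Nat.prime_two⟩
    have hc : IsCyclic K := isCyclic_of_prime_card h2'
    have hz : Nat.card (Multiplicative (ZMod 2)) = 2 := by
      rw [Nat.card_eq_fintype_card]
      exact ZMod.card 2
    have hcz : IsCyclic (Multiplicative (ZMod 2)) := isCyclic_of_prime_card hz
    have e : Multiplicative (ZMod 2) ≃* K := mulEquivOfCyclicCardEq (hz.trans h2'.symm)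
    exact ⟨e.toMonoidHom, e.surjective⟩

end Cfsg.Agent.Lib.Helper21.SchurBasic
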