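import Mathlib
import Cfsg.Prelude.Def_KGroupFacts
import Cfsg.Agent.Lib.Helper21.SchurBasic

set_option autoImplicit false

namespace Cfsg.Agent.Lib.Helper21.SchurBasic2

open Cfsg.Agent.Lib.Helper21.SchurBasic

universe u v

theorem twist_conj_mem {Γ : Type u} [Group Γ] (A : Subgroup Γ) [A.Normal]
    (hA : ∀ a ∈ A, ∀ b ∈ A, a * b = b * a) (ξ : Γ) (t : Γ) (ht : t ∈ twistSubgroup A hA ξ) :
    ξ * t * ξ⁻¹ ∈ twistSubgroup A hA ξ := by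
  obtain ⟨b, hb, rfl⟩ := ht
  refine ⟨ξ * b * ξ⁻¹, Subgroup.Normal.conj_mem inferInstance _ hb ξ, ?_⟩
  group

theorem twist_pow_mem {Γ : Type u} [Group Γ] (A : Subgroup Γ) [A.Normal]
    (hA : ∀ a ∈ A, ∀ b ∈ A, a * b = b * a) (ξ : Γ) (j : ℕ) :
    ∀ a ∈ A, a * ξ ^ j * a⁻¹ * (ξ ^ j)⁻¹ ∈ twistSubgroup A hA ξ := by
  induction j with
  | zero =>
    intro a _
    have : a * ξ ^ 0 * a⁻¹ * (ξ ^ 0)⁻¹ = 1 := by group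
    rw [this]
    exact Subgroup.one_mem _
  | succ j ih =>
    intro a ha
    have h1 : a * ξ * a⁻¹ * ξ⁻¹ ∈ twistSubgroup A hA ξ := ⟨a, ha, rfl⟩
    have h2 := twist_conj_mem A hA ξ _ (ih a ha)
    have h3 := (twistSubgroup A hA ξ).mul_mem h1 h2
    have e : a * ξ ^ (j + 1) * a⁻¹ * (ξ ^ (j + 1))⁻¹ =
        a * ξ * a⁻¹ * ξ⁻¹ * (ξ * (a * ξ ^ j * a⁻¹ * (ξ ^ j)⁻¹) * ξ⁻¹) := by
      rw [pow_succ]
      group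
    rw [e]
    exact h3

theorem commutator_le_twist_pow {Γ : Type u} [Group Γ] (A : Subgroup Γ) [A.Normal]
    (hA : ∀ a ∈ A, ∀ b ∈ A, a * b = b * a) (ξ : Γ)
    (h : ∀ g : Γ, ∃ i : ℕ, g * (ξ ^ i)⁻¹ ∈ A) :
    commutator Γ ≤ twistSubgroup A hA ξ := by
  rw [commutator_eq_closure, Subgroup.closure_le]
  rintro x ⟨g, k, rfl⟩
  rw [SetLike.mem_coe, commutatorElement_def]
  obtain ⟨i, hi⟩ := h g
  obtain ⟨j, hj⟩ := h k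
  have h1 := twist_pow_mem A hA ξ j _ hi
  have h2 := twist_pow_mem A hA ξ i _ hj
  have h3 := (twistSubgroup A hA ξ).mul_mem h1 ((twistSubgroup A hA ξ).inv_mem h2)
  have hu : ξ ^ i * (k * (ξ ^ j)⁻¹) * (ξ ^ i)⁻¹ ∈ A :=
    Subgroup.Normal.conj_mem inferInstance _ hj (ξ ^ i)
  have hv : ξ ^ j * (g * (ξ ^ i)⁻¹)⁻¹ * (ξ ^ j)⁻¹ ∈ A :=
    Subgroup.Normal.conj_mem inferInstance _ (A.inv_mem hi) (ξ ^ j)
  have e1 : g * (ξ ^ i)⁻¹ * ξ ^ j * (g * (ξ ^ i)⁻¹)⁻¹ * (ξ ^ j)⁻¹ *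
      (k * (ξ ^ j)⁻¹ * ξ ^ i * (k * (ξ ^ j)⁻¹)⁻¹ * (ξ ^ i)⁻¹)⁻¹ =
      (g * (ξ ^ i)⁻¹) * ((ξ ^ j * (g * (ξ ^ i)⁻¹)⁻¹ * (ξ ^ j)⁻¹) * (ξ ^ i * (k * (ξ ^ j)⁻¹) * (ξ ^ i)⁻¹)) *
        (k * (ξ ^ j)⁻¹)⁻¹ := by group
  have hcomm : ξ ^ i * ξ ^ j = ξ ^ j * ξ ^ i := by rw [← pow_add, ← pow_add, add_comm]
  have e2 : g * k * g⁻¹ * k⁻¹ =
      (g * (ξ ^ i)⁻¹) * ((ξ ^ i * (k * (ξ ^ j)⁻¹) * (ξ ^ i)⁻¹) * (ξ ^ j * (g * (ξ ^ i)⁻¹)⁻¹ * (ξ ^ j)⁻¹)) *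
        (k * (ξ ^ j)⁻¹)⁻¹ := by
    have : (g * (ξ ^ i)⁻¹) * ((ξ ^ i * (k * (ξ ^ j)⁻¹) * (ξ ^ i)⁻¹) * (ξ ^ j * (g * (ξ ^ i)⁻¹)⁻¹ * (ξ ^ j)⁻¹)) *
        (k * (ξ ^ j)⁻¹)⁻¹ = g * k * ((ξ ^ j)⁻¹ * (ξ ^ i)⁻¹ * (ξ ^ j * ξ ^ i)) * g⁻¹ * k⁻¹ := by group
    rw [this, ← hcomm]
    group
  rw [e1, hA _ hv _ hu, ← e2] at h3
  exact h3

theorem stem_ker_form_pow {Γ : Type u} {G : Type v} [Group Γ] [Group G] (σ : Γ →* G)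
    (hσ : Cfsg.IsStemExtension σ) (C : Subgroup G) [C.Normal] [IsCyclic C] (ξ : Γ)
    (h : ∀ g : G, ∃ i : ℕ, g * (σ ξ ^ i)⁻¹ ∈ C) (k : Γ) (hk : k ∈ σ.ker) :
    ∃ b : Γ, σ b ∈ C ∧ k = b * ξ * b⁻¹ * ξ⁻¹ := by
  have hA := comm_of_comap_cyclic σ hσ.2.1 C
  have hgen : ∀ g : Γ, ∃ i : ℕ, g * (ξ ^ i)⁻¹ ∈ C.comap σ := by
    intro g
    obtain ⟨i, hi⟩ := h (σ g)
    refine ⟨i, ?_⟩
    rw [Subgroup.mem_comap, map_mul, map_inv, map_pow]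
    exact hi
  obtain ⟨b, hb, hkb⟩ := commutator_le_twist_pow (C.comap σ) hA ξ hgen (hσ.2.2 hk)
  exact ⟨b, hb, hkb⟩

theorem comm_pow_left {Γ : Type u} [Group Γ] (x y : Γ)
    (hc : x * y * x⁻¹ * y⁻¹ ∈ Subgroup.center Γ) (a : ℕ) :
    x ^ a * y * (x ^ a)⁻¹ * y⁻¹ = (x * y * x⁻¹ * y⁻¹) ^ a := by
  induction a with
  | zero => group
  | succ a ih =>
    have hz : (x * y * x⁻¹ * y⁻¹) ^ a ∈ Subgroup.center Γ := Subgroup.pow_mem _ hc a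
    rw [Subgroup.mem_center_iff] at hz
    have e : x ^ (a + 1) * y * (x ^ (a + 1))⁻¹ * y⁻¹ = x * (x ^ a * y * (x ^ a)⁻¹ * y⁻¹) * y * x⁻¹ * y⁻¹ := by
      rw [pow_succ']
      group
    rw [e, ih, hz x, pow_succ]
    generalize (x * y * x⁻¹ * y⁻¹) ^ a = z
    simp only [mul_assoc]

theorem comm_pow_right {Γ : Type u} [Group Γ] (x y : Γ)
    (hc : x * y * x⁻¹ * y⁻¹ ∈ Subgroup.center Γ) (a : ℕ) :
    x * y ^ a * x⁻¹ * (y ^ a)⁻¹ = (x * y * x⁻¹ * y⁻¹) ^ a := by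
  induction a with
  | zero => group
  | succ a ih =>
    have hz : (x * y * x⁻¹ * y⁻¹) ^ a ∈ Subgroup.center Γ := Subgroup.pow_mem _ hc a
    rw [Subgroup.mem_center_iff] at hz
    have e : x * y ^ (a + 1) * x⁻¹ * (y ^ (a + 1))⁻¹ = x * y * x⁻¹ * y⁻¹ * (y * (x * y ^ a * x⁻¹ * (y ^ a)⁻¹) * y⁻¹) := by
      rw [pow_succ']
      group
    rw [e, ih, hz y, pow_succ', mul_inv_cancel_right]

theorem exists_surjective_of_cyclic_of_pow_eq_one (K : Type u) [Group K] [Finite K] [IsCyclic K]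
    (n : ℕ) [NeZero n] (h : ∀ g : K, g ^ n = 1) :
    ∃ π : Multiplicative (ZMod n) →* K, Function.Surjective π := by
  have hd : Nat.card K ∣ n := by
    rw [← IsCyclic.exponent_eq_card]
    exact Monoid.exponent_dvd_of_forall_pow_eq_one h
  have hpos : NeZero (Nat.card K) := ⟨Nat.card_pos.ne'⟩
  let e : Multiplicative (ZMod (Nat.card K)) ≃* K := zmodCyclicMulEquiv inferInstance
  let f : Multiplicative (ZMod n) →* Multiplicative (ZMod (Nat.card K)) :=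
    AddMonoidHom.toMultiplicative (ZMod.castHom hd (ZMod (Nat.card K))).toAddMonoidHom
  refine ⟨e.toMonoidHom.comp f, ?_⟩
  intro y
  obtain ⟨z, hz⟩ := ZMod.castHom_surjective hd (Multiplicative.toAdd (e.symm y))
  refine ⟨Multiplicative.ofAdd z, ?_⟩
  show e (Multiplicative.ofAdd ((ZMod.castHom hd (ZMod (Nat.card K))) z)) = y
  rw [hz]
  simp

end Cfsg.Agent.Lib.Helper21.SchurBasic2
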