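import Mathlib
import Cfsg.Prelude.Def_KGroupFacts

set_option autoImplicit false

namespace Cfsg.Agent.Lib.Helper21.SchurCover

universe u v w

open scoped commutatorElement

section Central

variable {E : Type v} {G : Type u} [Group E] [Group G]

theorem commutatorElement_mul_central (x y z t : E) (hz : z ∈ Subgroup.center E)
    (ht : t ∈ Subgroup.center E) : ⁅x * z, y * t⁆ = ⁅x, y⁆ := by
  rw [Subgroup.mem_center_iff] at hz ht
  rw [commutatorElement_def, commutatorElement_def]
  have e1 : x * z * (y * t) * (x * z)⁻¹ * (y * t)⁻¹ = x * (z * (y * t * z⁻¹)) * x⁻¹ * (y * t)⁻¹ := by group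
  rw [e1, ← hz (y * t * z⁻¹)]
  have e2 : x * (y * t * z⁻¹ * z) * x⁻¹ * (y * t)⁻¹ = x * y * (t * (x⁻¹ * t⁻¹)) * y⁻¹ := by group
  rw [e2, ← ht (x⁻¹ * t⁻¹)]
  group

theorem exists_central_decomp (π : E →* G) (hπ : Function.Surjective π)
    (hker : π.ker ≤ Subgroup.center E) (x : E) :
    ∃ z ∈ Subgroup.center E, x = Function.surjInv hπ (π x) * z := by
  refine ⟨(Function.surjInv hπ (π x))⁻¹ * x, hker ?_, by group⟩
  rw [MonoidHom.mem_ker, map_mul, map_inv, Function.surjInv_eq hπ, inv_mul_cancel]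

theorem finite_commutator_of_central (π : E →* G) (hπ : Function.Surjective π)
    (hker : π.ker ≤ Subgroup.center E) [Finite G] : Finite (commutator E) := by
  have hfin : (commutatorSet E).Finite := by
    apply Set.Finite.subset (Set.finite_range
      (fun p : G × G => ⁅Function.surjInv hπ p.1, Function.surjInv hπ p.2⁆))
    rintro c ⟨x, y, rfl⟩
    refine ⟨(π x, π y), ?_⟩
    obtain ⟨z, hz, hxz⟩ := exists_central_decomp π hπ hker x
    obtain ⟨t, ht, hyt⟩ := exists_central_decomp π hπ hker y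
    simp only
    conv_rhs => rw [hxz, hyt]
    rw [commutatorElement_mul_central _ _ _ _ hz ht]
  have : Finite (commutatorSet E) := hfin.to_subtype
  infer_instance

end Central

section Setup

variable (G : Type u) [Group G]

def rho : FreeGroup G →* G := FreeGroup.lift id

theorem rho_of (g : G) : rho G (FreeGroup.of g) = g := by
  unfold rho
  rw [FreeGroup.lift_apply_of]
  rfl

theorem rho_surj : Function.Surjective (rho G) := fun g => ⟨FreeGroup.of g, rho_of G g⟩

def FR : Subgroup (FreeGroup G) := ⁅(⊤ : Subgroup (FreeGroup G)), (rho G).ker⁆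

instance FR_normal : (FR G).Normal := by
  unfold FR
  infer_instance

theorem FR_le_ker : FR G ≤ (rho G).ker := Subgroup.commutator_le_right ⊤ (rho G).ker

abbrev Fb : Type u := FreeGroup G ⧸ FR G

def rhoBar : Fb G →* G := QuotientGroup.lift (FR G) (rho G) (FR_le_ker G)

theorem rhoBar_mk (x : FreeGroup G) : rhoBar G (QuotientGroup.mk x) = rho G x := rfl

theorem rhoBar_surj : Function.Surjective (rhoBar G) := by
  intro g
  obtain ⟨x, hx⟩ := rho_surj G g
  exact ⟨QuotientGroup.mk x, hx⟩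

theorem rhoBar_ker_le_center : (rhoBar G).ker ≤ Subgroup.center (Fb G) := by
  intro x hx
  induction x using QuotientGroup.induction_on with
  | H r =>
    rw [MonoidHom.mem_ker, rhoBar_mk] at hx
    rw [Subgroup.mem_center_iff]
    intro y
    induction y using QuotientGroup.induction_on with
    | H f =>
      rw [← QuotientGroup.mk_mul, ← QuotientGroup.mk_mul, QuotientGroup.eq]
      have h1 : ⁅r⁻¹, f⁻¹⁆ ∈ ⁅(rho G).ker, (⊤ : Subgroup (FreeGroup G))⁆ :=
        Subgroup.commutator_mem_commutator ((rho G).ker.inv_mem hx) (Subgroup.mem_top _)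
      rw [Subgroup.commutator_comm] at h1
      have e : (f * r)⁻¹ * (r * f) = ⁅r⁻¹, f⁻¹⁆ := by
        rw [commutatorElement_def]; group
      rw [e]
      exact h1

noncomputable def qF : FreeGroup G →* Multiplicative (G →₀ ℤ) :=
  (AddMonoidHom.toMultiplicativeRight
    ((FreeAbelianGroup.equivFinsupp G).toAddMonoidHom)).comp Abelianization.of

theorem qF_ker : (qF G).ker = commutator (FreeGroup G) := by
  ext x
  rw [MonoidHom.mem_ker, ← Abelianization.ker_of, MonoidHom.mem_ker]
  constructor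
  · intro h
    have h1 : (FreeAbelianGroup.equivFinsupp G) (Additive.ofMul (Abelianization.of x)) = 0 := by
      have := congrArg Multiplicative.toAdd h
      exact this
    have h2 := (FreeAbelianGroup.equivFinsupp G).injective (h1.trans (map_zero _).symm)
    exact congrArg Additive.toMul h2
  · intro h
    unfold qF
    rw [MonoidHom.comp_apply, h, map_one]

theorem FR_le_qF_ker : FR G ≤ (qF G).ker := by
  rw [qF_ker, _root_.commutator_def]
  exact Subgroup.commutator_mono le_rfl le_top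

noncomputable def qb : Fb G →* Multiplicative (G →₀ ℤ) := QuotientGroup.lift (FR G) (qF G) (FR_le_qF_ker G)

theorem qb_ker : (qb G).ker = commutator (Fb G) := by
  unfold qb
  rw [QuotientGroup.ker_lift, qF_ker, map_commutator_eq, QuotientGroup.range_mk', ← _root_.commutator_def]

def MultSub : Subgroup (Fb G) := (rhoBar G).ker ⊓ commutator (Fb G)

end Setup


open scoped IsMulCommutative in
theorem exists_split_aux {E : Type v} [Group E] {V : Type w} [AddCommGroup V] [Module.Free ℤ V]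
    [Module.Finite ℤ V] (q : E →* Multiplicative V) (N : Subgroup E)
    [IsMulCommutative N] :
    ∃ S : Subgroup E, S ≤ N ∧ S ⊓ q.ker = ⊥ ∧ ∀ x ∈ N, ∃ y ∈ S, x * y⁻¹ ∈ q.ker := by
  let incl : ↥N →* E := N.subtype
  let Qadd : Additive ↥N →+ V := MonoidHom.toAdditiveLeft (q.comp incl)
  let Qlin : Additive ↥N →ₗ[ℤ] V := Qadd.toIntLinearMap
  have hQ : ∀ a : Additive ↥N, Qlin a = Multiplicative.toAdd (q (incl (Additive.toMul a))) := fun a => rfl
  obtain ⟨h, hh⟩ := Module.projective_lifting_property Qlin.rangeRestrict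
    (LinearMap.id : LinearMap.range Qlin →ₗ[ℤ] LinearMap.range Qlin)
    (LinearMap.surjective_rangeRestrict Qlin)
  have hh' : ∀ w : LinearMap.range Qlin, Qlin (h w) = (w : V) := by
    intro w
    have := congrArg (fun f => ((f w : LinearMap.range Qlin) : V)) hh
    exact this
  refine ⟨{ carrier := {x | ∃ w : LinearMap.range Qlin, incl (Additive.toMul (h w)) = x}
            one_mem' := ⟨0, by rw [map_zero]; rfl⟩
            mul_mem' := by
              rintro _ _ ⟨w, rfl⟩ ⟨w', rfl⟩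
              refine ⟨w + w', ?_⟩
              rw [map_add, toMul_add, map_mul]
            inv_mem' := by
              rintro _ ⟨w, rfl⟩
              refine ⟨-w, ?_⟩
              rw [map_neg, toMul_neg, map_inv] }, ?_, ?_, ?_⟩
  · rintro _ ⟨w, rfl⟩
    exact (Additive.toMul (h w)).2
  · rw [eq_bot_iff]
    rintro x ⟨⟨w, rfl⟩, hx⟩
    have hx' : q (incl (Additive.toMul (h w))) = 1 := hx
    have h1 : Qlin (h w) = 0 := by
      rw [hQ, hx']
      rfl
    rw [hh'] at h1
    have hw : w = 0 := Subtype.ext h1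
    rw [Subgroup.mem_bot, hw, map_zero]
    rfl
  · intro x hx
    let a : Additive ↥N := Additive.ofMul ⟨x, hx⟩
    refine ⟨incl (Additive.toMul (h (Qlin.rangeRestrict a))), ⟨Qlin.rangeRestrict a, rfl⟩, ?_⟩
    rw [MonoidHom.mem_ker, map_mul, map_inv]
    have h1 : Qlin (h (Qlin.rangeRestrict a)) = Qlin a := hh' _
    rw [hQ, hQ] at h1
    have h2 : q (incl (Additive.toMul (h (Qlin.rangeRestrict a)))) = q x := by
      have := congrArg Multiplicative.ofAdd h1
      exact this
    rw [h2, mul_inv_cancel]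

theorem exists_split {E : Type v} [Group E] {V : Type w} [AddCommGroup V] [Module.Free ℤ V]
    [Module.Finite ℤ V] (q : E →* Multiplicative V) (N : Subgroup E)
    (hN : ∀ a ∈ N, ∀ b ∈ N, a * b = b * a) :
    ∃ S : Subgroup E, S ≤ N ∧ S ⊓ q.ker = ⊥ ∧ ∀ x ∈ N, ∃ y ∈ S, x * y⁻¹ ∈ q.ker := by
  have : IsMulCommutative N := ⟨⟨fun a b => Subtype.ext (hN a a.2 b b.2)⟩⟩
  exact exists_split_aux q N


section Lift

variable {G : Type u} [Group G]

theorem exists_lift {E : Type v} [Group E] (π : E →* G) (hπ : Function.Surjective π)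
    (hker : π.ker ≤ Subgroup.center E) : ∃ φ : Fb G →* E, π.comp φ = rhoBar G := by
  let φ₀ : FreeGroup G →* E := FreeGroup.lift (Function.surjInv hπ)
  have h0 : π.comp φ₀ = rho G := by
    apply FreeGroup.ext_hom
    intro g
    rw [MonoidHom.comp_apply, rho_of]
    show π (FreeGroup.lift (Function.surjInv hπ) (FreeGroup.of g)) = g
    rw [FreeGroup.lift_apply_of, Function.surjInv_eq hπ]
  have h1 : FR G ≤ φ₀.ker := by
    unfold FR
    rw [Subgroup.commutator_le]
    intro f _ r hr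
    rw [MonoidHom.mem_ker, map_commutatorElement]
    have hc : φ₀ r ∈ Subgroup.center E := by
      apply hker
      rw [MonoidHom.mem_ker, ← MonoidHom.comp_apply, h0]
      exact hr
    rw [Subgroup.mem_center_iff] at hc
    rw [commutatorElement_def, hc (φ₀ f)]
    group
  refine ⟨QuotientGroup.lift (FR G) φ₀ h1, ?_⟩
  refine MonoidHom.ext (fun x => ?_)
  induction x using QuotientGroup.induction_on with
  | H f =>
    rw [MonoidHom.comp_apply, rhoBar_mk, QuotientGroup.lift_mk, ← h0, MonoidHom.comp_apply]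

theorem lift_cover {E : Type v} [Group E] (π : E →* G) (hker : π.ker ≤ Subgroup.center E)
    (φ : Fb G →* E) (hφ : π.comp φ = rhoBar G) (e : E) :
    ∃ x : Fb G, ∃ z ∈ Subgroup.center E, e = φ x * z := by
  obtain ⟨x, hx⟩ := rhoBar_surj G (π e)
  refine ⟨x, (φ x)⁻¹ * e, hker ?_, by group⟩
  rw [MonoidHom.mem_ker, map_mul, map_inv, ← MonoidHom.comp_apply, hφ, hx, inv_mul_cancel]

theorem commutator_le_map {E : Type v} [Group E] (π : E →* G)
    (hker : π.ker ≤ Subgroup.center E) (φ : Fb G →* E) (hφ : π.comp φ = rhoBar G) :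
    commutator E ≤ (commutator (Fb G)).map φ := by
  rw [commutator_eq_closure, Subgroup.closure_le]
  rintro c ⟨a, b, rfl⟩
  obtain ⟨x, z, hz, rfl⟩ := lift_cover π hker φ hφ a
  obtain ⟨y, t, ht, rfl⟩ := lift_cover π hker φ hφ b
  rw [commutatorElement_mul_central _ _ _ _ hz ht, ← map_commutatorElement]
  exact Subgroup.mem_map_of_mem φ (Subgroup.commutator_mem_commutator (Subgroup.mem_top _) (Subgroup.mem_top _))

theorem map_commutator_le {E : Type v} [Group E] (φ : Fb G →* E) :
    (commutator (Fb G)).map φ ≤ commutator E := by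
  rw [map_commutator_eq, _root_.commutator_def]
  exact Subgroup.commutator_mono le_top le_top

theorem map_multSub {E : Type v} [Group E] (π : E →* G)
    (hker : π.ker ≤ Subgroup.center E) (φ : Fb G →* E) (hφ : π.comp φ = rhoBar G) :
    (MultSub G).map φ = π.ker ⊓ commutator E := by
  apply le_antisymm
  · rintro _ ⟨m, hm, rfl⟩
    have hm' := Subgroup.mem_inf.mp hm
    refine Subgroup.mem_inf.mpr ⟨?_, map_commutator_le φ (Subgroup.mem_map_of_mem φ hm'.2)⟩
    rw [MonoidHom.mem_ker, ← MonoidHom.comp_apply, hφ]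
    exact hm'.1
  · intro k hk
    have hk' := Subgroup.mem_inf.mp hk
    obtain ⟨c, hc, rfl⟩ := commutator_le_map π hker φ hφ hk'.2
    refine ⟨c, Subgroup.mem_inf.mpr ⟨?_, hc⟩, rfl⟩
    rw [MonoidHom.mem_ker, ← hφ, MonoidHom.comp_apply]
    exact hk'.1

end Lift

section Mult

variable (G : Type u) [Group G]

def Mult : Type u := ↥(MultSub G)

noncomputable instance multCommGroup : CommGroup (Mult G) :=
  { (inferInstance : Group ↥(MultSub G)) with
    mul_comm := fun a b => by
      have ha := rhoBar_ker_le_center G (Subgroup.mem_inf.mp a.2).1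
      rw [Subgroup.mem_center_iff] at ha
      exact Subtype.ext (ha b.1).symm }

noncomputable def multVal : Mult G →* Fb G := (MultSub G).subtype

theorem multVal_mem (m : Mult G) : multVal G m ∈ MultSub G := m.2

theorem multVal_injective : Function.Injective (multVal G) := Subtype.val_injective

theorem multVal_surj (x : Fb G) (hx : x ∈ MultSub G) : ∃ m : Mult G, multVal G m = x :=
  ⟨⟨x, hx⟩, rfl⟩

instance multFinite [Finite G] : Finite (Mult G) := by
  have := finite_commutator_of_central (rhoBar G) (rhoBar_surj G) (rhoBar_ker_le_center G)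
  apply Finite.of_injective
    (fun m : Mult G => (⟨multVal G m, (Subgroup.mem_inf.mp (multVal_mem G m)).2⟩ : commutator (Fb G)))
  intro a b h
  have h' : multVal G a = multVal G b := congrArg (fun x : commutator (Fb G) => (x : Fb G)) h
  exact multVal_injective G h'

end Mult

section Stem

variable {G : Type u} [Group G]

theorem map_commutator_le' {A : Type v} {B : Type w} [Group A] [Group B] (f : A →* B) :
    (commutator A).map f ≤ commutator B := by
  rw [map_commutator_eq, _root_.commutator_def]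
  exact Subgroup.commutator_mono le_top le_top

theorem surj_of_central {E : Type v} [Group E] (π : E →* G) (hπ : Function.Surjective π)
    (hker : π.ker ≤ Subgroup.center E) :
    ∃ f : Mult G →* E, ∀ k : E, k ∈ π.ker ⊓ commutator E ↔ ∃ m, f m = k := by
  obtain ⟨φ, hφ⟩ := exists_lift π hπ hker
  refine ⟨φ.comp (multVal G), ?_⟩
  intro k
  rw [← map_multSub π hker φ hφ]
  constructor
  · rintro ⟨x, hx, rfl⟩
    obtain ⟨m, rfl⟩ := multVal_surj G x hx
    exact ⟨m, rfl⟩
  · rintro ⟨m, rfl⟩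
    exact ⟨multVal G m, multVal_mem G m, rfl⟩

theorem surj_of_stem {Γ : Type v} [Group Γ] (σ : Γ →* G) (hσ : Cfsg.IsStemExtension σ) :
    ∃ f : Mult G →* σ.ker, Function.Surjective f := by
  obtain ⟨f, hf⟩ := surj_of_central σ hσ.1 hσ.2.1
  have hmem : ∀ m, f m ∈ σ.ker := fun m => (Subgroup.mem_inf.mp ((hf (f m)).mpr ⟨m, rfl⟩)).1
  refine ⟨f.codRestrict σ.ker hmem, ?_⟩
  intro k
  obtain ⟨m, hm⟩ := (hf k.1).mp (Subgroup.mem_inf.mpr ⟨k.2, hσ.2.2 k.2⟩)
  exact ⟨m, Subtype.ext hm⟩

theorem finite_of_ker_of_surj {Γ : Type v} {H : Type w} [Group Γ] [Group H] (σ : Γ →* H)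
    (hσ : Function.Surjective σ) [Finite H] [Finite σ.ker] : Finite Γ := by
  have : Finite (Γ ⧸ σ.ker) := Finite.of_equiv H (QuotientGroup.quotientKerEquivOfSurjective σ hσ).symm.toEquiv
  exact Finite.of_equiv _ (Subgroup.groupEquivQuotientProdSubgroup (s := σ.ker)).symm

theorem exists_cover_over [Finite G] {Δ : Type v} [Group Δ] (τ : Δ →* G)
    (hτ : Cfsg.IsStemExtension τ) :
    ∃ (Γ : Type u) (_ : Group Γ) (_ : Finite Γ) (σ : Γ →* G), Cfsg.IsStemExtension σ ∧
      Nonempty (σ.ker ≃* Mult G) ∧ ∃ β : Γ →* Δ, Function.Surjective β ∧ τ.comp β = σ := by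
  obtain ⟨φ, hφ⟩ := exists_lift τ hτ.1 hτ.2.1
  have hφ' : ∀ x, τ (φ x) = rhoBar G x := fun x => by rw [← MonoidHom.comp_apply, hφ]
  have hmap := map_multSub τ hτ.2.1 φ hφ
  have hkerτ : τ.ker ⊓ commutator Δ = τ.ker := inf_eq_left.mpr hτ.2.2
  rw [hkerτ] at hmap
  have hNcomm : ∀ a ∈ φ.ker ⊓ (rhoBar G).ker, ∀ b ∈ φ.ker ⊓ (rhoBar G).ker, a * b = b * a := by
    intro a ha b _
    have hc := rhoBar_ker_le_center G (Subgroup.mem_inf.mp ha).2
    rw [Subgroup.mem_center_iff] at hc
    exact (hc b).symm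
  obtain ⟨S, hSN, hSq, hSgen⟩ := exists_split (qb G) (φ.ker ⊓ (rhoBar G).ker) hNcomm
  rw [qb_ker] at hSq
  have hSgen' : ∀ x ∈ φ.ker ⊓ (rhoBar G).ker, ∃ y ∈ S, x * y⁻¹ ∈ commutator (Fb G) := by
    intro x hx
    obtain ⟨y, hy, hxy⟩ := hSgen x hx
    rw [qb_ker] at hxy
    exact ⟨y, hy, hxy⟩
  have hSker : S ≤ (rhoBar G).ker := fun x hx => (Subgroup.mem_inf.mp (hSN hx)).2
  have hSφ : S ≤ φ.ker := fun x hx => (Subgroup.mem_inf.mp (hSN hx)).1
  have hSnormal : S.Normal := by
    constructor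
    intro n hn g
    have hc := rhoBar_ker_le_center G (hSker hn)
    rw [Subgroup.mem_center_iff] at hc
    rw [hc g, mul_inv_cancel_right]
    exact hn
  -- decomposition of elements of the kernel of rhoBar
  have hdecomp : ∀ f ∈ (rhoBar G).ker, ∃ c ∈ MultSub G, ∃ y ∈ S, f = c * y := by
    intro f hf
    have h1 : φ f ∈ τ.ker := by rw [MonoidHom.mem_ker, hφ']; exact hf
    rw [← hmap] at h1
    obtain ⟨m, hm, hmf⟩ := h1
    have hm' := Subgroup.mem_inf.mp hm
    have hn : f * m⁻¹ ∈ φ.ker ⊓ (rhoBar G).ker := by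
      refine Subgroup.mem_inf.mpr ⟨?_, ?_⟩
      · rw [MonoidHom.mem_ker, map_mul, map_inv, hmf, mul_inv_cancel]
      · exact Subgroup.mul_mem _ hf (Subgroup.inv_mem _ hm'.1)
    obtain ⟨y, hy, hxy⟩ := hSgen' _ hn
    have hyc := rhoBar_ker_le_center G (hSker hy)
    rw [Subgroup.mem_center_iff] at hyc
    refine ⟨f * m⁻¹ * y⁻¹ * m, Subgroup.mem_inf.mpr ⟨?_, ?_⟩, y, hy, ?_⟩
    · exact Subgroup.mul_mem _ (Subgroup.mul_mem _ (Subgroup.mem_inf.mp hn).2
        (Subgroup.inv_mem _ (hSker hy))) hm'.1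
    · exact Subgroup.mul_mem _ hxy hm'.2
    · rw [mul_assoc (f * m⁻¹ * y⁻¹), hyc m]
      group
  let σ : Fb G ⧸ S →* G := QuotientGroup.lift S (rhoBar G) hSker
  let β : Fb G ⧸ S →* Δ := QuotientGroup.lift S φ hSφ
  have hσmk : ∀ x : Fb G, σ (QuotientGroup.mk x) = rhoBar G x := fun x => rfl
  have hβmk : ∀ x : Fb G, β (QuotientGroup.mk x) = φ x := fun x => rfl
  have hσsurj : Function.Surjective σ := by
    intro g
    obtain ⟨x, hx⟩ := rhoBar_surj G g
    exact ⟨QuotientGroup.mk x, hx⟩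
  have hσstem : Cfsg.IsStemExtension σ := by
    refine ⟨hσsurj, ?_, ?_⟩
    · intro x hx
      induction x using QuotientGroup.induction_on with
      | H f =>
        have hf : f ∈ (rhoBar G).ker := hx
        have hc := rhoBar_ker_le_center G hf
        rw [Subgroup.mem_center_iff] at hc ⊢
        intro y
        induction y using QuotientGroup.induction_on with
        | H g => rw [← QuotientGroup.mk_mul, ← QuotientGroup.mk_mul, hc g]
    · intro x hx
      induction x using QuotientGroup.induction_on with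
      | H f =>
        have hf : f ∈ (rhoBar G).ker := hx
        obtain ⟨c, hc, y, hy, rfl⟩ := hdecomp f hf
        have h1 : (QuotientGroup.mk (c * y) : Fb G ⧸ S) = QuotientGroup.mk' S c := by
          rw [QuotientGroup.mk_mul, (QuotientGroup.eq_one_iff y).mpr hy, mul_one]
          rfl
        rw [h1]
        exact map_commutator_le' (QuotientGroup.mk' S)
          (Subgroup.mem_map_of_mem _ (Subgroup.mem_inf.mp hc).2)
  let j : Mult G →* σ.ker := ((QuotientGroup.mk' S).comp (multVal G)).codRestrict σ.ker (by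
    intro m
    rw [MonoidHom.mem_ker]
    exact (Subgroup.mem_inf.mp (multVal_mem G m)).1)
  have hjinj : Function.Injective j := by
    rw [injective_iff_map_eq_one]
    intro m hm
    have h1 : (QuotientGroup.mk (multVal G m) : Fb G ⧸ S) = 1 := congrArg Subtype.val hm
    rw [QuotientGroup.eq_one_iff] at h1
    have h2 : multVal G m ∈ S ⊓ commutator (Fb G) :=
      Subgroup.mem_inf.mpr ⟨h1, (Subgroup.mem_inf.mp (multVal_mem G m)).2⟩
    rw [hSq, Subgroup.mem_bot] at h2
    exact multVal_injective G (h2.trans (map_one _).symm)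
  have hjsurj : Function.Surjective j := by
    rintro ⟨x, hx⟩
    induction x using QuotientGroup.induction_on with
    | H f =>
      have hf : f ∈ (rhoBar G).ker := hx
      obtain ⟨c, hc, y, hy, rfl⟩ := hdecomp f hf
      obtain ⟨m, rfl⟩ := multVal_surj G c hc
      refine ⟨m, Subtype.ext ?_⟩
      show (QuotientGroup.mk (multVal G m) : Fb G ⧸ S) = QuotientGroup.mk (multVal G m * y)
      rw [QuotientGroup.mk_mul, (QuotientGroup.eq_one_iff y).mpr hy, mul_one]
  have e : σ.ker ≃* Mult G := (MulEquiv.ofBijective j ⟨hjinj, hjsurj⟩).symm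
  have hfinker : Finite σ.ker := Finite.of_equiv _ e.symm.toEquiv
  have hfin : Finite (Fb G ⧸ S) := finite_of_ker_of_surj σ hσsurj
  refine ⟨Fb G ⧸ S, inferInstance, hfin, σ, hσstem, ⟨e⟩, β, ?_, ?_⟩
  · intro d
    obtain ⟨x, hx⟩ := rhoBar_surj G (τ d)
    have h1 : (φ x)⁻¹ * d ∈ τ.ker := by
      rw [MonoidHom.mem_ker, map_mul, map_inv, hφ', hx, inv_mul_cancel]
    rw [← hmap] at h1
    obtain ⟨m, _, hmf⟩ := h1
    refine ⟨QuotientGroup.mk (x * m), ?_⟩
    rw [hβmk, map_mul, hmf]
    group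
  · refine MonoidHom.ext (fun x => ?_)
    induction x using QuotientGroup.induction_on with
    | H f => rw [MonoidHom.comp_apply, hβmk, hφ', hσmk]

end Stem

section Main

theorem id_stem (G : Type u) [Group G] : Cfsg.IsStemExtension (MonoidHom.id G) := by
  refine ⟨Function.surjective_id, ?_, ?_⟩
  · intro x hx
    rw [MonoidHom.mem_ker, MonoidHom.id_apply] at hx
    rw [hx]
    exact Subgroup.one_mem _
  · intro x hx
    rw [MonoidHom.mem_ker, MonoidHom.id_apply] at hx
    rw [hx]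
    exact Subgroup.one_mem _

theorem hasSchurMultiplier_mult (G : Type u) [Group G] [Finite G] :
    Cfsg.HasSchurMultiplier G (Mult G) := by
  constructor
  · obtain ⟨Γ, hg, hf, σ, hσ, he, _⟩ := exists_cover_over (MonoidHom.id G) (id_stem G)
    exact ⟨Γ, hg, hf, σ, hσ, he⟩
  · intro Γ _ _ σ hσ
    exact surj_of_stem σ hσ

theorem mulEquiv_of_hasSchurMultiplier {G : Type u} [Group G] {A : Type v} [CommGroup A]
    (hA : Cfsg.HasSchurMultiplier G A) : Nonempty (A ≃* Mult G) := by
  obtain ⟨⟨Γ, _, _, σ, hσ, ⟨e⟩⟩, hA2⟩ := hA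
  have hG : Finite G := Finite.of_surjective σ hσ.1
  have hAfin : Finite A := Finite.of_equiv _ e.toEquiv
  obtain ⟨f, hf⟩ := surj_of_stem σ hσ
  obtain ⟨⟨Γ₀, _, _, σ₀, hσ₀, ⟨e₀⟩⟩, _⟩ := hasSchurMultiplier_mult G
  obtain ⟨π, hπ⟩ := hA2 Γ₀ σ₀ hσ₀
  have h1 : Nat.card A ≤ Nat.card (Mult G) :=
    Nat.card_le_card_of_surjective (e ∘ f) (e.surjective.comp hf)
  have h2 : Function.Surjective (e₀ ∘ π) := e₀.surjective.comp hπ
  have h3 : Function.Bijective (e₀ ∘ π) := h2.bijective_of_nat_card_le h1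
  exact ⟨MulEquiv.ofBijective (e₀.toMonoidHom.comp π) h3⟩

theorem hasSchurMultiplier_congr {G : Type u} [Group G] {A : Type v} {B : Type w} [CommGroup A]
    [CommGroup B] (hA : Cfsg.HasSchurMultiplier G A) (e : A ≃* B) : Cfsg.HasSchurMultiplier G B := by
  obtain ⟨⟨Γ, hg, hf, σ, hσ, ⟨e'⟩⟩, hA2⟩ := hA
  refine ⟨⟨Γ, hg, hf, σ, hσ, ⟨e'.trans e⟩⟩, ?_⟩
  intro Γ' _ _ σ' hσ'
  obtain ⟨π, hπ⟩ := hA2 Γ' σ' hσ'
  exact ⟨π.comp e.symm.toMonoidHom, hπ.comp e.symm.surjective⟩

theorem surj_of_stem_of_has {G : Type u} [Group G] {A : Type v} [CommGroup A]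
    (hA : Cfsg.HasSchurMultiplier G A) {Γ : Type w} [Group Γ] (σ : Γ →* G)
    (hσ : Cfsg.IsStemExtension σ) : ∃ f : A →* σ.ker, Function.Surjective f := by
  obtain ⟨e⟩ := mulEquiv_of_hasSchurMultiplier hA
  obtain ⟨f, hf⟩ := surj_of_stem σ hσ
  exact ⟨f.comp e.toMonoidHom, hf.comp e.surjective⟩

theorem surj_of_central_of_has {G : Type u} [Group G] {A : Type v} [CommGroup A]
    (hA : Cfsg.HasSchurMultiplier G A) {E : Type w} [Group E] (π : E →* G)
    (hπ : Function.Surjective π) (hker : π.ker ≤ Subgroup.center E) :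
    ∃ f : A →* E, ∀ k : E, k ∈ π.ker ⊓ commutator E ↔ ∃ a, f a = k := by
  obtain ⟨e⟩ := mulEquiv_of_hasSchurMultiplier hA
  obtain ⟨f, hf⟩ := surj_of_central π hπ hker
  refine ⟨f.comp e.toMonoidHom, ?_⟩
  intro k
  rw [hf k]
  constructor
  · rintro ⟨m, rfl⟩
    exact ⟨e.symm m, by simp⟩
  · rintro ⟨a, rfl⟩
    exact ⟨e a, rfl⟩

theorem exists_cover_over_of_has {G : Type u} [Group G] {A : Type v} [CommGroup A]
    (hA : Cfsg.HasSchurMultiplier G A) {Δ : Type w} [Group Δ] (τ : Δ →* G)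
    (hτ : Cfsg.IsStemExtension τ) :
    ∃ (Γ : Type u) (_ : Group Γ) (_ : Finite Γ) (σ : Γ →* G), Cfsg.IsStemExtension σ ∧
      Nonempty (σ.ker ≃* A) ∧ ∃ β : Γ →* Δ, Function.Surjective β ∧ τ.comp β = σ := by
  obtain ⟨e⟩ := mulEquiv_of_hasSchurMultiplier hA
  have hG : Finite G := by
    obtain ⟨⟨Γ, _, _, σ, hσ, _⟩, _⟩ := hA
    exact Finite.of_surjective σ hσ.1
  obtain ⟨Γ, hg, hf, σ, hσ, ⟨e'⟩, β, hβ, hβσ⟩ := exists_cover_over τ hτ
  exact ⟨Γ, hg, hf, σ, hσ, ⟨e'.trans e.symm⟩, β, hβ, hβσ⟩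

theorem exists_copy (H : Type u) [Group H] [Finite H] :
    ∃ (H' : Type v) (_ : Group H') (_ : Finite H'), Nonempty (H' ≃* H) := by
  obtain ⟨n, ⟨e⟩⟩ := Finite.exists_equiv_fin H
  let e' : ULift.{v} (Fin n) ≃ H := Equiv.ulift.trans e.symm
  let _ : Group (ULift.{v} (Fin n)) := e'.group
  exact ⟨ULift.{v} (Fin n), inferInstance, inferInstance, ⟨e'.mulEquiv⟩⟩

theorem subsingleton_mult_of_trivial {G : Type u} [Group G]
    (hG : Cfsg.HasCyclicSchurMultiplier G 1) : Subsingleton (Mult G) := by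
  obtain ⟨e⟩ := mulEquiv_of_hasSchurMultiplier hG
  have : Subsingleton (Multiplicative (ZMod 1)) := inferInstanceAs (Subsingleton (ZMod 1))
  exact e.symm.toEquiv.subsingleton

end Main

end Cfsg.Agent.Lib.Helper21.SchurCover
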