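import Mathlib
import Cfsg.Prelude.Def_KGroupFacts
import Cfsg.Agent.Lib.Helper21.SchurBasic
import Cfsg.Agent.Lib.Helper21.SchurCover

set_option autoImplicit false

namespace Cfsg.Agent.Lib.Helper21.SchurProj

universe u v w w'

open scoped commutatorElement
open Cfsg.Agent.Lib.Helper21.SchurCover Cfsg.Agent.Lib.Helper21.SchurBasic

theorem exists_factor {G₁ : Type u} {G₂ : Type v} {G₃ : Type w} [Group G₁] [Group G₂] [Group G₃]
    (f : G₁ →* G₂) (hf : Function.Surjective f) (g : G₁ →* G₃) (hg : f.ker ≤ g.ker) :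
    ∃ h : G₂ →* G₃, h.comp f = g :=
  ⟨f.liftOfRightInverse (Function.surjInv hf) (Function.rightInverse_surjInv hf) ⟨g, hg⟩,
    f.liftOfRightInverse_comp (Function.surjInv hf) (Function.rightInverse_surjInv hf) ⟨g, hg⟩⟩

/-- In a Schur cover, the lift from `Fb Q` is surjective and injective on `Fb Q' ∩ ker`. -/
theorem cover_lift_props {Q : Type u} [Group Q] {A : Type v} [CommGroup A]
    (hA : Cfsg.HasSchurMultiplier Q A)
    {Γ : Type w} [Group Γ] (σ : Γ →* Q) (hσ : Cfsg.IsStemExtension σ)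
    (hk : Nonempty (σ.ker ≃* A)) (φΓ : Fb Q →* Γ) (hφΓ : σ.comp φΓ = rhoBar Q) :
    Function.Surjective φΓ ∧ ∀ s : Fb Q, φΓ s = 1 → s ∈ commutator (Fb Q) → s = 1 := by
  have hQfin : Finite Q := finite_of_hasSchurMultiplier hA
  obtain ⟨e⟩ := hk
  obtain ⟨eM⟩ := mulEquiv_of_hasSchurMultiplier hA
  obtain ⟨hsurj, hcen, hcomm⟩ := hσ
  have hφΓ' : ∀ x, σ (φΓ x) = rhoBar Q x := fun x => by rw [← hφΓ]; rfl
  have hcm := commutator_le_map σ hcen φΓ hφΓ
  have hφΓs : Function.Surjective φΓ := by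
    intro x
    obtain ⟨y, hy⟩ := rhoBar_surj Q (σ x)
    have h1 : (φΓ y)⁻¹ * x ∈ σ.ker := by
      rw [MonoidHom.mem_ker, map_mul, map_inv, hφΓ', hy, inv_mul_cancel]
    obtain ⟨c, _, hc⟩ := hcm (hcomm h1)
    exact ⟨y * c, by rw [map_mul, hc]; group⟩
  refine ⟨hφΓs, ?_⟩
  have hmap := map_multSub σ hcen φΓ hφΓ
  rw [inf_eq_left.mpr hcomm] at hmap
  have hr_mem : ∀ m : Mult Q, φΓ (multVal Q m) ∈ σ.ker := by
    intro m
    rw [← hmap]
    exact Subgroup.mem_map_of_mem _ (multVal_mem Q m)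
  let r : Mult Q →* σ.ker := (φΓ.comp (multVal Q)).codRestrict σ.ker hr_mem
  have hrs : Function.Surjective r := by
    intro k
    have : (k : Γ) ∈ (MultSub Q).map φΓ := by rw [hmap]; exact k.2
    obtain ⟨x, hx, hxk⟩ := this
    obtain ⟨m, rfl⟩ := multVal_surj Q x hx
    exact ⟨m, Subtype.ext hxk⟩
  have hcard : Nat.card (Mult Q) ≤ Nat.card σ.ker := by
    rw [Nat.card_congr (e.trans eM).toEquiv]
  have hri : Function.Injective r := (hrs.bijective_of_nat_card_le hcard).1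
  intro s hs hc
  have hsk : s ∈ (rhoBar Q).ker := by rw [MonoidHom.mem_ker, ← hφΓ', hs, map_one]
  obtain ⟨m, rfl⟩ := multVal_surj Q s (Subgroup.mem_inf.mpr ⟨hsk, hc⟩)
  have h1 : r m = 1 := Subtype.ext hs
  have h2 : m = 1 := hri (h1.trans (map_one r).symm)
  rw [h2, map_one]

open scoped IsMulCommutative in
theorem exists_hom_of_divisible_aux {Q : Type u} [Group Q] {A : Type v} [CommGroup A]
    (hA : Cfsg.HasSchurMultiplier Q A)
    {Γ : Type w} [Group Γ] (σ : Γ →* Q) (hσ : Cfsg.IsStemExtension σ)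
    (hk : Nonempty (σ.ker ≃* A))
    {E : Type w'} [Group E] (π : E →* Q) (hπ : Function.Surjective π)
    (hπc : π.ker ≤ Subgroup.center E) [IsMulCommutative π.ker]
    (hdiv : ∀ (n : ℤ), n ≠ 0 → ∀ k : π.ker, ∃ w : π.ker, w ^ n = k) :
    ∃ η : Γ →* E, π.comp η = σ := by
  obtain ⟨φ, hφ⟩ := exists_lift π hπ hπc
  obtain ⟨φΓ, hφΓ⟩ := exists_lift σ hσ.1 hσ.2.1
  have hφ' : ∀ x, π (φ x) = rhoBar Q x := fun x => by rw [← hφ]; rfl
  have hφΓ' : ∀ x, σ (φΓ x) = rhoBar Q x := fun x => by rw [← hφΓ]; rfl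
  obtain ⟨hφΓs, hS⟩ := cover_lift_props hA σ hσ hk φΓ hφΓ
  have hζmem : ∀ s : φΓ.ker, φ (s : Fb Q) ∈ π.ker := by
    intro s
    rw [MonoidHom.mem_ker, hφ', ← hφΓ']
    have : φΓ (s : Fb Q) = 1 := s.2
    rw [this, map_one]
  let ζ : φΓ.ker →* π.ker := (φ.comp φΓ.ker.subtype).codRestrict π.ker hζmem
  let ι : φΓ.ker →* Abelianization (Fb Q) := Abelianization.of.comp φΓ.ker.subtype
  have hι : Function.Injective ι := by
    rw [injective_iff_map_eq_one]
    intro s hs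
    have h1 : (s : Fb Q) ∈ commutator (Fb Q) := by
      rw [← Abelianization.ker_of]; exact hs
    exact Subtype.ext (hS s.1 s.2 h1)
  let eι : φΓ.ker ≃* ι.range := MonoidHom.ofInjective hι
  let ζ' : ι.range →* π.ker := ζ.comp eι.symm.toMonoidHom
  let _ : DivisibleBy (Additive π.ker) ℤ := divisibleByOfSMulRightSurj _ _ (fun {n} hn a => by
    obtain ⟨w, hw⟩ := hdiv n hn (Additive.toMul a)
    exact ⟨Additive.ofMul w, congrArg Additive.ofMul hw⟩)
  have hBaer := Module.Baer.of_divisible (Additive π.ker)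
  obtain ⟨h, hh⟩ := hBaer.extension_property_addMonoidHom (MonoidHom.toAdditive ι.range.subtype)
    (fun a b hab => Subtype.val_injective hab) (MonoidHom.toAdditive ζ')
  let χ₀ : Abelianization (Fb Q) →* π.ker := MonoidHom.toAdditive.symm h
  have hχ₀ : ∀ s : φΓ.ker, χ₀ (Abelianization.of (s : Fb Q)) = ζ s := by
    intro s
    have h1 := congrArg (fun f => f (Additive.ofMul (eι s))) hh
    have h2 : ζ' (eι s) = ζ s := by
      show ζ (eι.symm (eι s)) = ζ s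
      rw [MulEquiv.symm_apply_apply]
    have h3 : h (Additive.ofMul (Abelianization.of (s : Fb Q))) = Additive.ofMul (ζ' (eι s)) := h1
    show Additive.toMul (h (Additive.ofMul (Abelianization.of (s : Fb Q)))) = ζ s
    rw [h3, ← h2]
    rfl
  let χ : Fb Q →* π.ker := χ₀.comp Abelianization.of
  have hχc : ∀ x (g : E), g * ((χ x : E))⁻¹ = ((χ x : E))⁻¹ * g := by
    intro x g
    have hz := hπc (π.ker.inv_mem (χ x).2)
    rw [Subgroup.mem_center_iff] at hz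
    exact hz g
  let ψ : Fb Q →* E := MonoidHom.mk' (fun x => φ x * ((χ x : E))⁻¹) (by
    intro x y
    show φ (x * y) * ((χ (x * y) : E))⁻¹ = φ x * ((χ x : E))⁻¹ * (φ y * ((χ y : E))⁻¹)
    rw [map_mul, map_mul, Subgroup.coe_mul, mul_inv_rev, mul_assoc (φ x) ((χ x : E))⁻¹,
      ← hχc x (φ y * ((χ y : E))⁻¹)]
    group)
  have hψ : ∀ x, ψ x = φ x * ((χ x : E))⁻¹ := fun x => rfl
  have hψS : φΓ.ker ≤ ψ.ker := by
    intro s hs
    rw [MonoidHom.mem_ker, hψ]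
    have h1 : χ s = ζ ⟨s, hs⟩ := hχ₀ ⟨s, hs⟩
    have h2 : ((ζ ⟨s, hs⟩ : π.ker) : E) = φ s := rfl
    rw [h1, h2, mul_inv_cancel]
  have hψπ : ∀ x, π (ψ x) = rhoBar Q x := by
    intro x
    rw [hψ, map_mul, map_inv, hφ']
    have : π (χ x : E) = 1 := (χ x).2
    rw [this, inv_one, mul_one]
  obtain ⟨η, hη⟩ := exists_factor φΓ hφΓs ψ hψS
  refine ⟨η, ?_⟩
  refine MonoidHom.ext (fun x => ?_)
  obtain ⟨y, rfl⟩ := hφΓs x
  rw [MonoidHom.comp_apply, ← MonoidHom.comp_apply η, hη, hψπ, hφΓ']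

theorem exists_hom_of_divisible {Q : Type u} [Group Q] {A : Type v} [CommGroup A]
    (hA : Cfsg.HasSchurMultiplier Q A)
    {Γ : Type w} [Group Γ] (σ : Γ →* Q) (hσ : Cfsg.IsStemExtension σ)
    (hk : Nonempty (σ.ker ≃* A))
    {E : Type w'} [Group E] (π : E →* Q) (hπ : Function.Surjective π)
    (hπc : π.ker ≤ Subgroup.center E)
    (hdiv : ∀ (n : ℤ), n ≠ 0 → ∀ k : π.ker, ∃ w : π.ker, w ^ n = k) :
    ∃ η : Γ →* E, π.comp η = σ := by
  have : IsMulCommutative π.ker := ⟨⟨fun a b => by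
    have ha := hπc a.2
    rw [Subgroup.mem_center_iff] at ha
    exact Subtype.ext (ha b.1).symm⟩⟩
  exact exists_hom_of_divisible_aux hA σ hσ hk π hπ hπc hdiv


theorem units_zpow_surj (n : ℤ) (hn : n ≠ 0) (u : ℂˣ) : ∃ v : ℂˣ, v ^ n = u := by
  have key : ∀ (N : ℕ), 0 < N → ∀ u : ℂˣ, ∃ v : ℂˣ, v ^ N = u := by
    intro N hN u
    obtain ⟨z, hz⟩ := IsAlgClosed.exists_pow_nat_eq (u : ℂ) hN
    have hz0 : z ≠ 0 := by
      rintro rfl
      rw [zero_pow hN.ne'] at hz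
      exact u.ne_zero hz.symm
    exact ⟨Units.mk0 z hz0, Units.ext (by simpa using hz)⟩
  rcases Int.natAbs_eq n with h | h
  · obtain ⟨v, hv⟩ := key n.natAbs (Int.natAbs_pos.mpr hn) u
    exact ⟨v, by rw [h, zpow_natCast, hv]⟩
  · obtain ⟨v, hv⟩ := key n.natAbs (Int.natAbs_pos.mpr hn) u⁻¹
    exact ⟨v, by rw [h, zpow_neg, zpow_natCast, hv, inv_inv]⟩

theorem lift_projective {Q : Type u} [Group Q] {A : Type v} [CommGroup A]
    (hA : Cfsg.HasSchurMultiplier Q A)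
    {Γ : Type w} [Group Γ] (σ : Γ →* Q) (hσ : Cfsg.IsStemExtension σ)
    (hk : Nonempty (σ.ker ≃* A)) (n : ℕ)
    (γ : Q →* (GL (Fin n) ℂ ⧸ Subgroup.center (GL (Fin n) ℂ))) :
    ∃ ρ : Γ →* GL (Fin n) ℂ,
      (QuotientGroup.mk' (Subgroup.center (GL (Fin n) ℂ))).comp ρ = γ.comp σ := by
  let P : Subgroup (Q × GL (Fin n) ℂ) :=
    (γ.comp (MonoidHom.fst Q (GL (Fin n) ℂ))).eqLocus
      ((QuotientGroup.mk' (Subgroup.center (GL (Fin n) ℂ))).comp
        (MonoidHom.snd Q (GL (Fin n) ℂ)))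
  let p1 : P →* Q := (MonoidHom.fst Q _).comp P.subtype
  let p2 : P →* GL (Fin n) ℂ := (MonoidHom.snd Q _).comp P.subtype
  have hP : ∀ y : P, γ (p1 y) = QuotientGroup.mk' (Subgroup.center (GL (Fin n) ℂ)) (p2 y) :=
    fun y => y.2
  have hp1 : Function.Surjective p1 := by
    intro q
    obtain ⟨g, hg⟩ := QuotientGroup.mk'_surjective (Subgroup.center (GL (Fin n) ℂ)) (γ q)
    exact ⟨⟨(q, g), hg.symm⟩, rfl⟩
  have hker : ∀ y : P, y ∈ p1.ker → p2 y ∈ Subgroup.center (GL (Fin n) ℂ) := by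
    intro y hy
    rw [MonoidHom.mem_ker] at hy
    have := hP y
    rw [hy, map_one] at this
    exact (QuotientGroup.eq_one_iff _).mp this.symm
  have hp1c : p1.ker ≤ Subgroup.center P := by
    intro y hy
    have h3 := hker y hy
    rw [MonoidHom.mem_ker] at hy
    rw [Subgroup.mem_center_iff] at h3 ⊢
    intro z
    apply Subtype.ext
    apply Prod.ext
    · show p1 z * p1 y = p1 y * p1 z
      rw [hy, mul_one, one_mul]
    · exact h3 (p2 z)
  have hdiv : ∀ (m : ℤ), m ≠ 0 → ∀ k : p1.ker, ∃ w : p1.ker, w ^ m = k := by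
    intro m hm k
    have hc := hker k.1 k.2
    rw [Matrix.GeneralLinearGroup.center_eq_range_scalar] at hc
    obtain ⟨u, hu⟩ := hc
    obtain ⟨v, hv⟩ := units_zpow_surj m hm u
    have hwP : ((1 : Q), Matrix.GeneralLinearGroup.scalar (Fin n) v) ∈ P := by
      show γ 1 = QuotientGroup.mk' (Subgroup.center (GL (Fin n) ℂ))
        (Matrix.GeneralLinearGroup.scalar (Fin n) v)
      rw [map_one]
      symm
      rw [QuotientGroup.mk'_apply, QuotientGroup.eq_one_iff,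
        Matrix.GeneralLinearGroup.center_eq_range_scalar]
      exact ⟨v, rfl⟩
    have hwk : (⟨_, hwP⟩ : P) ∈ p1.ker := rfl
    refine ⟨⟨⟨_, hwP⟩, hwk⟩, ?_⟩
    apply Subtype.ext
    apply Subtype.ext
    apply Prod.ext
    · show p1 ((⟨⟨_, hwP⟩, hwk⟩ : p1.ker) ^ m : p1.ker) = p1 k
      rw [Subgroup.coe_zpow, map_zpow]
      have h1 : p1 (⟨_, hwP⟩ : P) = 1 := rfl
      have h2 : p1 (k : P) = 1 := k.2
      show (p1 (⟨_, hwP⟩ : P)) ^ m = p1 (k : P)
      rw [h1, h2, one_zpow]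
    · show p2 ((⟨⟨_, hwP⟩, hwk⟩ : p1.ker) ^ m : p1.ker) = p2 k
      rw [Subgroup.coe_zpow, map_zpow]
      show (Matrix.GeneralLinearGroup.scalar (Fin n) v) ^ m = p2 (k : P)
      rw [← map_zpow, hv, hu]
  obtain ⟨η, hη⟩ := exists_hom_of_divisible hA σ hσ hk p1 hp1 hp1c hdiv
  refine ⟨p2.comp η, ?_⟩
  refine MonoidHom.ext (fun x => ?_)
  show QuotientGroup.mk' (Subgroup.center (GL (Fin n) ℂ)) (p2 (η x)) = γ (σ x)
  rw [← hP, ← hη]
  rfl

end Cfsg.Agent.Lib.Helper21.SchurProj
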