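import Mathlib
import Cfsg.Prelude.Def_KGroupFacts
import Cfsg.Agent.Lib.Helper21.SchurBasic
import Cfsg.Agent.Lib.Helper21.SchurCover
import Cfsg.Agent.Lib.Helper21.SchurProj

set_option autoImplicit false

namespace Cfsg.Agent.Lib.Helper21.SchurInd

universe u v w w'

open scoped commutatorElement
open Cfsg.Agent.Lib.Helper21.SchurCover Cfsg.Agent.Lib.Helper21.SchurBasic
open Cfsg.Agent.Lib.Helper21.SchurProj

section Induced

variable {G : Type u} [Group G]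

def indSub (Z : Subgroup G) (χ : Z →* ℂˣ) : Submodule ℂ (G → ℂ) where
  carrier := {f | ∀ (z : Z) (x : G), f (z * x) = (χ z : ℂ) * f x}
  add_mem' := by
    intro f g hf hg z x
    simp only [Pi.add_apply, hf z x, hg z x, mul_add]
  zero_mem' := by
    intro z x
    simp
  smul_mem' := by
    intro c f hf z x
    simp only [Pi.smul_apply, smul_eq_mul, hf z x]
    ring

def indT (Z : Subgroup G) (χ : Z →* ℂˣ) (g : G) : indSub Z χ →ₗ[ℂ] indSub Z χ :=
  (LinearMap.funLeft ℂ ℂ (fun x : G => x * g)).restrict (by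
    intro f hf z x
    simp only [LinearMap.funLeft_apply]
    rw [mul_assoc]
    exact hf z (x * g))

theorem indT_apply (Z : Subgroup G) (χ : Z →* ℂˣ) (g : G) (f : indSub Z χ) (x : G) :
    (indT Z χ g f : G → ℂ) x = (f : G → ℂ) (x * g) := rfl

def indHom (Z : Subgroup G) (χ : Z →* ℂˣ) : G →* Module.End ℂ (indSub Z χ) where
  toFun := indT Z χ
  map_one' := by
    ext f x
    simp [indT_apply]
  map_mul' := by
    intro g h
    ext f x
    simp [indT_apply, mul_assoc]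

theorem indHom_central (Z : Subgroup G) (hZ : Z ≤ Subgroup.center G) (χ : Z →* ℂˣ) (z : Z) :
    indHom Z χ z = (χ z : ℂ) • (1 : Module.End ℂ (indSub Z χ)) := by
  ext f x
  show (f : G → ℂ) (x * z) = (χ z : ℂ) * (f : G → ℂ) x
  have hz := hZ z.2
  rw [Subgroup.mem_center_iff] at hz
  rw [hz x]
  exact f.2 z x

theorem indSub_ne_bot (Z : Subgroup G) (χ : Z →* ℂˣ) : indSub Z χ ≠ ⊥ := by
  classical
  intro h
  let f : G → ℂ := fun x => if hx : x ∈ Z then (χ ⟨x, hx⟩ : ℂ) else 0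
  have hf : f ∈ indSub Z χ := by
    intro z x
    by_cases hx : x ∈ Z
    · have hzx : (z : G) * x ∈ Z := Z.mul_mem z.2 hx
      simp only [f, dif_pos hx, dif_pos hzx]
      have : (⟨(z : G) * x, hzx⟩ : Z) = z * ⟨x, hx⟩ := rfl
      rw [this, map_mul, Units.val_mul]
    · have hzx : (z : G) * x ∉ Z := fun h' => hx (by simpa using Z.mul_mem (Z.inv_mem z.2) h')
      simp only [f, dif_neg hx, dif_neg hzx, mul_zero]
  rw [h, Submodule.mem_bot] at hf
  have h1 : f 1 = 0 := by rw [hf]; rfl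
  simp only [f, dif_pos Z.one_mem] at h1
  have h2 : (⟨1, Z.one_mem⟩ : Z) = 1 := rfl
  rw [h2, map_one] at h1
  exact one_ne_zero h1

theorem exists_rep_central_character [Finite G] (Z : Subgroup G) (hZ : Z ≤ Subgroup.center G)
    (χ : Z →* ℂˣ) :
    ∃ (n : ℕ) (_ : 0 < n) (ρ₀ : G →* GL (Fin n) ℂ),
      ∀ z : Z, ρ₀ z = Matrix.GeneralLinearGroup.scalar (Fin n) (χ z) := by
  classical
  have hnt : Nontrivial (indSub Z χ) := (Submodule.nontrivial_iff_ne_bot).mpr (indSub_ne_bot Z χ)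
  have hn : 0 < Module.finrank ℂ (indSub Z χ) := Module.finrank_pos
  let b : Module.Basis (Fin (Module.finrank ℂ (indSub Z χ))) ℂ (indSub Z χ) :=
    Module.finBasis ℂ (indSub Z χ)
  let Mh : G →* Matrix (Fin (Module.finrank ℂ (indSub Z χ)))
      (Fin (Module.finrank ℂ (indSub Z χ))) ℂ :=
    (MonoidHomClass.toMonoidHom (LinearMap.toMatrixAlgEquiv b)).comp (indHom Z χ)
  refine ⟨_, hn, Mh.toHomUnits, ?_⟩
  intro z
  apply Units.ext
  show LinearMap.toMatrixAlgEquiv b (indHom Z χ z) = Matrix.scalar _ (χ z : ℂ)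
  rw [indHom_central Z hZ χ z, map_smul, map_one, Matrix.smul_one_eq_diagonal]
  rfl

end Induced


theorem homs_agree_on_commutator {G : Type u} {H : Type v} [Group G] [Group H] (α β : G →* H)
    (h : ∀ x, (β x)⁻¹ * α x ∈ Subgroup.center H) : ∀ c ∈ commutator G, α c = β c := by
  have h1 : commutator G ≤ α.eqLocus β := by
    rw [commutator_eq_closure, Subgroup.closure_le]
    rintro x ⟨a, b, rfl⟩
    show α ⁅a, b⁆ = β ⁅a, b⁆
    rw [map_commutatorElement, map_commutatorElement]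
    have ea : α a = β a * ((β a)⁻¹ * α a) := by group
    have eb : α b = β b * ((β b)⁻¹ * α b) := by group
    rw [ea, eb, commutatorElement_mul_central _ _ _ _ (h a) (h b)]
  intro c hc
  exact h1 hc

theorem scalar_eq_one {n : ℕ} (hn : 0 < n) (u : ℂˣ)
    (h : Matrix.GeneralLinearGroup.scalar (Fin n) u = 1) : u = 1 := by
  have h1 : ((Matrix.GeneralLinearGroup.scalar (Fin n) u : GL (Fin n) ℂ) :
      Matrix (Fin n) (Fin n) ℂ) ⟨0, hn⟩ ⟨0, hn⟩ = (1 : Matrix (Fin n) (Fin n) ℂ) ⟨0, hn⟩ ⟨0, hn⟩ := by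
    rw [h]; rfl
  have h2 : ((Matrix.GeneralLinearGroup.scalar (Fin n) u : GL (Fin n) ℂ) :
      Matrix (Fin n) (Fin n) ℂ) = Matrix.scalar (Fin n) (u : ℂ) := rfl
  rw [h2] at h1
  simp at h1
  exact h1

theorem ker_surj_of_lifting {Q : Type u} [Group Q] [Finite Q] {Γ : Type v} [Group Γ]
    (σ : Γ →* Q) (hσ : Cfsg.IsStemExtension σ)
    (hlift : ∀ (n : ℕ) (γ : Q →* (GL (Fin n) ℂ ⧸ Subgroup.center (GL (Fin n) ℂ))),
      ∃ ρ : Γ →* GL (Fin n) ℂ,
        (QuotientGroup.mk' (Subgroup.center (GL (Fin n) ℂ))).comp ρ = γ.comp σ) :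
    Nonempty (Mult Q ≃* σ.ker) := by
  obtain ⟨φΓ, hφΓ⟩ := exists_lift σ hσ.1 hσ.2.1
  have hφΓ' : ∀ x, σ (φΓ x) = rhoBar Q x := fun x => by rw [← hφΓ]; rfl
  have hmap := map_multSub σ hσ.2.1 φΓ hφΓ
  rw [inf_eq_left.mpr hσ.2.2] at hmap
  have hr_mem : ∀ m : Mult Q, φΓ (multVal Q m) ∈ σ.ker := by
    intro m
    rw [← hmap]
    exact Subgroup.mem_map_of_mem _ (multVal_mem Q m)
  let r : Mult Q →* σ.ker := (φΓ.comp (multVal Q)).codRestrict σ.ker hr_mem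
  have hrs : Function.Surjective r := by
    intro k
    have : (k : Γ) ∈ (MultSub Q).map φΓ := by rw [hmap]; exact k.2
    obtain ⟨x, hx, hxk⟩ := this
    obtain ⟨m, rfl⟩ := multVal_surj Q x hx
    exact ⟨m, Subtype.ext hxk⟩
  have hri : Function.Injective r := by
    rw [injective_iff_map_eq_one]
    intro m hm
    by_contra hm1
    have hm' : φΓ (multVal Q m) = 1 := congrArg Subtype.val hm
    obtain ⟨⟨Γ₀, _, _, σ₀, hσ₀, hk₀⟩, _⟩ := hasSchurMultiplier_mult Q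
    obtain ⟨φ₀, hφ₀⟩ := exists_lift σ₀ hσ₀.1 hσ₀.2.1
    obtain ⟨_, hS₀⟩ := cover_lift_props (hasSchurMultiplier_mult Q) σ₀ hσ₀ hk₀ φ₀ hφ₀
    have hφ₀' : ∀ x, σ₀ (φ₀ x) = rhoBar Q x := fun x => by rw [← hφ₀]; rfl
    have hz₀k : φ₀ (multVal Q m) ∈ σ₀.ker := by
      rw [MonoidHom.mem_ker, hφ₀']
      exact (Subgroup.mem_inf.mp (multVal_mem Q m)).1
    have hz₀ : (⟨φ₀ (multVal Q m), hz₀k⟩ : σ₀.ker) ≠ 1 := by
      intro h
      have h1 : φ₀ (multVal Q m) = 1 := congrArg Subtype.val h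
      have h2 := hS₀ _ h1 (Subgroup.mem_inf.mp (multVal_mem Q m)).2
      exact hm1 (multVal_injective Q (h2.trans (map_one _).symm))
    obtain ⟨e₀⟩ := hk₀
    have hne : NeZero ((Monoid.exponent (Mult Q) : ℕ) : ℂ) :=
      ⟨Nat.cast_ne_zero.mpr Monoid.exponent_ne_zero_of_finite⟩
    have hez : e₀ ⟨φ₀ (multVal Q m), hz₀k⟩ ≠ 1 := by
      intro h
      exact hz₀ (e₀.injective (h.trans (map_one e₀).symm))
    obtain ⟨lam, hlam⟩ := CommGroup.exists_apply_ne_one_of_hasEnoughRootsOfUnity (Mult Q) ℂ hez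
    obtain ⟨n, hn, ρ₀, hρ₀⟩ :=
      exists_rep_central_character σ₀.ker hσ₀.2.1 (lam.comp e₀.toMonoidHom)
    have hle : σ₀.ker ≤ ((QuotientGroup.mk' (Subgroup.center (GL (Fin n) ℂ))).comp ρ₀).ker := by
      intro z hz
      rw [MonoidHom.mem_ker, MonoidHom.comp_apply, hρ₀ ⟨z, hz⟩, QuotientGroup.mk'_apply,
        QuotientGroup.eq_one_iff, Matrix.GeneralLinearGroup.center_eq_range_scalar]
      exact ⟨_, rfl⟩
    obtain ⟨γ, hγ⟩ := exists_factor σ₀ hσ₀.1 _ hle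
    obtain ⟨ρ, hρ⟩ := hlift n γ
    have hcmp : ∀ x : Fb Q, QuotientGroup.mk' (Subgroup.center (GL (Fin n) ℂ)) (ρ₀ (φ₀ x)) =
        QuotientGroup.mk' (Subgroup.center (GL (Fin n) ℂ)) (ρ (φΓ x)) := by
      intro x
      have h1 : QuotientGroup.mk' (Subgroup.center (GL (Fin n) ℂ)) (ρ (φΓ x)) = γ (σ (φΓ x)) :=
        congrArg (fun f => f (φΓ x)) hρ
      have h2 : γ (σ₀ (φ₀ x)) = QuotientGroup.mk' (Subgroup.center (GL (Fin n) ℂ)) (ρ₀ (φ₀ x)) :=
        congrArg (fun f => f (φ₀ x)) hγ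
      rw [h1, hφΓ', ← hφ₀', h2]
    have hμc : ∀ x, ((ρ₀.comp φ₀) x)⁻¹ * (ρ.comp φΓ) x ∈ Subgroup.center (GL (Fin n) ℂ) :=
      fun x => QuotientGroup.eq.mp (hcmp x)
    have key := homs_agree_on_commutator (ρ.comp φΓ) (ρ₀.comp φ₀) hμc (multVal Q m)
      (Subgroup.mem_inf.mp (multVal_mem Q m)).2
    rw [MonoidHom.comp_apply, MonoidHom.comp_apply, hm', map_one] at key
    have h3 := hρ₀ ⟨φ₀ (multVal Q m), hz₀k⟩
    have h4 : ρ₀ (φ₀ (multVal Q m)) = 1 := key.symm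
    have h5 : Matrix.GeneralLinearGroup.scalar (Fin n)
        ((lam.comp e₀.toMonoidHom) ⟨φ₀ (multVal Q m), hz₀k⟩) = 1 := by
      rw [← h3]; exact h4
    exact hlam (scalar_eq_one hn _ h5)
  exact ⟨MulEquiv.ofBijective r ⟨hri, hrs⟩⟩

end Cfsg.Agent.Lib.Helper21.SchurInd
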