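import Mathlib
import Cfsg.Prelude.Def_KGroupFacts
import Cfsg.Agent.Lib.Helper21.SchurCover

set_option autoImplicit false

namespace Cfsg.Agent.Lib.Helper21.SchurPres

universe u v w

open scoped commutatorElement
open Cfsg.Agent.Lib.Helper21.SchurCover

section General

variable {E : Type u} {Γ : Type v} {G : Type w} [Group E] [Group Γ] [Group G]

theorem map_ker_inf_commutator (ρ : E →* G) (hρ : Function.Surjective ρ) (σ : Γ →* G)
    (hσc : σ.ker ≤ Subgroup.center Γ) (φ : E →* Γ) (hφ : σ.comp φ = ρ) :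
    (ρ.ker ⊓ commutator E).map φ = σ.ker ⊓ commutator Γ := by
  have hφ' : ∀ x, σ (φ x) = ρ x := fun x => by rw [← hφ]; rfl
  have hcover : ∀ g : Γ, ∃ x : E, ∃ z ∈ Subgroup.center Γ, g = φ x * z := by
    intro g
    obtain ⟨x, hx⟩ := hρ (σ g)
    refine ⟨x, (φ x)⁻¹ * g, hσc ?_, by group⟩
    rw [MonoidHom.mem_ker, map_mul, map_inv, hφ', hx, inv_mul_cancel]
  have hcomm : commutator Γ ≤ (commutator E).map φ := by
    rw [commutator_eq_closure, Subgroup.closure_le]
    rintro c ⟨a, b, rfl⟩
    obtain ⟨x, z, hz, rfl⟩ := hcover a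
    obtain ⟨y, t, ht, rfl⟩ := hcover b
    rw [commutatorElement_mul_central _ _ _ _ hz ht, ← map_commutatorElement]
    exact Subgroup.mem_map_of_mem φ
      (Subgroup.commutator_mem_commutator (Subgroup.mem_top _) (Subgroup.mem_top _))
  apply le_antisymm
  · rintro _ ⟨m, hm, rfl⟩
    have hm' := Subgroup.mem_inf.mp hm
    refine Subgroup.mem_inf.mpr ⟨?_, map_commutator_le' φ (Subgroup.mem_map_of_mem φ hm'.2)⟩
    rw [MonoidHom.mem_ker, hφ']
    exact hm'.1
  · intro k hk
    have hk' := Subgroup.mem_inf.mp hk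
    obtain ⟨c, hc, rfl⟩ := hcomm hk'.2
    refine ⟨c, Subgroup.mem_inf.mpr ⟨?_, hc⟩, rfl⟩
    rw [MonoidHom.mem_ker, ← hφ']
    exact hk'.1

end General

theorem ker_finrank {V W : Type*} [AddCommGroup V] [AddCommGroup W] [Module.Free ℤ V]
    [Module.Finite ℤ V] [Module.Free ℤ W] [Module.Finite ℤ W]
    (L : V →ₗ[ℤ] W) (e : ℕ) (he : e ≠ 0) (h : ∀ w : W, ∃ v : V, L v = e • w) :
    Module.finrank ℤ (LinearMap.ker L) + Module.finrank ℤ W = Module.finrank ℤ V := by
  have h1 : Module.finrank ℤ (LinearMap.range L) = Module.finrank ℤ W := by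
    apply le_antisymm (Submodule.finrank_le _)
    let f : W →ₗ[ℤ] LinearMap.range L :=
      (LinearMap.lsmul ℤ W (e : ℤ)).codRestrict (LinearMap.range L) (fun w => by
        obtain ⟨v, hv⟩ := h w
        exact ⟨v, by simp [hv]⟩)
    have hf : Function.Injective f := by
      intro a b hab
      have : (e : ℤ) • a = (e : ℤ) • b := congrArg Subtype.val hab
      exact smul_right_injective W (Int.natCast_ne_zero.mpr he) this
    exact LinearMap.finrank_le_finrank_of_injective hf
  have h2 := Submodule.finrank_quotient_add_finrank (LinearMap.ker L)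
  have h3 := LinearEquiv.finrank_eq L.quotKerEquivRange
  omega

section Free

variable (α : Type u)

noncomputable def qFree : FreeGroup α →* Multiplicative (α →₀ ℤ) :=
  (AddMonoidHom.toMultiplicativeRight
    ((FreeAbelianGroup.equivFinsupp α).toAddMonoidHom)).comp Abelianization.of

theorem qFree_ker : (qFree α).ker = commutator (FreeGroup α) := by
  ext x
  rw [MonoidHom.mem_ker, ← Abelianization.ker_of, MonoidHom.mem_ker]
  constructor
  · intro h
    have h1 : (FreeAbelianGroup.equivFinsupp α) (Additive.ofMul (Abelianization.of x)) = 0 := by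
      have := congrArg Multiplicative.toAdd h
      exact this
    have h2 := (FreeAbelianGroup.equivFinsupp α).injective (h1.trans (map_zero _).symm)
    exact congrArg Additive.toMul h2
  · intro h
    unfold qFree
    rw [MonoidHom.comp_apply, h, map_one]

theorem qFree_surj : Function.Surjective (qFree α) := by
  intro m
  obtain ⟨a, ha⟩ := (FreeAbelianGroup.equivFinsupp α).surjective (Multiplicative.toAdd m)
  obtain ⟨x, hx⟩ := QuotientGroup.mk_surjective (Additive.toMul a)
  refine ⟨x, ?_⟩
  have h1 : Abelianization.of x = Additive.toMul a := hx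
  unfold qFree
  rw [MonoidHom.comp_apply, h1]
  exact congrArg Multiplicative.ofAdd ha

end Free

section Pres

variable {α : Type u} (rels : Set (FreeGroup α))

def RR : Subgroup (FreeGroup α) := Subgroup.normalClosure rels

instance RR_normal : (RR rels).Normal := Subgroup.normalClosure_normal

def NN : Subgroup (FreeGroup α) := ⁅(⊤ : Subgroup (FreeGroup α)), RR rels⁆

instance NN_normal : (NN rels).Normal := by
  unfold NN
  infer_instance

abbrev EE : Type u := FreeGroup α ⧸ NN rels

theorem NN_le_RR : NN rels ≤ RR rels := Subgroup.commutator_le_right ⊤ (RR rels)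

def rhoP : EE rels →* PresentedGroup rels :=
  QuotientGroup.lift (NN rels) (PresentedGroup.mk rels) (fun x hx => by
    rw [MonoidHom.mem_ker, PresentedGroup.mk_eq_one_iff]
    exact NN_le_RR rels hx)

theorem rhoP_mk (x : FreeGroup α) :
    rhoP rels (QuotientGroup.mk x) = PresentedGroup.mk rels x := rfl

theorem rhoP_surj : Function.Surjective (rhoP rels) := by
  intro g
  obtain ⟨x, rfl⟩ := PresentedGroup.mk_surjective rels g
  exact ⟨QuotientGroup.mk x, rfl⟩

theorem mem_ker_iff (x : FreeGroup α) :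
    (QuotientGroup.mk x : EE rels) ∈ (rhoP rels).ker ↔ x ∈ Subgroup.normalClosure rels := by
  rw [MonoidHom.mem_ker, rhoP_mk, PresentedGroup.mk_eq_one_iff]

theorem rhoP_ker_le_center : (rhoP rels).ker ≤ Subgroup.center (EE rels) := by
  intro x hx
  induction x using QuotientGroup.induction_on with
  | H r =>
    have hr : r ∈ RR rels := (mem_ker_iff rels r).mp hx
    rw [Subgroup.mem_center_iff]
    intro y
    induction y using QuotientGroup.induction_on with
    | H f =>
      rw [← QuotientGroup.mk_mul, ← QuotientGroup.mk_mul, QuotientGroup.eq]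
      have h1 : ⁅r⁻¹, f⁻¹⁆ ∈ ⁅RR rels, (⊤ : Subgroup (FreeGroup α))⁆ :=
        Subgroup.commutator_mem_commutator ((RR rels).inv_mem hr) (Subgroup.mem_top _)
      rw [Subgroup.commutator_comm] at h1
      have e : (f * r)⁻¹ * (r * f) = ⁅r⁻¹, f⁻¹⁆ := by
        rw [commutatorElement_def]; group
      rw [e]
      exact h1

noncomputable def qE : EE rels →* Multiplicative (α →₀ ℤ) :=
  QuotientGroup.lift (NN rels) (qFree α) (by
    rw [qFree_ker, _root_.commutator_def]
    exact Subgroup.commutator_mono le_rfl le_top)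

theorem qE_ker : (qE rels).ker = commutator (EE rels) := by
  unfold qE
  rw [QuotientGroup.ker_lift, qFree_ker, map_commutator_eq, QuotientGroup.range_mk',
    ← _root_.commutator_def]

theorem qE_surj : Function.Surjective (qE rels) := by
  intro m
  obtain ⟨x, hx⟩ := qFree_surj α m
  exact ⟨QuotientGroup.mk x, hx⟩

theorem exists_liftP {Γ : Type v} [Group Γ] (σ : Γ →* PresentedGroup rels)
    (hσ : Function.Surjective σ) (hσc : σ.ker ≤ Subgroup.center Γ) :
    ∃ φ : EE rels →* Γ, σ.comp φ = rhoP rels := by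
  let φ₀ : FreeGroup α →* Γ := FreeGroup.lift (fun a =>
    Function.surjInv hσ (PresentedGroup.mk rels (FreeGroup.of a)))
  have h0 : σ.comp φ₀ = PresentedGroup.mk rels := by
    apply FreeGroup.ext_hom
    intro a
    rw [MonoidHom.comp_apply]
    show σ (FreeGroup.lift _ (FreeGroup.of a)) = _
    rw [FreeGroup.lift_apply_of, Function.surjInv_eq hσ]
  have h1 : NN rels ≤ φ₀.ker := by
    unfold NN
    rw [Subgroup.commutator_le]
    intro f _ r hr
    rw [MonoidHom.mem_ker, map_commutatorElement]
    have hc : φ₀ r ∈ Subgroup.center Γ := by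
      apply hσc
      rw [MonoidHom.mem_ker, ← MonoidHom.comp_apply, h0, PresentedGroup.mk_eq_one_iff]
      exact hr
    rw [Subgroup.mem_center_iff] at hc
    rw [commutatorElement_def, hc (φ₀ f)]
    group
  refine ⟨QuotientGroup.lift (NN rels) φ₀ h1, ?_⟩
  refine MonoidHom.ext (fun x => ?_)
  induction x using QuotientGroup.induction_on with
  | H f =>
    rw [MonoidHom.comp_apply, QuotientGroup.lift_mk, ← MonoidHom.comp_apply, h0]
    rfl

theorem ker_le_closure :
    (rhoP rels).ker ≤ Subgroup.closure ((QuotientGroup.mk' (NN rels)) '' rels) := by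
  have hSc : Subgroup.closure ((QuotientGroup.mk' (NN rels)) '' rels) ≤
      Subgroup.center (EE rels) := by
    rw [Subgroup.closure_le]
    rintro _ ⟨r, hr, rfl⟩
    apply rhoP_ker_le_center
    exact (mem_ker_iff rels r).mpr (Subgroup.subset_normalClosure hr)
  have hSn : (Subgroup.closure ((QuotientGroup.mk' (NN rels)) '' rels)).Normal := by
    constructor
    intro n hn g
    have := hSc hn
    rw [Subgroup.mem_center_iff] at this
    rw [this g, mul_inv_cancel_right]
    exact hn
  have hle : Subgroup.normalClosure rels ≤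
      (Subgroup.closure ((QuotientGroup.mk' (NN rels)) '' rels)).comap
        (QuotientGroup.mk' (NN rels)) := by
    apply Subgroup.normalClosure_le_normal
    intro r hr
    exact Subgroup.subset_closure ⟨r, hr, rfl⟩
  intro x hx
  induction x using QuotientGroup.induction_on with
  | H f => exact hle ((mem_ker_iff rels f).mp hx)

end Pres


open scoped IsMulCommutative in
theorem rank_le_of_presentation (n : ℕ) (rels : Finset (FreeGroup (Fin n)))
    [Finite (PresentedGroup (rels : Set (FreeGroup (Fin n))))] {A : Type w} [CommGroup A]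
    [Finite A]
    (hA : Cfsg.HasSchurMultiplier (PresentedGroup (rels : Set (FreeGroup (Fin n)))) A) :
    Group.rank A ≤ rels.card - n := by
  classical
  obtain ⟨⟨Γ, _, _, σ, hσ, ⟨eA⟩⟩, _⟩ := hA
  generalize hR : (rels : Set (FreeGroup (Fin n))) = R at *
  obtain ⟨φ, hφ⟩ := exists_liftP R σ hσ.1 hσ.2.1
  have hφ' : ∀ x, σ (φ x) = rhoP R x := fun x => by rw [← hφ]; rfl
  have hmap := map_ker_inf_commutator (rhoP R) (rhoP_surj R) σ hσ.2.1 φ hφ
  rw [inf_eq_left.mpr hσ.2.2] at hmap
  -- generators
  let ι : Fin rels.card ≃ rels := rels.equivFin.symm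
  have hιR : ∀ i, ((ι i : FreeGroup (Fin n))) ∈ R := by
    intro i
    rw [← hR]
    exact (ι i).2
  have hsmem : ∀ i : Fin rels.card,
      (QuotientGroup.mk ((ι i : FreeGroup (Fin n))) : EE R) ∈ (rhoP R).ker := by
    intro i
    exact (mem_ker_iff R _).mpr (Subgroup.subset_normalClosure (hιR i))
  let s' : Fin rels.card → Additive (Subgroup.center (EE R)) := fun i =>
    Additive.ofMul ⟨QuotientGroup.mk (ι i : FreeGroup (Fin n)), rhoP_ker_le_center R (hsmem i)⟩
  let lin : (Fin rels.card → ℤ) →ₗ[ℤ] Additive (Subgroup.center (EE R)) :=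
    Fintype.linearCombination ℤ s'
  have hlin_mem : ∀ v, ((Additive.toMul (lin v) : Subgroup.center (EE R)) : EE R) ∈
      (rhoP R).ker := by
    intro v
    have : lin v ∈ (((rhoP R).ker).subgroupOf (Subgroup.center (EE R))).toAddSubgroup := by
      show Fintype.linearCombination ℤ s' v ∈ _
      rw [Fintype.linearCombination_apply]
      exact AddSubgroup.sum_mem _ (fun i _ => AddSubgroup.zsmul_mem _ (hsmem i) _)
    exact this
  have hcl : ∀ x ∈ Subgroup.closure ((QuotientGroup.mk' (NN R)) '' R),
      ∃ v, ((Additive.toMul (lin v) : Subgroup.center (EE R)) : EE R) = x := by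
    intro x hx
    induction hx using Subgroup.closure_induction with
    | mem y hy =>
      obtain ⟨f, hf, rfl⟩ := hy
      have hf' : f ∈ rels := by
        have : f ∈ (rels : Set (FreeGroup (Fin n))) := by rw [hR]; exact hf
        exact this
      refine ⟨Pi.single (ι.symm ⟨f, hf'⟩) 1, ?_⟩
      show ((Additive.toMul (Fintype.linearCombination ℤ s' (Pi.single (ι.symm ⟨f, hf'⟩) 1)) :
        Subgroup.center (EE R)) : EE R) = _
      rw [Fintype.linearCombination_apply_single, one_smul]
      show (QuotientGroup.mk ((ι (ι.symm ⟨f, hf'⟩) : FreeGroup (Fin n))) : EE R) = _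
      rw [Equiv.apply_symm_apply]
      rfl
    | one => exact ⟨0, by rw [map_zero]; rfl⟩
    | mul a b _ _ iha ihb =>
      obtain ⟨v, rfl⟩ := iha
      obtain ⟨v', rfl⟩ := ihb
      exact ⟨v + v', by rw [map_add]; rfl⟩
    | inv a _ iha =>
      obtain ⟨v, rfl⟩ := iha
      exact ⟨-v, by rw [map_neg]; rfl⟩
  let Q : Additive (Subgroup.center (EE R)) →ₗ[ℤ] (Fin n →₀ ℤ) :=
    (MonoidHom.toAdditiveLeft ((qE R).comp (Subgroup.center (EE R)).subtype)).toIntLinearMap
  have hQ : ∀ m : Additive (Subgroup.center (EE R)),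
      Q m = Multiplicative.toAdd (qE R ((Additive.toMul m : Subgroup.center (EE R)) : EE R)) :=
    fun m => rfl
  let L : (Fin rels.card → ℤ) →ₗ[ℤ] (Fin n →₀ ℤ) := Q ∘ₗ lin
  have hLdef : ∀ v, L v = Q (lin v) := fun v => rfl
  have he : Nat.card (PresentedGroup R) ≠ 0 := Nat.card_pos.ne'
  have hL : ∀ w : Fin n →₀ ℤ, ∃ v, L v = Nat.card (PresentedGroup R) • w := by
    intro w
    obtain ⟨x, hx⟩ := qE_surj R (Multiplicative.ofAdd w)
    have hxe : x ^ Nat.card (PresentedGroup R) ∈ (rhoP R).ker := by
      rw [MonoidHom.mem_ker, map_pow]; exact pow_card_eq_one'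
    obtain ⟨v, hv⟩ := hcl _ (ker_le_closure R hxe)
    refine ⟨v, ?_⟩
    rw [hLdef, hQ, hv, map_pow, hx]
    rfl
  have hrank := ker_finrank L _ he hL
  have hV : Module.finrank ℤ (Fin rels.card → ℤ) = rels.card := Module.finrank_fin_fun ℤ
  have hW : Module.finrank ℤ (Fin n →₀ ℤ) = n := by
    rw [Module.finrank_finsupp_self]; exact Fintype.card_fin n
  have hkr : Module.finrank ℤ (LinearMap.ker L) ≤ rels.card - n := by omega
  let bas : Module.Basis (Fin (Module.finrank ℤ (LinearMap.ker L))) ℤ (LinearMap.ker L) :=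
    Module.finBasis ℤ _
  have hker_mem : ∀ v : LinearMap.ker L,
      φ ((Additive.toMul (lin v.1) : Subgroup.center (EE R)) : EE R) ∈ σ.ker := by
    intro v
    rw [MonoidHom.mem_ker, hφ']
    exact hlin_mem v.1
  let Θ : LinearMap.ker L → A := fun v =>
    eA ⟨φ ((Additive.toMul (lin v.1) : Subgroup.center (EE R)) : EE R), hker_mem v⟩
  have hΘadd : ∀ v v', Θ (v + v') = Θ v * Θ v' := by
    intro v v'
    show eA _ = eA _ * eA _
    rw [← map_mul]
    congr 1
    apply Subtype.ext
    show φ ((Additive.toMul (lin (v.1 + v'.1)) : Subgroup.center (EE R)) : EE R) = φ _ * φ _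
    rw [map_add, ← map_mul]
    rfl
  let Θ₀ : LinearMap.ker L →+ Additive A :=
    AddMonoidHom.mk' (fun v => Additive.ofMul (Θ v)) (fun v v' => by
      show Additive.ofMul (Θ (v + v')) = _
      rw [hΘadd]; rfl)
  have hΘsurj : ∀ a : A, ∃ v, Θ v = a := by
    intro a
    have hκ : ((eA.symm a : σ.ker) : Γ) ∈ ((rhoP R).ker ⊓ commutator (EE R)).map φ := by
      rw [hmap]; exact (eA.symm a).2
    obtain ⟨x, hx, hxa⟩ := hκ
    have hx' := Subgroup.mem_inf.mp hx
    obtain ⟨v, hv⟩ := hcl _ (ker_le_closure R hx'.1)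
    have hvL : L v = 0 := by
      rw [hLdef, hQ, hv]
      have : x ∈ (qE R).ker := by rw [qE_ker]; exact hx'.2
      rw [MonoidHom.mem_ker] at this
      rw [this]; rfl
    refine ⟨⟨v, hvL⟩, ?_⟩
    have h2 : (⟨φ ((Additive.toMul (lin v) : Subgroup.center (EE R)) : EE R),
        hker_mem ⟨v, hvL⟩⟩ : σ.ker) = eA.symm a := by
      apply Subtype.ext
      show φ ((Additive.toMul (lin v) : Subgroup.center (EE R)) : EE R) = _
      rw [hv, hxa]
    show eA _ = a
    rw [h2, MulEquiv.apply_symm_apply]
  let T : Finset A := Finset.univ.image (fun j => Θ (bas j))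
  have hT : Subgroup.closure (T : Set A) = ⊤ := by
    rw [eq_top_iff]
    intro a _
    obtain ⟨v, rfl⟩ := hΘsurj a
    have h1 : Θ₀ v ∈ (Subgroup.closure (T : Set A)).toAddSubgroup := by
      rw [← bas.sum_repr v, map_sum]
      apply AddSubgroup.sum_mem
      intro j _
      rw [map_zsmul]
      apply AddSubgroup.zsmul_mem
      show Θ (bas j) ∈ Subgroup.closure (T : Set A)
      apply Subgroup.subset_closure
      exact Finset.mem_coe.mpr (Finset.mem_image.mpr ⟨j, Finset.mem_univ _, rfl⟩)
    exact h1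
  calc Group.rank A ≤ T.card := Group.rank_le hT
    _ ≤ (Finset.univ : Finset (Fin (Module.finrank ℤ (LinearMap.ker L)))).card :=
        Finset.card_image_le
    _ = Module.finrank ℤ (LinearMap.ker L) := by rw [Finset.card_univ, Fintype.card_fin]
    _ ≤ rels.card - n := hkr

end Cfsg.Agent.Lib.Helper21.SchurPres
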