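import Mathlib
import Cfsg.Prelude.Def_KGroupFacts
import Cfsg.Agent.Lib.Helper21.SchurCover

set_option autoImplicit false

namespace Cfsg.Agent.Lib.Helper21.SchurProd

universe u v w u₁ u₂

open scoped commutatorElement TensorProduct

open Cfsg.Agent.Lib.Helper21.SchurCover

abbrev TAb (G₁ : Type u) (G₂ : Type v) [Group G₁] [Group G₂] : Type (max u v) :=
  TensorProduct ℤ (Additive (Abelianization G₁)) (Additive (Abelianization G₂))

def pureT {G₁ : Type u} {G₂ : Type v} [Group G₁] [Group G₂] (g₁ : G₁) (g₂ : G₂) :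
    Multiplicative (TAb G₁ G₂) :=
  Multiplicative.ofAdd
    (Additive.ofMul (Abelianization.of g₁) ⊗ₜ[ℤ] Additive.ofMul (Abelianization.of g₂))

section PureT

variable {G₁ : Type u} {G₂ : Type v} [Group G₁] [Group G₂]

theorem pureT_mul_left (a a' : G₁) (b : G₂) : pureT (a * a') b = pureT a b * pureT a' b := by
  unfold pureT
  rw [map_mul, ofMul_mul, TensorProduct.add_tmul, ofAdd_add]

theorem pureT_mul_right (a : G₁) (b b' : G₂) : pureT a (b * b') = pureT a b * pureT a b' := by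
  unfold pureT
  rw [map_mul, ofMul_mul, TensorProduct.tmul_add, ofAdd_add]

theorem pureT_one_left (b : G₂) : pureT (1 : G₁) b = 1 := by
  unfold pureT
  rw [map_one, ofMul_one, TensorProduct.zero_tmul, ofAdd_zero]

theorem pureT_one_right (a : G₁) : pureT a (1 : G₂) = 1 := by
  unfold pureT
  rw [map_one, ofMul_one, TensorProduct.tmul_zero, ofAdd_zero]

theorem tensor_induction (P : Multiplicative (TAb G₁ G₂) → Prop) (h1 : P 1)
    (hp : ∀ a b, P (pureT a b)) (hm : ∀ s t, P s → P t → P (s * t)) :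
    ∀ t, P t := by
  intro t
  have key : ∀ s : TAb G₁ G₂, P (Multiplicative.ofAdd s) := by
    intro s
    induction s using TensorProduct.induction_on with
    | zero => exact h1
    | tmul a b =>
      obtain ⟨q₁, hq₁⟩ := QuotientGroup.mk_surjective (Additive.toMul a)
      obtain ⟨q₂, hq₂⟩ := QuotientGroup.mk_surjective (Additive.toMul b)
      have := hp q₁ q₂
      unfold pureT at this
      have e1 : Additive.ofMul (Abelianization.of q₁) = a := by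
        show Additive.ofMul (QuotientGroup.mk q₁) = a
        rw [hq₁]; rfl
      have e2 : Additive.ofMul (Abelianization.of q₂) = b := by
        show Additive.ofMul (QuotientGroup.mk q₂) = b
        rw [hq₂]; rfl
      rw [e1, e2] at this
      exact this
    | add s t hs ht => exact hm _ _ hs ht
  exact key (Multiplicative.toAdd t)

end PureT

theorem exists_tensor_hom {G₁ : Type u} {G₂ : Type v} {Z : Type w} [Group G₁] [Group G₂]
    [CommGroup Z] (c : G₁ → G₂ → Z)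
    (h1 : ∀ a a' b, c (a * a') b = c a b * c a' b)
    (h2 : ∀ a b b', c a (b * b') = c a b * c a b') :
    ∃ F : Multiplicative (TAb G₁ G₂) →* Z, ∀ a b, F (pureT a b) = c a b := by
  let c2 : G₁ → (G₂ →* Z) := fun a => MonoidHom.mk' (c a) (h2 a)
  let d2 : G₁ → (Abelianization G₂ →* Z) := fun a => Abelianization.lift (c2 a)
  have hd2 : ∀ a a', d2 (a * a') = d2 a * d2 a' := by
    intro a a'
    apply Abelianization.hom_ext
    ext b
    simp [d2, c2, h1]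
  let c1 : G₁ →* (Abelianization G₂ →* Z) := MonoidHom.mk' d2 hd2
  let d1 : Abelianization G₁ →* (Abelianization G₂ →* Z) := Abelianization.lift c1
  have hd1 : ∀ a b, d1 (Abelianization.of a) (Abelianization.of b) = c a b := by
    intro a b
    simp [d1, c1, d2, c2]
  let f : Additive (Abelianization G₁) →+ Additive (Abelianization G₂) →+ Additive Z :=
    AddMonoidHom.mk' (fun a => MonoidHom.toAdditive (d1 (Additive.toMul a))) (by
      intro a b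
      ext x
      simp [map_mul])
  let L := TensorProduct.liftAddHom (R := ℤ) f (by
    intro r m n
    rw [map_zsmul, map_zsmul, AddMonoidHom.smul_apply])
  refine ⟨AddMonoidHom.toMultiplicativeLeft L, ?_⟩
  intro a b
  exact hd1 a b

section Twist

variable {X : Type u} {Y : Type v} {Z : Type w} [Group X] [Group Y] [CommGroup Z]

@[ext]
structure Tw (β : Y →* X →* Z) where
  z : Z
  x : X
  y : Y

namespace Tw

variable (β : Y →* X →* Z)

instance : Mul (Tw β) := ⟨fun a b => ⟨a.z * b.z * β a.y b.x, a.x * b.x, a.y * b.y⟩⟩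
instance : One (Tw β) := ⟨⟨1, 1, 1⟩⟩
instance : Inv (Tw β) := ⟨fun a => ⟨a.z⁻¹ * β a.y a.x, a.x⁻¹, a.y⁻¹⟩⟩

@[simp] theorem mul_z (a b : Tw β) : (a * b).z = a.z * b.z * β a.y b.x := rfl
@[simp] theorem mul_x (a b : Tw β) : (a * b).x = a.x * b.x := rfl
@[simp] theorem mul_y (a b : Tw β) : (a * b).y = a.y * b.y := rfl
@[simp] theorem one_z : (1 : Tw β).z = 1 := rfl
@[simp] theorem one_x : (1 : Tw β).x = 1 := rfl
@[simp] theorem one_y : (1 : Tw β).y = 1 := rfl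
@[simp] theorem inv_z (a : Tw β) : (a⁻¹).z = a.z⁻¹ * β a.y a.x := rfl
@[simp] theorem inv_x (a : Tw β) : (a⁻¹).x = a.x⁻¹ := rfl
@[simp] theorem inv_y (a : Tw β) : (a⁻¹).y = a.y⁻¹ := rfl

instance : Group (Tw β) where
  mul_assoc a b c := by
    ext
    · simp only [mul_z, mul_x, mul_y, map_mul, MonoidHom.mul_apply]
      simp only [mul_comm, mul_left_comm, mul_assoc]
    · simp [mul_assoc]
    · simp [mul_assoc]
  one_mul a := by ext <;> simp
  mul_one a := by ext <;> simp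
  inv_mul_cancel a := by ext <;> simp

def prj : Tw β →* X × Y where
  toFun a := (a.x, a.y)
  map_one' := rfl
  map_mul' _ _ := rfl

def inX : X →* Tw β where
  toFun x := ⟨1, x, 1⟩
  map_one' := rfl
  map_mul' a b := by ext <;> simp

def inY : Y →* Tw β where
  toFun y := ⟨1, 1, y⟩
  map_one' := rfl
  map_mul' a b := by ext <;> simp

def inZ : Z →* Tw β where
  toFun z := ⟨z, 1, 1⟩
  map_one' := rfl
  map_mul' a b := by ext <;> simp

theorem decomp (a : Tw β) : a = inZ β a.z * inX β a.x * inY β a.y := by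
  ext <;> simp [inZ, inX, inY]

theorem inZ_beta (y : Y) (x : X) : inZ β (β y x) = ⁅inY β y, inX β x⁆ := by
  rw [commutatorElement_def]
  ext <;> simp [inZ, inX, inY]

end Tw

end Twist


section Lower

variable {Q₁ : Type u} {Q₂ : Type v} [Group Q₁] [Group Q₂]

def betaHom {Γ₁ : Type u₁} {Γ₂ : Type u₂} [Group Γ₁] [Group Γ₂] (σ₁ : Γ₁ →* Q₁) (σ₂ : Γ₂ →* Q₂) :
    Γ₂ →* Γ₁ →* Multiplicative (TAb Q₁ Q₂) :=
  MonoidHom.mk' (fun y => MonoidHom.mk' (fun x => pureT (σ₁ x) (σ₂ y))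
    (fun x x' => by rw [map_mul, pureT_mul_left]))
    (fun y y' => by
      ext x
      simp only [MonoidHom.mk'_apply, MonoidHom.mul_apply]
      rw [map_mul, pureT_mul_right])

theorem betaHom_apply {Γ₁ : Type u₁} {Γ₂ : Type u₂} [Group Γ₁] [Group Γ₂] (σ₁ : Γ₁ →* Q₁)
    (σ₂ : Γ₂ →* Q₂) (y : Γ₂) (x : Γ₁) : betaHom σ₁ σ₂ y x = pureT (σ₁ x) (σ₂ y) := rfl

theorem exists_stem_prod {Γ₁ : Type u₁} {Γ₂ : Type u₂} [Group Γ₁] [Group Γ₂] (σ₁ : Γ₁ →* Q₁)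
    (σ₂ : Γ₂ →* Q₂) (h₁ : Cfsg.IsStemExtension σ₁) (h₂ : Cfsg.IsStemExtension σ₂) :
    ∃ (E : Type (max u v u₁ u₂)) (_ : Group E) (π : E →* Q₁ × Q₂), Cfsg.IsStemExtension π ∧
      ∃ f : π.ker →* σ₁.ker × σ₂.ker × Multiplicative (TAb Q₁ Q₂), Function.Surjective f := by
  let β := betaHom σ₁ σ₂
  let π : Tw β →* Q₁ × Q₂ := (σ₁.prodMap σ₂).comp (Tw.prj β)
  have hπ : ∀ a : Tw β, π a = (σ₁ a.x, σ₂ a.y) := fun a => rfl
  have hker : ∀ a : Tw β, a ∈ π.ker ↔ σ₁ a.x = 1 ∧ σ₂ a.y = 1 := by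
    intro a
    rw [MonoidHom.mem_ker, hπ, Prod.mk_eq_one]
  have hβ1 : ∀ (y : Γ₂) (x : Γ₁), σ₁ x = 1 → β y x = 1 := by
    intro y x hx
    show pureT (σ₁ x) (σ₂ y) = 1
    rw [hx, pureT_one_left]
  have hβ2 : ∀ (y : Γ₂) (x : Γ₁), σ₂ y = 1 → β y x = 1 := by
    intro y x hy
    show pureT (σ₁ x) (σ₂ y) = 1
    rw [hy, pureT_one_right]
  have hZ : ∀ t : Multiplicative (TAb Q₁ Q₂), Tw.inZ β t ∈ commutator (Tw β) := by
    apply tensor_induction
    · rw [map_one]; exact Subgroup.one_mem _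
    · intro a b
      obtain ⟨x, rfl⟩ := h₁.1 a
      obtain ⟨y, rfl⟩ := h₂.1 b
      have : pureT (σ₁ x) (σ₂ y) = β y x := rfl
      rw [this, Tw.inZ_beta]
      exact Subgroup.commutator_mem_commutator (Subgroup.mem_top _) (Subgroup.mem_top _)
    · intro s t hs ht
      rw [map_mul]
      exact Subgroup.mul_mem _ hs ht
  have hstem : Cfsg.IsStemExtension π := by
    refine ⟨?_, ?_, ?_⟩
    · rintro ⟨q₁, q₂⟩
      obtain ⟨x, rfl⟩ := h₁.1 q₁
      obtain ⟨y, rfl⟩ := h₂.1 q₂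
      exact ⟨⟨1, x, y⟩, rfl⟩
    · intro k hk
      rw [hker] at hk
      have hx := h₁.2.1 (show k.x ∈ σ₁.ker from hk.1)
      have hy := h₂.2.1 (show k.y ∈ σ₂.ker from hk.2)
      rw [Subgroup.mem_center_iff] at hx hy ⊢
      intro a
      ext
      · simp only [Tw.mul_z]
        rw [hβ1 a.y k.x hk.1, hβ2 k.y a.x hk.2, mul_comm a.z k.z]
      · exact hx a.x
      · exact hy a.y
    · intro k hk
      rw [hker] at hk
      rw [Tw.decomp β k]
      refine Subgroup.mul_mem _ (Subgroup.mul_mem _ (hZ k.z) ?_) ?_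
      · exact map_commutator_le' (Tw.inX β)
          (Subgroup.mem_map_of_mem _ (h₁.2.2 (show k.x ∈ σ₁.ker from hk.1)))
      · exact map_commutator_le' (Tw.inY β)
          (Subgroup.mem_map_of_mem _ (h₂.2.2 (show k.y ∈ σ₂.ker from hk.2)))
  let f₁ : π.ker →* σ₁.ker :=
    { toFun := fun k => ⟨k.1.x, ((hker k.1).mp k.2).1⟩
      map_one' := rfl
      map_mul' := fun _ _ => rfl }
  let f₂ : π.ker →* σ₂.ker :=
    { toFun := fun k => ⟨k.1.y, ((hker k.1).mp k.2).2⟩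
      map_one' := rfl
      map_mul' := fun _ _ => rfl }
  let f₃ : π.ker →* Multiplicative (TAb Q₁ Q₂) :=
    { toFun := fun k => k.1.z
      map_one' := rfl
      map_mul' := fun k k' => by
        show k.1.z * k'.1.z * β k.1.y k'.1.x = k.1.z * k'.1.z
        rw [hβ2 _ _ ((hker k.1).mp k.2).2, mul_one] }
  refine ⟨Tw β, inferInstance, π, hstem, f₁.prod (f₂.prod f₃), ?_⟩
  rintro ⟨a, b, t⟩
  refine ⟨⟨⟨t, a.1, b.1⟩, (hker _).mpr ⟨a.2, b.2⟩⟩, ?_⟩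
  rfl

end Lower


section Upper

variable {Q₁ : Type u} {Q₂ : Type v} [Group Q₁] [Group Q₂]

open scoped IsMulCommutative in
theorem exists_surj_aux {A : Type u₁} {B : Type u₂} [CommGroup A] [CommGroup B]
    (hA : Cfsg.HasSchurMultiplier Q₁ A) (hB : Cfsg.HasSchurMultiplier Q₂ B)
    {Γ : Type w} [Group Γ] (σ : Γ →* Q₁ × Q₂) (hσ : Cfsg.IsStemExtension σ)
    [IsMulCommutative σ.ker] :
    ∃ f : A × B × Multiplicative (TAb Q₁ Q₂) →* σ.ker, Function.Surjective f := by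
  obtain ⟨hsurj, hcen, hcomm⟩ := hσ
  let p1 : Γ →* Q₁ := (MonoidHom.fst Q₁ Q₂).comp σ
  let p2 : Γ →* Q₂ := (MonoidHom.snd Q₁ Q₂).comp σ
  let Γ₁ : Subgroup Γ := p2.ker
  let Γ₂ : Subgroup Γ := p1.ker
  have hp : ∀ g, σ g = (p1 g, p2 g) := fun g => rfl
  have hker : ∀ g, g ∈ σ.ker ↔ p1 g = 1 ∧ p2 g = 1 := by
    intro g
    rw [MonoidHom.mem_ker, hp, Prod.mk_eq_one]
  have hm1 : ∀ x, x ∈ Γ₁ ↔ p2 x = 1 := fun x => Iff.rfl
  have hm2 : ∀ y, y ∈ Γ₂ ↔ p1 y = 1 := fun y => Iff.rfl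
  have hcomm12 : ∀ x ∈ Γ₁, ∀ y ∈ Γ₂, ⁅x, y⁆ ∈ σ.ker := by
    intro x hx y hy
    rw [hker, map_commutatorElement, map_commutatorElement]
    rw [hm1] at hx
    rw [hm2] at hy
    rw [hx, hy, commutatorElement_one_right, commutatorElement_one_left]
    exact ⟨rfl, rfl⟩
  let s₁ : Q₁ → Γ := fun q => Function.surjInv hsurj (q, 1)
  let s₂ : Q₂ → Γ := fun q => Function.surjInv hsurj (1, q)
  have hs₁ : ∀ q, σ (s₁ q) = (q, 1) := fun q => Function.surjInv_eq hsurj _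
  have hs₂ : ∀ q, σ (s₂ q) = (1, q) := fun q => Function.surjInv_eq hsurj _
  have hs₁p1 : ∀ q, p1 (s₁ q) = q := fun q => by
    show (σ (s₁ q)).1 = q
    rw [hs₁]
  have hs₁p2 : ∀ q, p2 (s₁ q) = 1 := fun q => by
    show (σ (s₁ q)).2 = 1
    rw [hs₁]
  have hs₂p1 : ∀ q, p1 (s₂ q) = 1 := fun q => by
    show (σ (s₂ q)).1 = 1
    rw [hs₂]
  have hs₂p2 : ∀ q, p2 (s₂ q) = q := fun q => by
    show (σ (s₂ q)).2 = q
    rw [hs₂]
  have hs₁m : ∀ q, s₁ q ∈ Γ₁ := fun q => hs₁p2 q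
  have hs₂m : ∀ q, s₂ q ∈ Γ₂ := fun q => hs₂p1 q
  have hstar : ∀ x x' y y' : Γ, σ x = σ x' → σ y = σ y' → ⁅x, y⁆ = ⁅x', y'⁆ := by
    intro x x' y y' hx hy
    have hzx : x'⁻¹ * x ∈ Subgroup.center Γ :=
      hcen (by rw [MonoidHom.mem_ker, map_mul, map_inv, hx, inv_mul_cancel])
    have hzy : y'⁻¹ * y ∈ Subgroup.center Γ :=
      hcen (by rw [MonoidHom.mem_ker, map_mul, map_inv, hy, inv_mul_cancel])
    have ex : x = x' * (x'⁻¹ * x) := by group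
    have ey : y = y' * (y'⁻¹ * y) := by group
    conv_lhs => rw [ex, ey]
    exact commutatorElement_mul_central _ _ _ _ hzx hzy
  let c : Q₁ → Q₂ → σ.ker := fun q₁ q₂ => ⟨⁅s₁ q₁, s₂ q₂⁆, hcomm12 _ (hs₁m q₁) _ (hs₂m q₂)⟩
  have hcz : ∀ q₁ q₂ (g : Γ), g * ⁅s₁ q₁, s₂ q₂⁆ = ⁅s₁ q₁, s₂ q₂⁆ * g := by
    intro q₁ q₂
    have hz := hcen (hcomm12 _ (hs₁m q₁) _ (hs₂m q₂))
    rw [Subgroup.mem_center_iff] at hz
    exact hz
  have hc1 : ∀ a a' b, c (a * a') b = c a b * c a' b := by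
    intro a a' b
    apply Subtype.ext
    show ⁅s₁ (a * a'), s₂ b⁆ = ⁅s₁ a, s₂ b⁆ * ⁅s₁ a', s₂ b⁆
    have e : σ (s₁ (a * a')) = σ (s₁ a * s₁ a') := by
      rw [map_mul, hs₁, hs₁, hs₁, Prod.mk_mul_mk, mul_one]
    rw [hstar (s₁ (a * a')) (s₁ a * s₁ a') (s₂ b) (s₂ b) e rfl,
      commutatorElement_mul_left_eq_conj_mul, hcz a' b (s₁ a), mul_inv_cancel_right]
    exact (hcz a' b _).symm
  have hc2 : ∀ a b b', c a (b * b') = c a b * c a b' := by
    intro a b b'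
    apply Subtype.ext
    show ⁅s₁ a, s₂ (b * b')⁆ = ⁅s₁ a, s₂ b⁆ * ⁅s₁ a, s₂ b'⁆
    have e : σ (s₂ (b * b')) = σ (s₂ b * s₂ b') := by
      rw [map_mul, hs₂, hs₂, hs₂, Prod.mk_mul_mk, mul_one]
    rw [hstar (s₁ a) (s₁ a) (s₂ (b * b')) (s₂ b * s₂ b') rfl e,
      commutatorElement_mul_right_eq_mul_conj, mul_assoc ⁅s₁ a, s₂ b⁆, hcz a b' (s₂ b),
      mul_assoc, mul_inv_cancel_right]
  obtain ⟨F₃, hF₃⟩ := exists_tensor_hom c hc1 hc2
  -- first factor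
  let σ₁ : Γ₁ →* Q₁ := p1.comp Γ₁.subtype
  have hσ₁s : Function.Surjective σ₁ := fun q => ⟨⟨s₁ q, hs₁m q⟩, hs₁p1 q⟩
  have hσ₁k : ∀ x : Γ₁, x ∈ σ₁.ker ↔ (x : Γ) ∈ σ.ker := by
    intro x
    rw [hker]
    exact ⟨fun h => ⟨h, x.2⟩, fun h => h.1⟩
  have hσ₁c : σ₁.ker ≤ Subgroup.center Γ₁ := by
    intro x hx
    have := hcen ((hσ₁k x).mp hx)
    rw [Subgroup.mem_center_iff] at this ⊢
    intro g
    exact Subtype.ext (this g)
  obtain ⟨f₁, hf₁⟩ := surj_of_central_of_has hA σ₁ hσ₁s hσ₁c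
  -- second factor
  let σ₂ : Γ₂ →* Q₂ := p2.comp Γ₂.subtype
  have hσ₂s : Function.Surjective σ₂ := fun q => ⟨⟨s₂ q, hs₂m q⟩, hs₂p2 q⟩
  have hσ₂k : ∀ x : Γ₂, x ∈ σ₂.ker ↔ (x : Γ) ∈ σ.ker := by
    intro x
    rw [hker]
    exact ⟨fun h => ⟨x.2, h⟩, fun h => h.2⟩
  have hσ₂c : σ₂.ker ≤ Subgroup.center Γ₂ := by
    intro x hx
    have := hcen ((hσ₂k x).mp hx)
    rw [Subgroup.mem_center_iff] at this ⊢
    intro g
    exact Subtype.ext (this g)
  obtain ⟨f₂, hf₂⟩ := surj_of_central_of_has hB σ₂ hσ₂s hσ₂c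
  let F₁ : A →* σ.ker := (Γ₁.subtype.comp f₁).codRestrict σ.ker
    (fun a => (hσ₁k _).mp (Subgroup.mem_inf.mp ((hf₁ (f₁ a)).mpr ⟨a, rfl⟩)).1)
  let F₂ : B →* σ.ker := (Γ₂.subtype.comp f₂).codRestrict σ.ker
    (fun b => (hσ₂k _).mp (Subgroup.mem_inf.mp ((hf₂ (f₂ b)).mpr ⟨b, rfl⟩)).1)
  refine ⟨F₁.coprod (F₂.coprod F₃), ?_⟩
  let C₁ : Subgroup Γ := ⁅Γ₁, Γ₁⁆
  let C₂ : Subgroup Γ := ⁅Γ₂, Γ₂⁆
  let D : Subgroup Γ := (σ.ker.subtype.comp F₃).range
  have hDn : D.Normal := by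
    constructor
    rintro _ ⟨t, rfl⟩ g
    have hz := hcen (F₃ t).2
    rw [Subgroup.mem_center_iff] at hz
    show g * (F₃ t : Γ) * g⁻¹ ∈ D
    rw [hz g, mul_inv_cancel_right]
    exact ⟨t, rfl⟩
  have hC₁n : C₁.Normal := Subgroup.commutator_normal Γ₁ Γ₁
  have hC₂n : C₂.Normal := Subgroup.commutator_normal Γ₂ Γ₂
  have hCDn : (C₂ ⊔ D).Normal := inferInstance
  let N : Subgroup Γ := C₁ ⊔ (C₂ ⊔ D)
  have hNn : N.Normal := inferInstance
  have hxy : ∀ x ∈ Γ₁, ∀ y ∈ Γ₂, ⁅x, y⁆ ∈ D := by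
    intro x hx y hy
    refine ⟨pureT (p1 x) (p2 y), ?_⟩
    show ((F₃ (pureT (p1 x) (p2 y)) : σ.ker) : Γ) = ⁅x, y⁆
    rw [hF₃]
    show ⁅s₁ (p1 x), s₂ (p2 y)⁆ = ⁅x, y⁆
    rw [hm1] at hx
    rw [hm2] at hy
    apply hstar
    · rw [hs₁, hp x, hx]
    · rw [hs₂, hp y, hy]
  have hyx : ∀ y ∈ Γ₂, ∀ x ∈ Γ₁, ⁅y, x⁆ ∈ D := by
    intro y hy x hx
    rw [← commutatorElement_inv]
    exact D.inv_mem (hxy x hx y hy)
  have hdecomp : ∀ g : Γ, ∃ x ∈ Γ₁, ∃ y ∈ Γ₂, g = x * y := by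
    intro g
    refine ⟨s₁ (p1 g), hs₁m _, (s₁ (p1 g))⁻¹ * g, ?_, by group⟩
    rw [hm2, map_mul, map_inv, hs₁p1, inv_mul_cancel]
  have hD : D ≤ N := le_sup_of_le_right le_sup_right
  have hC₁ : C₁ ≤ N := le_sup_left
  have hC₂ : C₂ ≤ N := le_sup_of_le_right le_sup_left
  have hcommN : commutator Γ ≤ N := by
    rw [commutator_eq_closure, Subgroup.closure_le]
    rintro _ ⟨g, h, rfl⟩
    obtain ⟨x₁, hx₁, y₁, hy₁, rfl⟩ := hdecomp g
    obtain ⟨x₂, hx₂, y₂, hy₂, rfl⟩ := hdecomp h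
    have e1 : ⁅y₁, x₂ * y₂⁆ = ⁅y₁, x₂⁆ * (x₂ * ⁅y₁, y₂⁆ * x₂⁻¹) := by
      rw [commutatorElement_mul_right_eq_mul_conj]; group
    have e2 : ⁅x₁, x₂ * y₂⁆ = ⁅x₁, x₂⁆ * (x₂ * ⁅x₁, y₂⁆ * x₂⁻¹) := by
      rw [commutatorElement_mul_right_eq_mul_conj]; group
    rw [SetLike.mem_coe, commutatorElement_mul_left_eq_conj_mul, e1, e2]
    apply N.mul_mem
    · apply hNn.conj_mem
      apply N.mul_mem
      · exact hD (hyx y₁ hy₁ x₂ hx₂)
      · apply hNn.conj_mem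
        exact hC₂ (Subgroup.commutator_mem_commutator hy₁ hy₂)
    · apply N.mul_mem
      · exact hC₁ (Subgroup.commutator_mem_commutator hx₁ hx₂)
      · apply hNn.conj_mem
        exact hD (hxy x₁ hx₁ y₂ hy₂)
  intro k
  have hk : (k : Γ) ∈ N := hcommN (hcomm k.2)
  obtain ⟨c₁, hc₁, m, hm, hk1⟩ := Subgroup.mem_sup_of_normal_right.mp hk
  obtain ⟨c₂, hc₂, d, hd, hmd⟩ := Subgroup.mem_sup_of_normal_right.mp hm
  have hc₁Γ : c₁ ∈ Γ₁ := Subgroup.commutator_le_self Γ₁ hc₁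
  have hc₂Γ : c₂ ∈ Γ₂ := Subgroup.commutator_le_self Γ₂ hc₂
  obtain ⟨t, ht⟩ := hd
  have ht' : (F₃ t : Γ) = d := ht
  have hdk : d ∈ σ.ker := by rw [← ht']; exact (F₃ t).2
  have hk1' : (k : Γ) = c₁ * (c₂ * d) := by rw [hmd, hk1]
  have hkk := (hker _).mp k.2
  have hdd := (hker d).mp hdk
  have hc₁k : c₁ ∈ σ.ker := by
    rw [hker]
    refine ⟨?_, hc₁Γ⟩
    have h1 := hkk.1
    rw [hk1', map_mul, map_mul, (hm2 c₂).mp hc₂Γ, hdd.1, mul_one, mul_one] at h1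
    exact h1
  have hc₂k : c₂ ∈ σ.ker := by
    rw [hker]
    refine ⟨hc₂Γ, ?_⟩
    have h1 := hkk.2
    rw [hk1', map_mul, map_mul, (hm1 c₁).mp hc₁Γ, hdd.2, mul_one, one_mul] at h1
    exact h1
  have hc₁' : c₁ ∈ (commutator Γ₁).map Γ₁.subtype := by
    rw [Subgroup.map_subtype_commutator]; exact hc₁
  have hc₂' : c₂ ∈ (commutator Γ₂).map Γ₂.subtype := by
    rw [Subgroup.map_subtype_commutator]; exact hc₂
  obtain ⟨c₁', hc₁'', rfl⟩ := hc₁'
  obtain ⟨c₂', hc₂'', rfl⟩ := hc₂'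
  obtain ⟨a, ha⟩ := (hf₁ c₁').mp (Subgroup.mem_inf.mpr ⟨(hσ₁k c₁').mpr hc₁k, hc₁''⟩)
  obtain ⟨b, hb⟩ := (hf₂ c₂').mp (Subgroup.mem_inf.mpr ⟨(hσ₂k c₂').mpr hc₂k, hc₂''⟩)
  refine ⟨(a, b, t), ?_⟩
  apply Subtype.ext
  rw [MonoidHom.coprod_apply, MonoidHom.coprod_apply]
  show (f₁ a : Γ) * ((f₂ b : Γ) * (F₃ t : Γ)) = k
  rw [ha, hb, ht', hk1']
  rfl

theorem exists_surj_of_stem_prod {A : Type u₁} {B : Type u₂} [CommGroup A] [CommGroup B]
    (hA : Cfsg.HasSchurMultiplier Q₁ A) (hB : Cfsg.HasSchurMultiplier Q₂ B)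
    {Γ : Type w} [Group Γ] (σ : Γ →* Q₁ × Q₂) (hσ : Cfsg.IsStemExtension σ) :
    ∃ f : A × B × Multiplicative (TAb Q₁ Q₂) →* σ.ker, Function.Surjective f := by
  have : IsMulCommutative σ.ker := ⟨⟨fun a b => by
    have ha := hσ.2.1 a.2
    rw [Subgroup.mem_center_iff] at ha
    exact Subtype.ext (ha b.1).symm⟩⟩
  exact exists_surj_aux hA hB σ hσ

end Upper


section MainProd

variable {Q₁ : Type u} {Q₂ : Type v} [Group Q₁] [Group Q₂]

theorem hasSchurMultiplier_prod [Finite Q₁] [Finite Q₂] {A : Type u₁} {B : Type u₂}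
    [CommGroup A] [CommGroup B]
    (hA : Cfsg.HasSchurMultiplier Q₁ A) (hB : Cfsg.HasSchurMultiplier Q₂ B) :
    Cfsg.HasSchurMultiplier (Q₁ × Q₂) (A × B × Multiplicative (TAb Q₁ Q₂)) := by
  obtain ⟨⟨Γ, _, _, σ, hσ, ⟨e⟩⟩, _⟩ := hasSchurMultiplier_mult (Q₁ × Q₂)
  obtain ⟨g, hg⟩ := exists_surj_of_stem_prod hA hB σ hσ
  obtain ⟨⟨Γ₁, _, _, σ₁, hσ₁, ⟨e₁⟩⟩, _⟩ := hA
  obtain ⟨⟨Γ₂, _, _, σ₂, hσ₂, ⟨e₂⟩⟩, _⟩ := hB
  obtain ⟨E, _, π, hπ, f, hf⟩ := exists_stem_prod σ₁ σ₂ hσ₁ hσ₂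
  obtain ⟨h, hh⟩ := surj_of_stem π hπ
  let θ : σ₁.ker × σ₂.ker × Multiplicative (TAb Q₁ Q₂) →*
      A × B × Multiplicative (TAb Q₁ Q₂) :=
    MonoidHom.prodMap e₁.toMonoidHom (MonoidHom.prodMap e₂.toMonoidHom (MonoidHom.id _))
  have hθ : Function.Surjective θ := by
    rintro ⟨a, b, t⟩
    exact ⟨(e₁.symm a, e₂.symm b, t), by simp [θ]⟩
  let φ : Mult (Q₁ × Q₂) →* A × B × Multiplicative (TAb Q₁ Q₂) := θ.comp (f.comp h)
  have hφ : Function.Surjective φ := hθ.comp (hf.comp hh)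
  let ψ : A × B × Multiplicative (TAb Q₁ Q₂) →* Mult (Q₁ × Q₂) := e.toMonoidHom.comp g
  have hψ : Function.Surjective ψ := e.surjective.comp hg
  have hinj : Function.Injective (ψ ∘ φ) := Finite.injective_iff_surjective.mpr (hψ.comp hφ)
  have hφi : Function.Injective φ := Function.Injective.of_comp hinj
  exact hasSchurMultiplier_congr (hasSchurMultiplier_mult _) (MulEquiv.ofBijective φ ⟨hφi, hφ⟩)

theorem subsingleton_TAb_of_coprime [Finite Q₁] [Finite Q₂]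
    (hcop : Nat.Coprime (Nat.card (Abelianization Q₁)) (Nat.card (Abelianization Q₂))) :
    Subsingleton (Multiplicative (TAb Q₁ Q₂)) := by
  have key : ∀ t : TAb Q₁ Q₂, t = 0 := by
    intro t
    induction t using TensorProduct.induction_on with
    | zero => rfl
    | tmul a b =>
      have h1 : Nat.card (Abelianization Q₁) • (a ⊗ₜ[ℤ] b) = 0 := by
        rw [TensorProduct.smul_tmul']
        have : Nat.card (Abelianization Q₁) • a = 0 := card_nsmul_eq_zero' (G := Additive (Abelianization Q₁))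
        rw [this, TensorProduct.zero_tmul]
      have h2 : Nat.card (Abelianization Q₂) • (a ⊗ₜ[ℤ] b) = 0 := by
        rw [← TensorProduct.tmul_smul]
        have : Nat.card (Abelianization Q₂) • b = 0 := card_nsmul_eq_zero' (G := Additive (Abelianization Q₂))
        rw [this, TensorProduct.tmul_zero]
      have d1 := addOrderOf_dvd_of_nsmul_eq_zero h1
      have d2 := addOrderOf_dvd_of_nsmul_eq_zero h2
      have d3 : addOrderOf (a ⊗ₜ[ℤ] b) ∣ 1 := by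
        have := Nat.dvd_gcd d1 d2
        rwa [Nat.Coprime.gcd_eq_one hcop] at this
      exact AddMonoid.addOrderOf_eq_one_iff.mp (Nat.dvd_one.mp d3)
    | add s t hs ht => rw [hs, ht, add_zero]
  constructor
  intro a b
  have ha := key (Multiplicative.toAdd a)
  have hb := key (Multiplicative.toAdd b)
  exact Multiplicative.toAdd.injective (ha.trans hb.symm)

theorem hasSchurMultiplier_prod_of_coprime [Finite Q₁] [Finite Q₂] {A : Type u₁} {B : Type u₂}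
    [CommGroup A] [CommGroup B]
    (hA : Cfsg.HasSchurMultiplier Q₁ A) (hB : Cfsg.HasSchurMultiplier Q₂ B)
    (hcop : Nat.Coprime (Nat.card (Abelianization Q₁)) (Nat.card (Abelianization Q₂))) :
    Cfsg.HasSchurMultiplier (Q₁ × Q₂) (A × B) := by
  have hs := subsingleton_TAb_of_coprime hcop
  let φ : A × B × Multiplicative (TAb Q₁ Q₂) →* A × B :=
    MonoidHom.prodMap (MonoidHom.id A) (MonoidHom.fst B _)
  have hφ : Function.Bijective φ := by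
    constructor
    · rintro ⟨a, b, t⟩ ⟨a', b', t'⟩ h
      have h1 : a = a' := congrArg Prod.fst h
      have h2 : b = b' := congrArg Prod.snd h
      have h3 : t = t' := Subsingleton.elim _ _
      rw [h1, h2, h3]
    · rintro ⟨a, b⟩
      exact ⟨(a, b, 1), rfl⟩
  exact hasSchurMultiplier_congr (hasSchurMultiplier_prod hA hB) (MulEquiv.ofBijective φ hφ)

end MainProd

end Cfsg.Agent.Lib.Helper21.SchurProd
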