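import Mathlib
import Cfsg.Agent.Lib.Helper21.SchurCover

set_option autoImplicit false

namespace Cfsg.Agent.Lib.Helper21.SchurTransfer

open Cfsg.Agent.Lib.Helper21.SchurCover

universe u v w

open scoped commutatorElement

section Transfer

variable {F : Type u} [Group F] (S : Subgroup F)

theorem tm_mem (f : F) (q : F ⧸ S) : (f • q).out⁻¹ * f * q.out ∈ S := by
  have h : (QuotientGroup.mk ((f • q).out) : F ⧸ S) = QuotientGroup.mk (f * q.out) := by
    rw [QuotientGroup.out_eq', ← smul_eq_mul, ← MulAction.Quotient.smul_mk, QuotientGroup.out_eq']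
  have h2 := QuotientGroup.eq.mp h
  rwa [← mul_assoc] at h2

noncomputable def tm (f : F) (q : F ⧸ S) : ↥S := ⟨(f • q).out⁻¹ * f * q.out, tm_mem S f q⟩

theorem tm_mul (f g : F) (q : F ⧸ S) : tm S (f * g) q = tm S f (g • q) * tm S g q := by
  apply Subtype.ext
  show ((f * g) • q).out⁻¹ * (f * g) * q.out =
    ((f • (g • q)).out⁻¹ * f * (g • q).out) * ((g • q).out⁻¹ * g * q.out)
  rw [mul_smul]
  group

theorem tm_one (q : F ⧸ S) : tm S (1 : F) q = 1 := by
  apply Subtype.ext
  show ((1 : F) • q).out⁻¹ * 1 * q.out = 1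
  rw [one_smul]
  group

theorem tm_of_fix (r : F) (q : F ⧸ S) (hq : r • q = q) (h : q.out⁻¹ * r * q.out ∈ S) :
    tm S r q = ⟨q.out⁻¹ * r * q.out, h⟩ := by
  apply Subtype.ext
  show (r • q).out⁻¹ * r * q.out = q.out⁻¹ * r * q.out
  rw [hq]

theorem smul_fix (R : Subgroup F) [R.Normal] (hRS : R ≤ S) (r : F) (hr : r ∈ R) (q : F ⧸ S) :
    r • q = q := by
  induction q using QuotientGroup.induction_on with
  | H a =>
    rw [MulAction.Quotient.smul_mk, smul_eq_mul, QuotientGroup.eq]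
    apply hRS
    have h1 : (r * a)⁻¹ * a = a⁻¹ * r⁻¹ * a⁻¹⁻¹ := by group
    rw [h1]
    exact Subgroup.Normal.conj_mem inferInstance _ (R.inv_mem hr) _

variable {A : Type v} [CommGroup A] [Fintype (F ⧸ S)]

noncomputable def tr (lam : ↥S →* A) : F →* A where
  toFun f := ∏ q : F ⧸ S, lam (tm S f q)
  map_one' := by
    apply Finset.prod_eq_one
    intro q _
    rw [tm_one, map_one]
  map_mul' f g := by
    simp only [tm_mul, map_mul]
    rw [Finset.prod_mul_distrib]
    congr 1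
    exact Equiv.prod_comp (MulAction.toPerm g) (fun q => lam (tm S f q))

theorem tr_apply (lam : ↥S →* A) (f : F) : tr S lam f = ∏ q : F ⧸ S, lam (tm S f q) := rfl

theorem tr_commutator (lam : ↥S →* A) (f : F) (hf : f ∈ commutator F) : tr S lam f = 1 :=
  Abelianization.commutator_subset_ker (tr S lam) hf

end Transfer

section KerC

def KerC (G : Type u) [Group G] : Type u := ↥(rhoBar G).ker

noncomputable instance kerCCommGroup (G : Type u) [Group G] : CommGroup (KerC G) :=
  { (inferInstance : Group ↥(rhoBar G).ker) with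
    mul_comm := fun a b => by
      have ha := rhoBar_ker_le_center G a.2
      rw [Subgroup.mem_center_iff] at ha
      exact Subtype.ext (ha b.1).symm }

variable {G : Type u} [Group G]

noncomputable def kval (G : Type u) [Group G] : KerC G →* Fb G := (rhoBar G).ker.subtype

theorem kval_injective : Function.Injective (kval G) := Subtype.val_injective

theorem rhoBar_kval (x : KerC G) : rhoBar G (kval G x) = 1 := MonoidHom.mem_ker.mp x.2

def kmk (x : Fb G) (hx : rhoBar G x = 1) : KerC G := ⟨x, MonoidHom.mem_ker.mpr hx⟩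

theorem kval_kmk (x : Fb G) (hx : rhoBar G x = 1) : kval G (kmk x hx) = x := rfl

theorem kval_central (x : KerC G) (y : Fb G) : y * kval G x = kval G x * y := by
  have ha := rhoBar_ker_le_center G x.2
  rw [Subgroup.mem_center_iff] at ha
  exact ha y

theorem central_of_rhoBar {x : Fb G} (hx : rhoBar G x = 1) (y : Fb G) : y * x = x * y :=
  kval_central (kmk x hx) y

end KerC

section Main

variable {G : Type u} [Group G] (H : Subgroup G)

def RR (G : Type u) [Group G] : Subgroup (FreeGroup G) := (rho G).ker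

instance RR_normal : (RR G).Normal := by unfold RR; infer_instance

def SS : Subgroup (FreeGroup G) := H.comap (rho G)

theorem RR_le_SS : RR G ≤ SS H := by
  intro r hr
  show rho G r ∈ H
  rw [MonoidHom.mem_ker.mp hr]
  exact H.one_mem

theorem conj_mem_RR (t : FreeGroup G) (r : ↥(RR G)) : t⁻¹ * r.1 * t ∈ RR G := by
  have := Subgroup.Normal.conj_mem (inferInstance : (RR G).Normal) r.1 r.2 t⁻¹
  rwa [inv_inv] at this

theorem mem_commutator_of_mk (f : FreeGroup G)
    (h : (QuotientGroup.mk f : Fb G) ∈ commutator (Fb G)) : f ∈ commutator (FreeGroup G) := by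
  have h1 : commutator (Fb G) = (commutator (FreeGroup G)).map (QuotientGroup.mk' (FR G)) := by
    rw [_root_.commutator_def, _root_.commutator_def, Subgroup.map_commutator,
      ← MonoidHom.range_eq_map, QuotientGroup.range_mk']
  rw [h1] at h
  obtain ⟨c, hc, hcf⟩ := h
  have h2 : c⁻¹ * f ∈ FR G := QuotientGroup.eq.mp hcf
  have h3 : FR G ≤ commutator (FreeGroup G) := by
    unfold FR; rw [_root_.commutator_def]; exact Subgroup.commutator_mono le_rfl le_top
  have : f = c * (c⁻¹ * f) := by group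
  rw [this]
  exact Subgroup.mul_mem _ hc (h3 h2)

theorem exists_phi : ∃ phi : Fb ↥H →* Fb G,
    ∀ x, rhoBar G (phi x) = ((rhoBar ↥H x : ↥H) : G) := by
  let m : FreeGroup ↥H →* FreeGroup G := FreeGroup.map Subtype.val
  have hm : ∀ x, rho G (m x) = ((rho ↥H x : ↥H) : G) := by
    intro x
    have : (rho G).comp m = H.subtype.comp (rho ↥H) := by
      apply FreeGroup.ext_hom
      intro a
      rw [MonoidHom.comp_apply, MonoidHom.comp_apply, FreeGroup.map.of, rho_of, rho_of]
      rfl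
    exact DFunLike.congr_fun this x
  have hle : FR ↥H ≤ (FR G).comap m := by
    unfold FR
    rw [Subgroup.commutator_le]
    intro a _ b hb
    rw [Subgroup.mem_comap, map_commutatorElement]
    refine Subgroup.commutator_mem_commutator (Subgroup.mem_top _) ?_
    rw [MonoidHom.mem_ker, hm, MonoidHom.mem_ker.mp hb]
    rfl
  refine ⟨QuotientGroup.map (FR ↥H) (FR G) m hle, ?_⟩
  intro x
  induction x using QuotientGroup.induction_on with
  | H f => rw [QuotientGroup.map_mk, rhoBar_mk, rhoBar_mk, hm]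

theorem exists_psi : ∃ psi : ↥(SS H) →* Fb ↥H,
    ∀ s : ↥(SS H), ((rhoBar ↥H (psi s) : ↥H) : G) = rho G s.1 := by
  let rho' : ↥(SS H) →* ↥H := (rho G).subgroupComap H
  let f : IsFreeGroup.Generators ↥(SS H) → Fb ↥H :=
    fun g => Function.surjInv (rhoBar_surj ↥H) (rho' (IsFreeGroup.of g))
  let psi : ↥(SS H) →* Fb ↥H := IsFreeGroup.lift f
  have h : (rhoBar ↥H).comp psi = rho' := by
    apply IsFreeGroup.ext_hom
    intro g
    rw [MonoidHom.comp_apply, IsFreeGroup.lift_of]
    exact Function.surjInv_eq (rhoBar_surj ↥H) _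
  refine ⟨psi, fun s => ?_⟩
  have h2 := DFunLike.congr_fun h s
  rw [MonoidHom.comp_apply] at h2
  rw [h2]
  rfl

variable (phi : Fb ↥H →* Fb G) (hphi : ∀ x, rhoBar G (phi x) = ((rhoBar ↥H x : ↥H) : G))
variable (psi : ↥(SS H) →* Fb ↥H)
  (hpsi : ∀ s : ↥(SS H), ((rhoBar ↥H (psi s) : ↥H) : G) = rho G s.1)

include hpsi in
theorem rhoBar_psi_RR (x : FreeGroup G) (hx : x ∈ RR G) (hx' : x ∈ SS H) :
    rhoBar ↥H (psi ⟨x, hx'⟩) = 1 := by
  apply Subtype.ext
  rw [hpsi]
  exact MonoidHom.mem_ker.mp hx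

noncomputable def cT (t : FreeGroup G) : ↥(RR G) →* KerC ↥H where
  toFun r := kmk (psi ⟨t⁻¹ * r.1 * t, RR_le_SS H (conj_mem_RR t r)⟩)
    (rhoBar_psi_RR H psi hpsi _ (conj_mem_RR t r) _)
  map_one' := by
    apply kval_injective
    rw [kval_kmk, map_one]
    have : (⟨t⁻¹ * ((1 : ↥(RR G)) : FreeGroup G) * t, RR_le_SS H (conj_mem_RR t 1)⟩ : ↥(SS H)) = 1 := by
      apply Subtype.ext; simp
    rw [this, map_one]
  map_mul' a b := by
    apply kval_injective
    rw [map_mul]
    show psi _ = psi _ * psi _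
    rw [← map_mul]
    congr 1
    apply Subtype.ext
    show t⁻¹ * (a.1 * b.1) * t = (t⁻¹ * a.1 * t) * (t⁻¹ * b.1 * t)
    group

theorem cT_coset (t t' : FreeGroup G) (h : t⁻¹ * t' ∈ SS H) :
    cT H psi hpsi t' = cT H psi hpsi t := by
  ext r
  apply kval_injective
  show psi ⟨t'⁻¹ * r.1 * t', RR_le_SS H (conj_mem_RR t' r)⟩ =
    psi ⟨t⁻¹ * r.1 * t, RR_le_SS H (conj_mem_RR t r)⟩
  have e : (⟨t'⁻¹ * r.1 * t', RR_le_SS H (conj_mem_RR t' r)⟩ : ↥(SS H)) =
      (⟨t⁻¹ * t', h⟩ : ↥(SS H))⁻¹ * ⟨t⁻¹ * r.1 * t, RR_le_SS H (conj_mem_RR t r)⟩ * ⟨t⁻¹ * t', h⟩ := by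
    apply Subtype.ext
    show t'⁻¹ * r.1 * t' = (t⁻¹ * t')⁻¹ * (t⁻¹ * r.1 * t) * (t⁻¹ * t')
    group
  rw [e, map_mul, map_mul, map_inv]
  have hc := central_of_rhoBar (rhoBar_psi_RR H psi hpsi _ (conj_mem_RR t r)
    (RR_le_SS H (conj_mem_RR t r))) (psi ⟨t⁻¹ * t', h⟩)⁻¹
  rw [hc, mul_assoc, inv_mul_cancel, mul_one]

def conjR (f : FreeGroup G) (r : ↥(RR G)) : ↥(RR G) :=
  ⟨f * r.1 * f⁻¹, Subgroup.Normal.conj_mem inferInstance r.1 r.2 f⟩

theorem cT_conj (t f : FreeGroup G) (r : ↥(RR G)) :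
    cT H psi hpsi t (conjR f r) = cT H psi hpsi (f⁻¹ * t) r := by
  apply kval_injective
  show psi ⟨t⁻¹ * (f * r.1 * f⁻¹) * t, _⟩ = psi ⟨(f⁻¹ * t)⁻¹ * r.1 * (f⁻¹ * t), _⟩
  congr 1
  apply Subtype.ext
  show t⁻¹ * (f * r.1 * f⁻¹) * t = (f⁻¹ * t)⁻¹ * r.1 * (f⁻¹ * t)
  group

end Main

section Main2

variable {G : Type u} [Group G] (H : Subgroup G)
variable (phi : Fb ↥H →* Fb G) (hphi : ∀ x, rhoBar G (phi x) = ((rhoBar ↥H x : ↥H) : G))
variable (psi : ↥(SS H) →* Fb ↥H)
  (hpsi : ∀ s : ↥(SS H), ((rhoBar ↥H (psi s) : ↥H) : G) = rho G s.1)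
variable [Fintype (FreeGroup G ⧸ SS H)]

noncomputable def VV : ↥(RR G) →* KerC ↥H := ∏ q : FreeGroup G ⧸ SS H, cT H psi hpsi q.out

theorem VV_apply (r : ↥(RR G)) :
    VV H psi hpsi r = ∏ q : FreeGroup G ⧸ SS H, cT H psi hpsi q.out r := by
  unfold VV
  rw [MonoidHom.finsetProd_apply]

theorem VV_conj (f : FreeGroup G) (r : ↥(RR G)) :
    VV H psi hpsi (conjR f r) = VV H psi hpsi r := by
  rw [VV_apply, VV_apply]
  have h1 : ∀ q : FreeGroup G ⧸ SS H,
      cT H psi hpsi q.out (conjR f r) = cT H psi hpsi (f⁻¹ • q).out r := by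
    intro q
    rw [cT_conj]
    have : cT H psi hpsi (f⁻¹ • q).out = cT H psi hpsi (f⁻¹ * q.out) := by
      apply cT_coset
      apply QuotientGroup.eq.mp
      rw [QuotientGroup.out_eq', ← smul_eq_mul, ← MulAction.Quotient.smul_mk, QuotientGroup.out_eq']
    rw [this]
  rw [Finset.prod_congr rfl (fun q _ => h1 q)]
  exact Equiv.prod_comp (MulAction.toPerm f⁻¹) (fun q : FreeGroup G ⧸ SS H => cT H psi hpsi q.out r)

theorem VV_FR (x : ↥(RR G)) (hx : x.1 ∈ FR G) : VV H psi hpsi x = 1 := by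
  have h : FR G ≤ (VV H psi hpsi).ker.map (RR G).subtype := by
    unfold FR
    rw [Subgroup.commutator_le]
    intro f _ r hr
    refine ⟨conjR f ⟨r, hr⟩ * (⟨r, hr⟩ : ↥(RR G))⁻¹, ?_, ?_⟩
    · rw [SetLike.mem_coe, MonoidHom.mem_ker, map_mul, map_inv, VV_conj, mul_inv_cancel]
    · show f * r * f⁻¹ * r⁻¹ = ⁅f, r⁆
      rw [commutatorElement_def]
  obtain ⟨y, hy, hyx⟩ := h hx
  have : y = x := Subtype.ext hyx
  rw [← this]
  exact MonoidHom.mem_ker.mp hy

noncomputable def kappa : ↥(RR G) →* KerC G where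
  toFun r := kmk (QuotientGroup.mk r.1)
    (by rw [rhoBar_mk]; exact MonoidHom.mem_ker.mp r.2)
  map_one' := by
    apply kval_injective
    rw [map_one]
    rfl
  map_mul' a b := by
    apply kval_injective
    rw [map_mul]
    rfl

theorem kval_kappa (r : ↥(RR G)) : kval G (kappa r) = QuotientGroup.mk r.1 := rfl

theorem kappa_surj : Function.Surjective (kappa (G := G)) := by
  intro x
  obtain ⟨f, hf⟩ := QuotientGroup.mk_surjective (kval G x)
  have hfR : f ∈ RR G := by
    show f ∈ (rho G).ker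
    rw [MonoidHom.mem_ker, ← rhoBar_mk, hf, rhoBar_kval]
  refine ⟨⟨f, hfR⟩, ?_⟩
  apply kval_injective
  rw [kval_kappa]
  exact hf

theorem kappa_ker_le : (kappa (G := G)).ker ≤ (VV H psi hpsi).ker := by
  intro r hr
  rw [MonoidHom.mem_ker] at hr ⊢
  apply VV_FR
  have h1 : (QuotientGroup.mk r.1 : Fb G) = 1 := by
    rw [← kval_kappa, hr, map_one]
  exact (QuotientGroup.eq_one_iff _).mp h1

noncomputable def WW : KerC G →* KerC ↥H :=
  (kappa (G := G)).liftOfRightInverse (Function.surjInv kappa_surj)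
    (Function.rightInverse_surjInv kappa_surj) ⟨VV H psi hpsi, kappa_ker_le H psi hpsi⟩

theorem WW_kappa (r : ↥(RR G)) : WW H psi hpsi (kappa r) = VV H psi hpsi r :=
  MonoidHom.liftOfRightInverse_comp_apply _ _ _ _ r

include hphi in
theorem rhoBar_phi_kval (x : KerC ↥H) : rhoBar G (phi (kval ↥H x)) = 1 := by
  rw [hphi, rhoBar_kval]
  rfl

noncomputable def Phi : KerC ↥H →* KerC G where
  toFun x := kmk (phi (kval ↥H x)) (rhoBar_phi_kval H phi hphi x)
  map_one' := by
    apply kval_injective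
    rw [kval_kmk, map_one, map_one, map_one]
  map_mul' a b := by
    apply kval_injective
    rw [map_mul (kval G)]
    show phi (kval ↥H (a * b)) = phi (kval ↥H a) * phi (kval ↥H b)
    rw [map_mul, map_mul]

theorem kval_Phi (x : KerC ↥H) : kval G (Phi H phi hphi x) = phi (kval ↥H x) := rfl

include hphi hpsi in
theorem rhoBar_lam (s : ↥(SS H)) :
    rhoBar G ((QuotientGroup.mk s.1 : Fb G)⁻¹ * phi (psi s)) = 1 := by
  rw [map_mul, map_inv, rhoBar_mk, hphi, hpsi, inv_mul_cancel]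

noncomputable def lam : ↥(SS H) →* KerC G where
  toFun s := kmk ((QuotientGroup.mk s.1 : Fb G)⁻¹ * phi (psi s))
    (rhoBar_lam H phi hphi psi hpsi s)
  map_one' := by
    apply kval_injective
    rw [kval_kmk, map_one]
    simp
  map_mul' a b := by
    apply kval_injective
    rw [map_mul (kval G)]
    show (QuotientGroup.mk (a * b).1 : Fb G)⁻¹ * phi (psi (a * b)) =
      ((QuotientGroup.mk a.1 : Fb G)⁻¹ * phi (psi a)) * ((QuotientGroup.mk b.1 : Fb G)⁻¹ * phi (psi b))
    have hc := central_of_rhoBar (rhoBar_lam H phi hphi psi hpsi a)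
      (QuotientGroup.mk b.1 : Fb G)⁻¹
    rw [map_mul, map_mul, Subgroup.coe_mul, QuotientGroup.mk_mul, mul_inv_rev]
    calc (QuotientGroup.mk b.1 : Fb G)⁻¹ * (QuotientGroup.mk a.1 : Fb G)⁻¹ *
          (phi (psi a) * phi (psi b))
        = ((QuotientGroup.mk b.1 : Fb G)⁻¹ * ((QuotientGroup.mk a.1 : Fb G)⁻¹ * phi (psi a))) *
          phi (psi b) := by group
      _ = (((QuotientGroup.mk a.1 : Fb G)⁻¹ * phi (psi a)) * (QuotientGroup.mk b.1 : Fb G)⁻¹) *
          phi (psi b) := by rw [hc]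
      _ = _ := by group

theorem Phi_cT (t : FreeGroup G) (r : ↥(RR G)) :
    Phi H phi hphi (cT H psi hpsi t r) =
      kappa r * lam H phi hphi psi hpsi ⟨t⁻¹ * r.1 * t, RR_le_SS H (conj_mem_RR t r)⟩ := by
  apply kval_injective
  rw [map_mul]
  show phi (psi ⟨t⁻¹ * r.1 * t, RR_le_SS H (conj_mem_RR t r)⟩) =
    (QuotientGroup.mk r.1 : Fb G) * ((QuotientGroup.mk (t⁻¹ * r.1 * t) : Fb G)⁻¹ *
      phi (psi ⟨t⁻¹ * r.1 * t, RR_le_SS H (conj_mem_RR t r)⟩))
  have h1 : (QuotientGroup.mk (t⁻¹ * r.1 * t) : Fb G) = QuotientGroup.mk r.1 := by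
    rw [QuotientGroup.mk_mul, QuotientGroup.mk_mul, QuotientGroup.mk_inv]
    have hc : (QuotientGroup.mk t : Fb G)⁻¹ * QuotientGroup.mk r.1 =
        QuotientGroup.mk r.1 * (QuotientGroup.mk t : Fb G)⁻¹ :=
      kval_central (kappa r) (QuotientGroup.mk t : Fb G)⁻¹
    rw [hc, mul_assoc, inv_mul_cancel, mul_one]
  rw [h1, mul_inv_cancel_left]

theorem Phi_VV (r : ↥(RR G)) (hr : r.1 ∈ commutator (FreeGroup G)) :
    Phi H phi hphi (VV H psi hpsi r) = kappa r ^ Fintype.card (FreeGroup G ⧸ SS H) := by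
  rw [VV_apply, map_prod]
  rw [Finset.prod_congr rfl (fun (q : FreeGroup G ⧸ SS H) _ => Phi_cT H phi hphi psi hpsi q.out r)]
  rw [Finset.prod_mul_distrib, Finset.prod_const, Finset.card_univ]
  have h2 : ∏ q : FreeGroup G ⧸ SS H, lam H phi hphi psi hpsi
      ⟨q.out⁻¹ * r.1 * q.out, RR_le_SS H (conj_mem_RR q.out r)⟩ =
      tr (SS H) (lam H phi hphi psi hpsi) r.1 := by
    rw [tr_apply]
    apply Finset.prod_congr rfl
    intro q _
    rw [tm_of_fix (SS H) r.1 q (smul_fix (SS H) (RR G) (RR_le_SS H) r.1 r.2 q)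
      (RR_le_SS H (conj_mem_RR q.out r))]
  rw [h2, tr_commutator _ _ _ hr, mul_one]

end Main2

theorem kval_mem_commutator_of_pow {K : Type u} [Group K] (y : KerC K) (k : ℕ) (hk : 0 < k)
    (hy : y ^ k = 1) : kval K y ∈ commutator (Fb K) := by
  rw [← qb_ker, MonoidHom.mem_ker]
  have h1 : (qb K (kval K y)) ^ k = 1 := by rw [← map_pow, ← map_pow, hy, map_one, map_one]
  have h2 : k • Multiplicative.toAdd (qb K (kval K y)) = 0 := by
    have := congrArg Multiplicative.toAdd h1
    rw [toAdd_pow] at this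
    exact this
  have h3 : Multiplicative.toAdd (qb K (kval K y)) = 0 := by
    apply Finsupp.ext
    intro a
    have h4 := DFunLike.congr_fun h2 a
    rw [Finsupp.smul_apply, Finsupp.zero_apply, nsmul_eq_mul] at h4
    rcases mul_eq_zero.mp h4 with h | h
    · have : k = 0 := by exact_mod_cast h
      omega
    · rw [Finsupp.zero_apply]; exact h
  exact congrArg Multiplicative.ofAdd h3

section Assemble

variable {G : Type u} [Group G] [Finite G] (H : Subgroup G)

noncomputable def jG (G : Type u) [Group G] : Mult G →* KerC G where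
  toFun m := kmk (multVal G m) (MonoidHom.mem_ker.mp (Subgroup.mem_inf.mp (multVal_mem G m)).1)
  map_one' := by
    apply kval_injective
    rw [kval_kmk, map_one, map_one]
  map_mul' a b := by
    apply kval_injective
    rw [map_mul (kval G)]
    show multVal G (a * b) = multVal G a * multVal G b
    rw [map_mul]

theorem kval_jG (m : Mult G) : kval G (jG G m) = multVal G m := rfl

def mkM {K : Type u} [Group K] (x : Fb K) (hx : x ∈ MultSub K) : Mult K := ⟨x, hx⟩

theorem multVal_mkM {K : Type u} [Group K] (x : Fb K) (hx : x ∈ MultSub K) :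
    multVal K (mkM x hx) = x := rfl

theorem exists_pair : ∃ (V : Mult G →* Mult ↥H) (i : Mult ↥H →* Mult G),
    ∀ m, i (V m) = m ^ H.index := by
  classical
  obtain ⟨phi, hphi⟩ := exists_phi H
  obtain ⟨psi, hpsi⟩ := exists_psi H
  have hidx : (SS H).index = H.index := Subgroup.index_comap_of_surjective H (rho_surj G)
  have hfi : (SS H).FiniteIndex := by
    refine ⟨?_⟩
    rw [hidx]
    exact Subgroup.index_ne_zero_of_finite
  let _ : Fintype (FreeGroup G ⧸ SS H) := Subgroup.fintypeQuotientOfFiniteIndex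
  have hcard : Fintype.card (FreeGroup G ⧸ SS H) = H.index := by
    rw [← hidx, Subgroup.index_eq_card, Nat.card_eq_fintype_card]
  have hmemV : ∀ m : Mult G, kval ↥H (WW H psi hpsi (jG G m)) ∈ MultSub ↥H := by
    intro m
    refine Subgroup.mem_inf.mpr ⟨(WW H psi hpsi (jG G m)).2, ?_⟩
    apply kval_mem_commutator_of_pow _ (Nat.card (Mult G)) Nat.card_pos
    rw [← map_pow, ← map_pow, pow_card_eq_one', map_one, map_one]
  let V : Mult G →* Mult ↥H :=
    { toFun := fun m => mkM (kval ↥H (WW H psi hpsi (jG G m))) (hmemV m)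
      map_one' := by
        apply multVal_injective
        show kval ↥H (WW H psi hpsi (jG G 1)) = multVal ↥H 1
        rw [map_one, map_one, map_one, map_one]
      map_mul' := by
        intro a b
        apply multVal_injective
        rw [map_mul (multVal ↥H)]
        show kval ↥H (WW H psi hpsi (jG G (a * b))) =
          kval ↥H (WW H psi hpsi (jG G a)) * kval ↥H (WW H psi hpsi (jG G b))
        rw [map_mul, map_mul, map_mul] }
  have hmemi : ∀ m : Mult ↥H, phi (multVal ↥H m) ∈ MultSub G := by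
    intro m
    have hm := Subgroup.mem_inf.mp (multVal_mem ↥H m)
    refine Subgroup.mem_inf.mpr ⟨?_, ?_⟩
    · rw [MonoidHom.mem_ker, hphi, MonoidHom.mem_ker.mp hm.1]
      rfl
    · exact map_commutator_le' phi (Subgroup.mem_map_of_mem phi hm.2)
  let i : Mult ↥H →* Mult G :=
    { toFun := fun m => mkM (phi (multVal ↥H m)) (hmemi m)
      map_one' := by
        apply multVal_injective
        show phi (multVal ↥H 1) = multVal G 1
        rw [map_one, map_one, map_one]
      map_mul' := by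
        intro a b
        apply multVal_injective
        rw [map_mul (multVal G)]
        show phi (multVal ↥H (a * b)) = phi (multVal ↥H a) * phi (multVal ↥H b)
        rw [map_mul, map_mul] }
  refine ⟨V, i, ?_⟩
  intro m
  apply multVal_injective
  show phi (kval ↥H (WW H psi hpsi (jG G m))) = multVal G (m ^ H.index)
  obtain ⟨r, hr⟩ := kappa_surj (jG G m)
  have hrc : r.1 ∈ commutator (FreeGroup G) := by
    apply mem_commutator_of_mk
    rw [← kval_kappa, hr, kval_jG]
    exact (Subgroup.mem_inf.mp (multVal_mem G m)).2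
  rw [← hr, WW_kappa, ← kval_Phi H phi hphi, Phi_VV H phi hphi psi hpsi r hrc, hcard, hr,
    map_pow, map_pow, kval_jG]

end Assemble

theorem split_of_pow {A : Type v} {B : Type w} [CommGroup A] [CommGroup B] [Finite A] (p n : ℕ)
    [hp : Fact p.Prime] (hn : ¬ p ∣ n) (V : A →* B) (i : B →* A) (h : ∀ a, i (V a) = a ^ n) :
    ∃ C D : Subgroup B, C ⊓ D = ⊥ ∧ C ⊔ D = ⊤ ∧
      Nonempty (CommGroup.primaryComponent A p ≃* C) := by
  obtain ⟨k, e', he', hee⟩ := Nat.exists_eq_pow_mul_and_not_dvd (Nat.card_pos (α := A)).ne' p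
    hp.out.ne_one
  have hcop : Nat.Coprime (e' * n) (p ^ k) := by
    apply Nat.Coprime.pow_right
    rw [Nat.coprime_comm, Nat.Prime.coprime_iff_not_dvd hp.out]
    intro hd
    rcases (Nat.Prime.dvd_mul hp.out).mp hd with hd | hd
    · exact he' hd
    · exact hn hd
  obtain ⟨a, b, hab⟩ := Nat.isCoprime_iff_coprime.mpr hcop
  -- powers
  have F1 : ∀ x ∈ CommGroup.primaryComponent A p, x ^ (p ^ k) = 1 := by
    intro x hx
    obtain ⟨j, hj⟩ := CommGroup.mem_primaryComponent_iff_orderOf.mp hx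
    have h1 : orderOf x ∣ p ^ k * e' := by rw [← hee]; exact orderOf_dvd_natCard x
    rw [hj] at h1
    have h2 : p ^ j ∣ p ^ k :=
      (Nat.Coprime.pow_left j ((Nat.Prime.coprime_iff_not_dvd hp.out).mpr he')).dvd_of_dvd_mul_right h1
    rw [← hj] at h2
    exact orderOf_dvd_iff_pow_eq_one.mp h2
  have F2 : ∀ x ∈ CommGroup.primaryComponent A p, (x ^ n) ^ (a * (e' : ℤ)) = x := by
    intro x hx
    have hz : (n : ℤ) * (a * (e' : ℤ)) = 1 - b * ((p ^ k : ℕ) : ℤ) := by
      have := hab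
      push_cast at this ⊢
      linarith
    rw [← zpow_natCast x n, ← zpow_mul, hz, zpow_sub, zpow_one, zpow_mul', zpow_natCast, F1 x hx,
      one_zpow, inv_one, mul_one]
  have F3 : ∀ y : A, y ^ (a * (e' : ℤ)) ∈ CommGroup.primaryComponent A p := by
    intro y
    have h1 : (y ^ (a * (e' : ℤ))) ^ (p ^ k) = 1 := by
      rw [← zpow_natCast, ← zpow_mul]
      have : a * (e' : ℤ) * ((p ^ k : ℕ) : ℤ) = ((Nat.card A : ℕ) : ℤ) * a := by
        rw [hee]; push_cast; ring
      rw [this, zpow_mul, zpow_natCast, pow_card_eq_one', one_zpow]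
    exact ⟨k, h1⟩
  let θ : A →* A := zpowGroupHom (a * (e' : ℤ))
  have hθ : ∀ y, θ y = y ^ (a * (e' : ℤ)) := fun y => rfl
  let π : B →* B := V.comp (θ.comp i)
  have key : ∀ x ∈ CommGroup.primaryComponent A p, π (V x) = V x := by
    intro x hx
    show V (θ (i (V x))) = V x
    rw [h, hθ, F2 x hx]
  let W : ↥(CommGroup.primaryComponent A p) →* B := V.comp (CommGroup.primaryComponent A p).subtype
  have hinj : Function.Injective W := by
    rw [injective_iff_map_eq_one]
    intro x hx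
    have h1 : (x : A) ^ n = 1 := by
      rw [← h]
      show i (W x) = 1
      rw [hx, map_one]
    obtain ⟨j, hj⟩ := CommGroup.mem_primaryComponent_iff_orderOf.mp x.2
    have h2 : p ^ j ∣ n := by rw [← hj]; exact orderOf_dvd_of_pow_eq_one h1
    have hj0 : j = 0 := by
      by_contra hne
      exact hn (dvd_trans (dvd_pow_self p hne) h2)
    rw [hj0, pow_zero, orderOf_eq_one_iff] at hj
    exact Subtype.ext hj
  refine ⟨W.range, π.ker, ?_, ?_, ⟨MonoidHom.ofInjective hinj⟩⟩
  · rw [eq_bot_iff]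
    rintro c ⟨⟨x, rfl⟩, hc⟩
    have hc' : π (W x) = 1 := MonoidHom.mem_ker.mp hc
    have : π (V x.1) = V x.1 := key x.1 x.2
    rw [Subgroup.mem_bot]
    show V x.1 = 1
    rw [← this]
    exact hc'
  · rw [eq_top_iff]
    intro c _
    have h1 : π c ∈ W.range := ⟨⟨θ (i c), F3 (i c)⟩, rfl⟩
    have h2 : (π c)⁻¹ * c ∈ π.ker := by
      rw [MonoidHom.mem_ker, map_mul, map_inv]
      have : π (π c) = π c := key (θ (i c)) (F3 (i c))
      rw [this, inv_mul_cancel]
    have : c = π c * ((π c)⁻¹ * c) := by group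
    rw [this]
    exact Subgroup.mul_mem_sup h1 h2

theorem sylow_summand {G : Type u} [Group G] [Finite G] (H : Subgroup G) (p : ℕ) [Fact p.Prime]
    (hp : ¬ p ∣ H.index) {A : Type v} {B : Type w} [CommGroup A] [CommGroup B]
    (hA : Cfsg.HasSchurMultiplier G A) (hB : Cfsg.HasSchurMultiplier ↥H B) :
    ∃ C D : Subgroup B, C ⊓ D = ⊥ ∧ C ⊔ D = ⊤ ∧
      Nonempty (CommGroup.primaryComponent A p ≃* C) := by
  obtain ⟨eA⟩ := mulEquiv_of_hasSchurMultiplier hA
  obtain ⟨eB⟩ := mulEquiv_of_hasSchurMultiplier hB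
  have : Finite A := Finite.of_equiv _ eA.symm.toEquiv
  obtain ⟨V, i, hVi⟩ := exists_pair H
  refine split_of_pow p H.index hp (eB.symm.toMonoidHom.comp (V.comp eA.toMonoidHom))
    (eA.symm.toMonoidHom.comp (i.comp eB.toMonoidHom)) ?_
  intro a
  show eA.symm (i (eB (eB.symm (V (eA a))))) = a ^ H.index
  rw [MulEquiv.apply_symm_apply, hVi, map_pow, MulEquiv.symm_apply_apply]

end Cfsg.Agent.Lib.Helper21.SchurTransfer
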