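import Mathlib
import Cfsg.Prelude.Def_KGroupFacts
import Cfsg.Agent.Lib.Helper21.SchurCover

set_option autoImplicit false

/-! Uniqueness of the Schur covering group over the base group. -/

namespace Cfsg.Agent.Lib.Helper21.SchurUnique

open Cfsg.Agent.Lib.Helper21.SchurCover

universe u v w

section Lifts

variable {G : Type u} [Group G]

theorem commutator_le_map_rhoBar : commutator G ≤ (commutator (Fb G)).map (rhoBar G) := by
  rw [_root_.commutator_def, _root_.commutator_def, Subgroup.map_commutator,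
    Subgroup.map_top_of_surjective _ (rhoBar_surj G)]

theorem exists_ker_pow [Finite G] (x : Fb G) :
    ∃ r ∈ (rhoBar G).ker, qb G r = (qb G x) ^ Nat.card (Abelianization G) := by
  have h1 : (Abelianization.of (rhoBar G x)) ^ Nat.card (Abelianization G) = 1 := pow_card_eq_one'
  rw [← map_pow, ← map_pow] at h1
  have h2 : rhoBar G (x ^ Nat.card (Abelianization G)) ∈ commutator G := by
    rw [← Abelianization.ker_of, MonoidHom.mem_ker]; exact h1
  obtain ⟨k, hk, hkx⟩ := commutator_le_map_rhoBar h2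
  refine ⟨x ^ Nat.card (Abelianization G) * k⁻¹, ?_, ?_⟩
  · rw [MonoidHom.mem_ker, map_mul, map_inv, hkx, mul_inv_cancel]
  · have hk' : qb G k = 1 := by
      rw [← MonoidHom.mem_ker, qb_ker]; exact hk
    rw [map_mul, map_inv, hk', inv_one, mul_one, map_pow]

theorem lift_ker {Γ : Type v} [Group Γ] (σ : Γ →* G) (hσ : Cfsg.IsStemExtension σ)
    (φ : Fb G →* Γ) (hφ : σ.comp φ = rhoBar G) :
    ∀ k ∈ σ.ker, ∃ m ∈ MultSub G, φ m = k := by
  intro k hk
  have hmap := map_multSub σ hσ.2.1 φ hφ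
  have hker : σ.ker ⊓ commutator Γ = σ.ker := inf_eq_left.mpr hσ.2.2
  rw [hker] at hmap
  rw [← hmap] at hk
  exact hk

theorem lift_surj {Γ : Type v} [Group Γ] (σ : Γ →* G) (hσ : Cfsg.IsStemExtension σ)
    (φ : Fb G →* Γ) (hφ : σ.comp φ = rhoBar G) : Function.Surjective φ := by
  intro d
  have hφ' : ∀ x, σ (φ x) = rhoBar G x := fun x => by rw [← MonoidHom.comp_apply, hφ]
  obtain ⟨x, hx⟩ := rhoBar_surj G (σ d)
  have h1 : (φ x)⁻¹ * d ∈ σ.ker := by
    rw [MonoidHom.mem_ker, map_mul, map_inv, hφ', hx, inv_mul_cancel]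
  obtain ⟨m, _, hmf⟩ := lift_ker σ hσ φ hφ _ h1
  refine ⟨x * m, ?_⟩
  rw [map_mul, hmf]
  group

theorem lift_inj [Finite G] {Γ : Type v} [Group Γ] (σ : Γ →* G)
    (hσ : Cfsg.IsStemExtension σ) (φ : Fb G →* Γ) (hφ : σ.comp φ = rhoBar G)
    (hcard : Nat.card σ.ker = Nat.card (Mult G)) :
    ∀ m ∈ MultSub G, φ m = 1 → m = 1 := by
  have hφ' : ∀ x, σ (φ x) = rhoBar G x := fun x => by rw [← MonoidHom.comp_apply, hφ]
  let j : Mult G → σ.ker := fun m => ⟨φ (multVal G m), by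
    rw [MonoidHom.mem_ker, hφ']
    exact (Subgroup.mem_inf.mp (multVal_mem G m)).1⟩
  have hj : Function.Surjective j := by
    rintro ⟨k, hk⟩
    obtain ⟨m, hm, hmk⟩ := lift_ker σ hσ φ hφ k hk
    obtain ⟨m', rfl⟩ := multVal_surj G m hm
    exact ⟨m', Subtype.ext hmk⟩
  have hbij := hj.bijective_of_nat_card_le (le_of_eq hcard.symm)
  intro m hm h1
  obtain ⟨m', rfl⟩ := multVal_surj G m hm
  have h2 : j m' = j 1 := by
    apply Subtype.ext
    show φ (multVal G m') = φ (multVal G 1)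
    rw [h1, map_one, map_one]
  rw [hbij.1 h2, map_one]

theorem exists_inv_mod {n a : ℕ} (h : Nat.Coprime n a) (ha : 0 < a) :
    ∃ n' : ℕ, n * n' ≡ 1 [MOD a] := by
  rcases Nat.lt_or_ge 1 a with h1 | h1
  · obtain ⟨m, -, hm⟩ := Nat.exists_mul_mod_eq_one_of_coprime h h1
    refine ⟨m, ?_⟩
    unfold Nat.ModEq
    rw [hm, Nat.mod_eq_of_lt h1]
  · have : a = 1 := by omega
    subst this
    exact ⟨0, Nat.modEq_one⟩

/-- Coprime case: any two Schur covers are isomorphic over `G`. -/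
theorem iso_of_coprime [Finite G]
    (hcop : Nat.Coprime (Nat.card (Abelianization G)) (Nat.card (Mult G)))
    {Γ₁ : Type v} {Γ₂ : Type w} [Group Γ₁] [Group Γ₂] (σ₁ : Γ₁ →* G) (σ₂ : Γ₂ →* G)
    (h₁ : Cfsg.IsStemExtension σ₁) (h₂ : Cfsg.IsStemExtension σ₂)
    (hc₁ : Nat.card σ₁.ker = Nat.card (Mult G)) (hc₂ : Nat.card σ₂.ker = Nat.card (Mult G)) :
    ∃ e : Γ₁ ≃* Γ₂, σ₂.comp e.toMonoidHom = σ₁ := by
  obtain ⟨φ₁, hφ₁⟩ := exists_lift σ₁ h₁.1 h₁.2.1
  obtain ⟨φ₂, hφ₂⟩ := exists_lift σ₂ h₂.1 h₂.2.1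
  have hφ₁' : ∀ x, σ₁ (φ₁ x) = rhoBar G x := fun x => by rw [← MonoidHom.comp_apply, hφ₁]
  have hφ₂' : ∀ x, σ₂ (φ₂ x) = rhoBar G x := fun x => by rw [← MonoidHom.comp_apply, hφ₂]
  obtain ⟨n, hn⟩ : ∃ n : ℕ, n = Nat.card (Abelianization G) := ⟨_, rfl⟩
  rw [← hn] at hcop
  obtain ⟨n', hn'⟩ := exists_inv_mod hcop Nat.card_pos
  have hfin₂ : Finite σ₂.ker := Nat.finite_of_card_ne_zero (by rw [hc₂]; exact Nat.card_pos.ne')
  have hpow : ∀ g : Γ₂, g ∈ σ₂.ker → g ^ (n * n') = g := by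
    intro g hg
    have h1 : (⟨g, hg⟩ : σ₂.ker) ^ Nat.card σ₂.ker = 1 := pow_card_eq_one'
    have h2 : g ^ Nat.card (Mult G) = 1 := by
      rw [← hc₂]; exact congrArg Subtype.val h1
    have h3 : orderOf g ∣ Nat.card (Mult G) := orderOf_dvd_of_pow_eq_one h2
    have h4 : n * n' ≡ 1 [MOD orderOf g] := Nat.ModEq.of_dvd h3 hn'
    have h5 := (pow_eq_pow_iff_modEq (x := g)).mpr h4
    rw [h5, pow_one]
  have hker₁ : φ₁.ker ≤ (rhoBar G).ker := by
    intro x hx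
    rw [MonoidHom.mem_ker] at hx ⊢
    rw [← hφ₁', hx, map_one]
  -- the function `c`
  have hex : ∀ x : Fb G, ∃ c ∈ φ₁.ker, qb G c = (qb G x) ^ n := by
    intro x
    obtain ⟨r, hr, hrq⟩ := exists_ker_pow x
    have h1 : φ₁ r ∈ σ₁.ker := by rw [MonoidHom.mem_ker, hφ₁']; exact hr
    obtain ⟨m, hm, hmr⟩ := lift_ker σ₁ h₁ φ₁ hφ₁ _ h1
    refine ⟨r * m⁻¹, ?_, ?_⟩
    · rw [MonoidHom.mem_ker, map_mul, map_inv, hmr, mul_inv_cancel]
    · have hm' : qb G m = 1 := by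
        rw [← MonoidHom.mem_ker, qb_ker]; exact (Subgroup.mem_inf.mp hm).2
      rw [map_mul, map_inv, hm', inv_one, mul_one, hrq, hn]
  have huniq : ∀ c c' : Fb G, c ∈ φ₁.ker → c' ∈ φ₁.ker → qb G c = qb G c' → c = c' := by
    intro c c' hc hc' h
    have h1 : c * c'⁻¹ ∈ MultSub G := by
      refine Subgroup.mem_inf.mpr ⟨Subgroup.mul_mem _ (hker₁ hc) (Subgroup.inv_mem _ (hker₁ hc')), ?_⟩
      rw [← qb_ker, MonoidHom.mem_ker, map_mul, map_inv, h, mul_inv_cancel]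
    have h2 : φ₁ (c * c'⁻¹) = 1 := by
      rw [map_mul, map_inv, MonoidHom.mem_ker.mp hc, MonoidHom.mem_ker.mp hc', inv_one, mul_one]
    exact mul_inv_eq_one.mp (lift_inj σ₁ h₁ φ₁ hφ₁ hc₁ _ h1 h2)
  choose cf hcf1 hcf2 using hex
  have hcf_mul : ∀ x y, cf (x * y) = cf x * cf y := by
    intro x y
    apply huniq _ _ (hcf1 _) (Subgroup.mul_mem _ (hcf1 x) (hcf1 y))
    rw [hcf2, map_mul, map_mul, hcf2, hcf2, mul_pow]
  have hcf_ker : ∀ x ∈ φ₁.ker, cf x = x ^ n := by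
    intro x hx
    apply huniq _ _ (hcf1 _) (Subgroup.pow_mem _ hx n)
    rw [hcf2, map_pow]
  have hcf_mult : ∀ m ∈ MultSub G, cf m = 1 := by
    intro m hm
    apply huniq _ _ (hcf1 _) (Subgroup.one_mem _)
    have hm' : qb G m = 1 := by
      rw [← MonoidHom.mem_ker, qb_ker]; exact (Subgroup.mem_inf.mp hm).2
    rw [hcf2, hm', one_pow, map_one]
  -- the central twist
  have hzk : ∀ x, φ₂ (cf x) ∈ σ₂.ker := by
    intro x
    rw [MonoidHom.mem_ker, hφ₂']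
    exact hker₁ (hcf1 x)
  obtain ⟨zz, hzz⟩ : ∃ zz : Fb G → Γ₂, ∀ x, zz x = ((φ₂ (cf x))⁻¹) ^ n' := ⟨_, fun _ => rfl⟩
  have hzz_ker : ∀ x, zz x ∈ σ₂.ker := by
    intro x
    rw [hzz]
    exact Subgroup.pow_mem _ (Subgroup.inv_mem _ (hzk x)) n'
  have hzz_cen : ∀ x (g : Γ₂), g * zz x = zz x * g := by
    intro x g
    have := h₂.2.1 (hzz_ker x)
    rw [Subgroup.mem_center_iff] at this
    exact this g
  have hzz_mul : ∀ x y, zz (x * y) = zz x * zz y := by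
    intro x y
    rw [hzz, hzz, hzz, hcf_mul, map_mul, mul_inv_rev]
    have hc : Commute (φ₂ (cf y))⁻¹ (φ₂ (cf x))⁻¹ := by
      have := h₂.2.1 (Subgroup.inv_mem _ (hzk x))
      rw [Subgroup.mem_center_iff] at this
      exact this _
    rw [hc.mul_pow, (hc.pow_pow n' n').eq]
  let ψ : Fb G →* Γ₂ := MonoidHom.mk' (fun x => φ₂ x * zz x) (by
    intro x y
    rw [map_mul, hzz_mul]
    calc φ₂ x * φ₂ y * (zz x * zz y) = φ₂ x * (φ₂ y * zz x) * zz y := by group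
      _ = φ₂ x * (zz x * φ₂ y) * zz y := by rw [hzz_cen x (φ₂ y)]
      _ = φ₂ x * zz x * (φ₂ y * zz y) := by group)
  have hψ_apply : ∀ x, ψ x = φ₂ x * zz x := fun x => rfl
  have hψσ : σ₂.comp ψ = rhoBar G := by
    refine MonoidHom.ext (fun x => ?_)
    rw [MonoidHom.comp_apply, hψ_apply, map_mul, hφ₂', MonoidHom.mem_ker.mp (hzz_ker x), mul_one]
  have hψσ' : ∀ x, σ₂ (ψ x) = rhoBar G x := fun x => by rw [← MonoidHom.comp_apply, hψσ]
  have hkereq : φ₁.ker = ψ.ker := by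
    ext x
    constructor
    · intro hx
      rw [MonoidHom.mem_ker, hψ_apply, hzz, hcf_ker x hx, map_pow, inv_pow, ← pow_mul]
      have hg : φ₂ x ∈ σ₂.ker := by
        rw [MonoidHom.mem_ker, hφ₂']; exact hker₁ hx
      rw [hpow _ hg, mul_inv_cancel]
    · intro hx
      have hx1 : ψ x = 1 := MonoidHom.mem_ker.mp hx
      have hr : x ∈ (rhoBar G).ker := by
        rw [MonoidHom.mem_ker, ← hψσ', hx1, map_one]
      have h1 : φ₁ x ∈ σ₁.ker := by rw [MonoidHom.mem_ker, hφ₁']; exact hr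
      obtain ⟨m, hm, hmx⟩ := lift_ker σ₁ h₁ φ₁ hφ₁ _ h1
      have hc₀ : x * m⁻¹ ∈ φ₁.ker := by
        rw [MonoidHom.mem_ker, map_mul, map_inv, hmx, mul_inv_cancel]
      have hψc₀ : ψ (x * m⁻¹) = 1 := by
        rw [hψ_apply, hzz, hcf_ker _ hc₀, map_pow, inv_pow, ← pow_mul]
        have hg : φ₂ (x * m⁻¹) ∈ σ₂.ker := by
          rw [MonoidHom.mem_ker, hφ₂']; exact hker₁ hc₀
        rw [hpow _ hg, mul_inv_cancel]
      have hψm : ψ m = φ₂ m := by
        rw [hψ_apply, hzz, hcf_mult m hm, map_one, inv_one, one_pow, mul_one]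
      have h2 : φ₂ m = 1 := by
        rw [← hψm]
        have e : m = (x * m⁻¹)⁻¹ * x := by group
        rw [e, map_mul, map_inv, hψc₀, hx1, inv_one, one_mul]
      have h3 : m = 1 := lift_inj σ₂ h₂ φ₂ hφ₂ hc₂ m hm h2
      rw [h3, inv_one, mul_one] at hc₀
      exact hc₀
  have hs₁ := lift_surj σ₁ h₁ φ₁ hφ₁
  have hsψ := lift_surj σ₂ h₂ ψ hψσ
  let e₁ : Fb G ⧸ φ₁.ker ≃* Γ₁ := QuotientGroup.quotientKerEquivOfSurjective φ₁ hs₁
  let e₂ : Fb G ⧸ ψ.ker ≃* Γ₂ := QuotientGroup.quotientKerEquivOfSurjective ψ hsψ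
  let e₃ : Fb G ⧸ φ₁.ker ≃* Fb G ⧸ ψ.ker := QuotientGroup.quotientMulEquivOfEq hkereq
  refine ⟨e₁.symm.trans (e₃.trans e₂), ?_⟩
  refine MonoidHom.ext (fun γ => ?_)
  obtain ⟨x, rfl⟩ := hs₁ γ
  have he₁ : e₁.symm (φ₁ x) = QuotientGroup.mk x := by
    rw [MulEquiv.symm_apply_eq]; rfl
  show σ₂ (e₂ (e₃ (e₁.symm (φ₁ x)))) = σ₁ (φ₁ x)
  rw [he₁, QuotientGroup.quotientMulEquivOfEq_mk]
  have he₂ : e₂ (QuotientGroup.mk x) = ψ x := rfl
  rw [he₂, hψσ', hφ₁']

end Lifts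

section Compl

variable {G : Type u} [Group G]

/-- `C` is a complement of the multiplier in the kernel of `rhoBar`. -/
structure IsComp (C : Subgroup (Fb G)) : Prop where
  le : C ≤ (rhoBar G).ker
  inf : C ⊓ commutator (Fb G) = ⊥
  dec : ∀ f ∈ (rhoBar G).ker, ∃ c ∈ MultSub G, ∃ y ∈ C, f = c * y

theorem IsComp.normal {C : Subgroup (Fb G)} (h : IsComp C) : C.Normal := by
  constructor
  intro n hn g
  have hc := rhoBar_ker_le_center G (h.le hn)
  rw [Subgroup.mem_center_iff] at hc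
  rw [hc g, mul_inv_cancel_right]
  exact hn

/-- The cover attached to a complement. -/
def Cov (C : Subgroup (Fb G)) (_h : IsComp C) : Type u := Fb G ⧸ C

instance covGroup (C : Subgroup (Fb G)) (h : IsComp C) : Group (Cov C h) := by
  letI := h.normal
  exact (inferInstance : Group (Fb G ⧸ C))

def covMk (C : Subgroup (Fb G)) (h : IsComp C) : Fb G →* Cov C h := by
  letI := h.normal
  exact QuotientGroup.mk' C

def sig (C : Subgroup (Fb G)) (h : IsComp C) : Cov C h →* G := by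
  letI := h.normal
  exact QuotientGroup.lift C (rhoBar G) h.le

theorem sig_covMk (C : Subgroup (Fb G)) (h : IsComp C) (x : Fb G) :
    sig C h (covMk C h x) = rhoBar G x := rfl

theorem covMk_surj (C : Subgroup (Fb G)) (h : IsComp C) : Function.Surjective (covMk C h) := by
  let _ := h.normal
  exact QuotientGroup.mk'_surjective C

theorem covMk_eq_one_iff (C : Subgroup (Fb G)) (h : IsComp C) (x : Fb G) :
    covMk C h x = 1 ↔ x ∈ C := by
  let _ := h.normal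
  exact QuotientGroup.eq_one_iff x

theorem sig_surj (C : Subgroup (Fb G)) (h : IsComp C) : Function.Surjective (sig C h) := by
  intro g
  obtain ⟨x, hx⟩ := rhoBar_surj G g
  exact ⟨covMk C h x, hx⟩

theorem sig_stem (C : Subgroup (Fb G)) (h : IsComp C) : Cfsg.IsStemExtension (sig C h) := by
  refine ⟨sig_surj C h, ?_, ?_⟩
  · intro x hx
    obtain ⟨f, rfl⟩ := covMk_surj C h x
    have hf : f ∈ (rhoBar G).ker := hx
    have hc := rhoBar_ker_le_center G hf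
    rw [Subgroup.mem_center_iff] at hc ⊢
    intro y
    obtain ⟨g, rfl⟩ := covMk_surj C h y
    rw [← map_mul, ← map_mul, hc g]
  · intro x hx
    obtain ⟨f, rfl⟩ := covMk_surj C h x
    have hf : f ∈ (rhoBar G).ker := hx
    obtain ⟨c, hc, y, hy, rfl⟩ := h.dec f hf
    rw [map_mul, (covMk_eq_one_iff C h y).mpr hy, mul_one]
    exact map_commutator_le' (covMk C h)
      (Subgroup.mem_map_of_mem _ (Subgroup.mem_inf.mp hc).2)

theorem sig_ker_equiv (C : Subgroup (Fb G)) (h : IsComp C) :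
    Nonempty ((sig C h).ker ≃* Mult G) := by
  let j : Mult G →* (sig C h).ker := ((covMk C h).comp (multVal G)).codRestrict (sig C h).ker (by
    intro m
    rw [MonoidHom.mem_ker]
    exact (Subgroup.mem_inf.mp (multVal_mem G m)).1)
  have hjinj : Function.Injective j := by
    rw [injective_iff_map_eq_one]
    intro m hm
    have h1 : covMk C h (multVal G m) = 1 := congrArg Subtype.val hm
    rw [covMk_eq_one_iff] at h1
    have h2 : multVal G m ∈ C ⊓ commutator (Fb G) :=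
      Subgroup.mem_inf.mpr ⟨h1, (Subgroup.mem_inf.mp (multVal_mem G m)).2⟩
    rw [h.inf, Subgroup.mem_bot] at h2
    exact multVal_injective G (h2.trans (map_one _).symm)
  have hjsurj : Function.Surjective j := by
    rintro ⟨x, hx⟩
    obtain ⟨f, rfl⟩ := covMk_surj C h x
    have hf : f ∈ (rhoBar G).ker := hx
    obtain ⟨c, hc, y, hy, rfl⟩ := h.dec f hf
    obtain ⟨m, rfl⟩ := multVal_surj G c hc
    refine ⟨m, Subtype.ext ?_⟩
    show covMk C h (multVal G m) = covMk C h (multVal G m * y)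
    rw [map_mul, (covMk_eq_one_iff C h y).mpr hy, mul_one]
  exact ⟨(MulEquiv.ofBijective j ⟨hjinj, hjsurj⟩).symm⟩

theorem cov_finite [Finite G] (C : Subgroup (Fb G)) (h : IsComp C) : Finite (Cov C h) := by
  obtain ⟨e⟩ := sig_ker_equiv C h
  have hfinker : Finite (sig C h).ker := Finite.of_equiv _ e.symm.toEquiv
  exact finite_of_ker_of_surj (sig C h) (sig_surj C h)

theorem exists_comp [Finite G] : ∃ C : Subgroup (Fb G), IsComp C := by
  have hNcomm : ∀ a ∈ (rhoBar G).ker, ∀ b ∈ (rhoBar G).ker, a * b = b * a := by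
    intro a ha b _
    have hc := rhoBar_ker_le_center G ha
    rw [Subgroup.mem_center_iff] at hc
    exact (hc b).symm
  obtain ⟨S, hSN, hSq, hSgen⟩ := exists_split (qb G) (rhoBar G).ker hNcomm
  rw [qb_ker] at hSq
  refine ⟨S, hSN, hSq, ?_⟩
  intro f hf
  obtain ⟨y, hy, hxy⟩ := hSgen f hf
  rw [qb_ker] at hxy
  exact ⟨f * y⁻¹, Subgroup.mem_inf.mpr ⟨Subgroup.mul_mem _ hf (Subgroup.inv_mem _ (hSN hy)), hxy⟩,
    y, hy, by group⟩

end Compl

section NonUnique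

theorem exists_functional {M : Type v} [AddCommGroup M] [Module.Free ℤ M] (p : ℤ) (x : M)
    (hx : ∀ y : M, p • y ≠ x) : ∃ φ : M →ₗ[ℤ] ℤ, ¬ p ∣ φ x := by
  classical
  let b := Module.Free.chooseBasis ℤ M
  by_contra hcon
  have h1 : ∀ i, p ∣ b.repr x i := by
    intro i
    by_contra hi
    exact hcon ⟨(Finsupp.lapply i).comp b.repr.toLinearMap, hi⟩
  apply hx (b.repr.symm (Finsupp.mapRange (fun z => z / p) (Int.zero_ediv p) (b.repr x)))
  apply b.repr.injective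
  rw [map_smul, LinearEquiv.apply_symm_apply]
  ext i
  rw [Finsupp.smul_apply, Finsupp.mapRange_apply, smul_eq_mul]
  exact Int.mul_ediv_cancel' (h1 i)

open scoped IsMulCommutative in
theorem exists_eta_aux {E : Type v} [Group E] {V : Type w} [AddCommGroup V] [Module.Free ℤ V]
    [Module.Finite ℤ V] (q : E →* Multiplicative V) (N : Subgroup E) [IsMulCommutative N]
    (hN : N ⊓ q.ker = ⊥) (p : ℕ) (c₀ : ↥N) (hno : ∀ c : ↥N, c ^ p ≠ c₀) :
    ∃ η : ↥N → ℤ, (∀ a b, η (a * b) = η a + η b) ∧ ¬ (p : ℤ) ∣ η c₀ := by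
  let incl : ↥N →* E := N.subtype
  let Qadd : Additive ↥N →+ V := MonoidHom.toAdditiveLeft (q.comp incl)
  let Qlin : Additive ↥N →ₗ[ℤ] V := Qadd.toIntLinearMap
  have hQ : ∀ a : Additive ↥N, Qlin a = Multiplicative.toAdd (q (incl (Additive.toMul a))) :=
    fun a => rfl
  have hinj : Function.Injective Qlin := by
    rw [injective_iff_map_eq_zero]
    intro a ha
    rw [hQ] at ha
    have h1 : q (incl (Additive.toMul a)) = 1 := ha
    have h2 : incl (Additive.toMul a) ∈ N ⊓ q.ker :=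
      Subgroup.mem_inf.mpr ⟨(Additive.toMul a).2, h1⟩
    rw [hN, Subgroup.mem_bot] at h2
    have h3 : Additive.toMul a = 1 := Subtype.ext h2
    exact h3
  have : Module.Free ℤ (Additive ↥N) :=
    Module.Free.of_equiv (LinearEquiv.ofInjective Qlin hinj).symm
  obtain ⟨φ, hφ⟩ := exists_functional (p : ℤ) (Additive.ofMul c₀) (by
    intro y hy
    apply hno (Additive.toMul y)
    rw [Nat.cast_smul_eq_nsmul] at hy
    exact hy)
  refine ⟨fun c => φ (Additive.ofMul c), fun a b => ?_, hφ⟩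
  show φ (Additive.ofMul (a * b)) = φ (Additive.ofMul a) + φ (Additive.ofMul b)
  rw [ofMul_mul, map_add]

theorem exists_eta {E : Type v} [Group E] {V : Type w} [AddCommGroup V] [Module.Free ℤ V]
    [Module.Finite ℤ V] (q : E →* Multiplicative V) (N : Subgroup E)
    (hcomm : ∀ a ∈ N, ∀ b ∈ N, a * b = b * a)
    (hN : N ⊓ q.ker = ⊥) (p : ℕ) (c₀ : ↥N) (hno : ∀ c : ↥N, c ^ p ≠ c₀) :
    ∃ η : ↥N → ℤ, (∀ a b, η (a * b) = η a + η b) ∧ ¬ (p : ℤ) ∣ η c₀ := by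
  have : IsMulCommutative N := ⟨⟨fun a b => Subtype.ext (hcomm a a.2 b b.2)⟩⟩
  exact exists_eta_aux q N hN p c₀ hno

variable {G : Type u} [Group G]

theorem not_unique [Finite G] (p : ℕ) (hp : p.Prime) (hpA : p ∣ Nat.card (Abelianization G))
    (hpM : p ∣ Nat.card (Mult G)) :
    ∃ (C₁ C₂ : Subgroup (Fb G)) (h₁ : IsComp C₁) (h₂ : IsComp C₂),
      ¬ ∃ e : Cov C₁ h₁ ≃* Cov C₂ h₂, (sig C₂ h₂).comp e.toMonoidHom = sig C₁ h₁ := by
  have : Fact p.Prime := ⟨hp⟩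
  obtain ⟨a, ha⟩ := exists_prime_orderOf_dvd_card' p hpA
  obtain ⟨g, rfl⟩ : ∃ g, Abelianization.of g = a := QuotientGroup.mk_surjective a
  obtain ⟨f, rfl⟩ := rhoBar_surj G g
  have hne : Abelianization.of (rhoBar G f) ≠ 1 := by
    intro h
    rw [h, orderOf_one] at ha
    exact hp.one_lt.ne ha
  have hpow : (Abelianization.of (rhoBar G f)) ^ p = 1 := by
    rw [← ha]; exact pow_orderOf_eq_one _
  have hr₀ : ∃ r ∈ (rhoBar G).ker, qb G r = (qb G f) ^ p := by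
    rw [← map_pow, ← map_pow] at hpow
    have h2 : rhoBar G (f ^ p) ∈ commutator G := by
      rw [← Abelianization.ker_of, MonoidHom.mem_ker]; exact hpow
    obtain ⟨k, hk, hkx⟩ := commutator_le_map_rhoBar h2
    refine ⟨f ^ p * k⁻¹, ?_, ?_⟩
    · rw [MonoidHom.mem_ker, map_mul, map_inv, hkx, mul_inv_cancel]
    · have hk' : qb G k = 1 := by
        rw [← MonoidHom.mem_ker, qb_ker]; exact hk
      rw [map_mul, map_inv, hk', inv_one, mul_one, map_pow]
  have hno : ∀ r ∈ (rhoBar G).ker, qb G r ≠ qb G f := by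
    intro r hr hq
    apply hne
    have h1 : f * r⁻¹ ∈ commutator (Fb G) := by
      rw [← qb_ker, MonoidHom.mem_ker, map_mul, map_inv, hq, mul_inv_cancel]
    have h2 : rhoBar G f ∈ commutator G := by
      have h3 : rhoBar G (f * r⁻¹) = rhoBar G f := by
        rw [map_mul, map_inv, MonoidHom.mem_ker.mp hr, inv_one, mul_one]
      rw [← h3]
      exact map_commutator_le' (rhoBar G) (Subgroup.mem_map_of_mem _ h1)
    rw [← Abelianization.ker_of, MonoidHom.mem_ker] at h2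
    exact h2
  obtain ⟨m₀, hm₀⟩ : ∃ m₀ : Mult G, ∀ m : Mult G, m ^ p ≠ m₀ := by
    by_contra hcon
    have hsurj : Function.Surjective (fun m : Mult G => m ^ p) := by
      intro m₀
      by_contra h
      exact hcon ⟨m₀, fun m hm => h ⟨m, hm⟩⟩
    have hinj := Finite.injective_iff_surjective.mpr hsurj
    obtain ⟨m₁, hm₁⟩ := exists_prime_orderOf_dvd_card' p hpM
    have h1 : m₁ ^ p = (1 : Mult G) ^ p := by
      rw [one_pow, ← hm₁]; exact pow_orderOf_eq_one _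
    have h2 : m₁ = 1 := hinj h1
    rw [h2, orderOf_one] at hm₁
    exact hp.one_lt.ne hm₁
  obtain ⟨C₁, h₁⟩ := exists_comp (G := G)
  obtain ⟨r₀, hr₀ker, hr₀q⟩ := hr₀
  obtain ⟨c, hc, c₀, hc₀, hrc⟩ := h₁.dec r₀ hr₀ker
  have hc₀q : qb G c₀ = (qb G f) ^ p := by
    rw [← hr₀q, hrc, map_mul]
    have : qb G c = 1 := by
      rw [← MonoidHom.mem_ker, qb_ker]; exact (Subgroup.mem_inf.mp hc).2
    rw [this, one_mul]
  have hcomm : ∀ a ∈ C₁, ∀ b ∈ C₁, a * b = b * a := by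
    intro a ha b _
    have hcc := rhoBar_ker_le_center G (h₁.le ha)
    rw [Subgroup.mem_center_iff] at hcc
    exact (hcc b).symm
  obtain ⟨η, hηadd, hη₀⟩ := exists_eta (qb G) C₁ hcomm (by rw [qb_ker]; exact h₁.inf) p
    ⟨c₀, hc₀⟩ (by
      intro c1 hc1
      apply hno c1.1 (h₁.le c1.2)
      have h1 : (qb G c1.1) ^ p = (qb G f) ^ p := by
        rw [← map_pow, ← hc₀q]
        exact congrArg (fun x : ↥C₁ => qb G x.1) hc1
      exact pow_left_injective hp.ne_zero h1)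
  set M : Fb G := multVal G m₀ with hM
  have hMmem : M ∈ MultSub G := multVal_mem G m₀
  have hMz : ∀ (n : ℤ) (x : Fb G), x * M ^ n = M ^ n * x := by
    intro n x
    have h1 : M ^ n ∈ Subgroup.center (Fb G) :=
      Subgroup.zpow_mem _ (rhoBar_ker_le_center G (Subgroup.mem_inf.mp hMmem).1) n
    rw [Subgroup.mem_center_iff] at h1
    exact h1 x
  have hη1 : η 1 = 0 := by
    have := hηadd 1 1
    rw [one_mul] at this
    omega
  let θ : ↥C₁ →* Fb G := MonoidHom.mk' (fun c => c.1 * M ^ (η c)) (by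
    intro a b
    show (a * b).1 * M ^ (η (a * b)) = a.1 * M ^ (η a) * (b.1 * M ^ (η b))
    rw [hηadd, zpow_add, Subgroup.coe_mul]
    rw [mul_assoc a.1 (M ^ η a), ← mul_assoc (M ^ η a) b.1, ← hMz (η a) b.1]
    group)
  have hθ : ∀ c : ↥C₁, θ c = c.1 * M ^ (η c) := fun c => rfl
  have h₂ : IsComp θ.range := by
    refine ⟨?_, ?_, ?_⟩
    · rintro _ ⟨c, rfl⟩
      rw [hθ]
      exact Subgroup.mul_mem _ (h₁.le c.2) (Subgroup.zpow_mem _ (Subgroup.mem_inf.mp hMmem).1 _)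
    · rw [eq_bot_iff]
      rintro x hx
      obtain ⟨⟨c, rfl⟩, hx2⟩ := Subgroup.mem_inf.mp hx
      rw [hθ] at hx2 ⊢
      have h3 : c.1 ∈ commutator (Fb G) := by
        have h4 : M ^ (η c) ∈ commutator (Fb G) :=
          Subgroup.zpow_mem _ (Subgroup.mem_inf.mp hMmem).2 _
        have := Subgroup.mul_mem _ hx2 (Subgroup.inv_mem _ h4)
        rwa [mul_inv_cancel_right] at this
      have h5 : c.1 ∈ C₁ ⊓ commutator (Fb G) := Subgroup.mem_inf.mpr ⟨c.2, h3⟩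
      rw [h₁.inf, Subgroup.mem_bot] at h5
      have h6 : c = 1 := Subtype.ext h5
      rw [Subgroup.mem_bot, h6, hη1, zpow_zero, mul_one]
      rfl
    · intro x hx
      obtain ⟨m, hm, y, hy, rfl⟩ := h₁.dec x hx
      refine ⟨m * (M ^ (η ⟨y, hy⟩))⁻¹,
        Subgroup.mul_mem _ hm (Subgroup.inv_mem _ (Subgroup.zpow_mem _ hMmem _)),
        θ ⟨y, hy⟩, ⟨⟨y, hy⟩, rfl⟩, ?_⟩
      rw [hθ]
      show m * y = m * (M ^ η ⟨y, hy⟩)⁻¹ * (y * M ^ η ⟨y, hy⟩)
      rw [hMz]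
      group
  refine ⟨C₁, θ.range, h₁, h₂, ?_⟩
  rintro ⟨e, he⟩
  have he' : ∀ x, sig θ.range h₂ (e x) = sig C₁ h₁ x := fun x => by
    rw [← he]; rfl
  have hcen : ∀ x : Fb G, (covMk θ.range h₂ x)⁻¹ * e (covMk C₁ h₁ x) ∈ (sig θ.range h₂).ker := by
    intro x
    rw [MonoidHom.mem_ker, map_mul, map_inv, he', sig_covMk, sig_covMk, inv_mul_cancel]
  have hcen' : ∀ x : Fb G,
      (covMk θ.range h₂ x)⁻¹ * e (covMk C₁ h₁ x) ∈ Subgroup.center (Cov θ.range h₂) :=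
    fun x => (sig_stem θ.range h₂).2.1 (hcen x)
  let δ : Fb G →* ↥(Subgroup.center (Cov θ.range h₂)) :=
    MonoidHom.mk' (fun x => ⟨(covMk θ.range h₂ x)⁻¹ * e (covMk C₁ h₁ x), hcen' x⟩) (by
      intro x y
      apply Subtype.ext
      show (covMk θ.range h₂ (x * y))⁻¹ * e (covMk C₁ h₁ (x * y))
        = ((covMk θ.range h₂ x)⁻¹ * e (covMk C₁ h₁ x))
          * ((covMk θ.range h₂ y)⁻¹ * e (covMk C₁ h₁ y))
      have hcc := hcen' x
      rw [Subgroup.mem_center_iff] at hcc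
      rw [map_mul, map_mul, map_mul, mul_inv_rev,
        ← mul_assoc ((covMk θ.range h₂ x)⁻¹ * e (covMk C₁ h₁ x)), ← hcc (covMk θ.range h₂ y)⁻¹]
      group)
  have hδ : ∀ x, (δ x : Cov θ.range h₂) = (covMk θ.range h₂ x)⁻¹ * e (covMk C₁ h₁ x) :=
    fun x => rfl
  have hδk : ∀ k ∈ commutator (Fb G), δ k = 1 := by
    have hle : commutator (Fb G) ≤ δ.ker := by
      rw [commutator_eq_closure, Subgroup.closure_le]
      rintro _ ⟨a, b, rfl⟩
      rw [SetLike.mem_coe, MonoidHom.mem_ker, map_commutatorElement,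
        commutatorElement_eq_one_iff_commute]
      have hca := (δ a).2
      rw [Subgroup.mem_center_iff] at hca
      show δ a * δ b = δ b * δ a
      exact Subtype.ext (hca (δ b).1).symm
    exact fun k hk => hle hk
  have hk' : (f ^ p)⁻¹ * c₀ ∈ commutator (Fb G) := by
    rw [← qb_ker, MonoidHom.mem_ker, map_mul, map_inv, map_pow, hc₀q, inv_mul_cancel]
  have h7 : δ c₀ = (δ f) ^ p := by
    calc δ c₀ = δ (f ^ p * ((f ^ p)⁻¹ * c₀)) := by rw [mul_inv_cancel_left]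
      _ = (δ f) ^ p := by rw [map_mul, hδk _ hk', mul_one, map_pow]
  have h8 : (δ c₀ : Cov θ.range h₂) = (covMk θ.range h₂ c₀)⁻¹ := by
    rw [hδ, (covMk_eq_one_iff C₁ h₁ c₀).mpr hc₀, map_one, mul_one]
  have hcomp : (sig θ.range h₂).comp (covMk θ.range h₂) = rhoBar G :=
    MonoidHom.ext (fun x => sig_covMk θ.range h₂ x)
  obtain ⟨m₁, hm₁, hm₁f⟩ := lift_ker (sig θ.range h₂) (sig_stem θ.range h₂)
    (covMk θ.range h₂) hcomp _ (hcen f)
  have h9 : covMk θ.range h₂ (c₀ * m₁ ^ p) = 1 := by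
    rw [map_mul, map_pow, hm₁f, ← hδ, ← Subgroup.coe_pow, ← h7, h8, mul_inv_cancel]
  rw [covMk_eq_one_iff] at h9
  have h10 : θ ⟨c₀, hc₀⟩ ∈ θ.range := ⟨_, rfl⟩
  rw [hθ] at h10
  have h11 : (M ^ (η ⟨c₀, hc₀⟩))⁻¹ * m₁ ^ p ∈ θ.range ⊓ commutator (Fb G) := by
    refine Subgroup.mem_inf.mpr ⟨?_, ?_⟩
    · have := Subgroup.mul_mem _ (Subgroup.inv_mem _ h10) h9
      have e1 : (c₀ * M ^ (η ⟨c₀, hc₀⟩))⁻¹ * (c₀ * m₁ ^ p)
          = (M ^ (η ⟨c₀, hc₀⟩))⁻¹ * m₁ ^ p := by group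
      rwa [e1] at this
    · exact Subgroup.mul_mem _
        (Subgroup.inv_mem _ (Subgroup.zpow_mem _ (Subgroup.mem_inf.mp hMmem).2 _))
        (Subgroup.pow_mem _ (Subgroup.mem_inf.mp hm₁).2 _)
  rw [h₂.inf, Subgroup.mem_bot] at h11
  have h12 : m₁ ^ p = M ^ (η ⟨c₀, hc₀⟩) := by
    rw [inv_mul_eq_one] at h11; exact h11.symm
  obtain ⟨μ₁, rfl⟩ := multVal_surj G m₁ hm₁
  have h13 : μ₁ ^ p = m₀ ^ (η ⟨c₀, hc₀⟩) := by
    apply multVal_injective G
    rw [map_pow, map_zpow]; exact h12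
  have hcop : IsCoprime (p : ℤ) (η ⟨c₀, hc₀⟩) :=
    (Nat.prime_iff_prime_int.mp hp).coprime_iff_not_dvd.mpr hη₀
  obtain ⟨a, b, hab⟩ := hcop
  apply hm₀ (m₀ ^ a * μ₁ ^ b)
  have h_a : (m₀ ^ a) ^ p = m₀ ^ (a * p) := by
    rw [← zpow_natCast (m₀ ^ a) p, ← zpow_mul]
  have h_b : (μ₁ ^ b) ^ p = (μ₁ ^ p) ^ b := by
    rw [← zpow_natCast (μ₁ ^ b) p, ← zpow_mul, mul_comm b (p : ℤ), zpow_mul, zpow_natCast]
  calc (m₀ ^ a * μ₁ ^ b) ^ p = (m₀ ^ a) ^ p * (μ₁ ^ b) ^ p := mul_pow _ _ _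
    _ = m₀ ^ (a * p) * (μ₁ ^ p) ^ b := by rw [h_a, h_b]
    _ = m₀ ^ (a * p) * m₀ ^ (b * η ⟨c₀, hc₀⟩) := by
        rw [h13, ← zpow_mul, mul_comm (η ⟨c₀, hc₀⟩) b]
    _ = m₀ := by rw [← zpow_add, hab, zpow_one]

end NonUnique

end Cfsg.Agent.Lib.Helper21.SchurUnique
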